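import Mathlib
import Cfsg.Agent.Lib.Helper65.MonoDefs

/-!
S5634 (m = 1) piece MONO-A1: a nontrivial element `1 + N` of `X`, `N` supported on `J × Jᶜ`,
yields a root element of `X` (three torus commutators).
-/

set_option autoImplicit false
set_option linter.unusedSectionVars false

namespace Cfsg.Agent.Lib.Helper65.Mono

open Matrix

section
variable {F : Type*} [Field F] {κ : Type} [Fintype κ] [DecidableEq κ]

theorem a1_dgv_left (a b : κ) (t : Fˣ) : dgv a b t a = t := by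
  simp [dgv]

theorem a1_dgv_right {a b : κ} (hab : a ≠ b) (t : Fˣ) : dgv a b t b = t⁻¹ := by
  simp [dgv, hab.symm]

theorem a1_dgv_other {a b i : κ} (hia : i ≠ a) (hib : i ≠ b) (t : Fˣ) : dgv a b t i = 1 := by
  simp [dgv, hia, hib]

/-- one torus commutator -/
theorem a1_step {X : Subgroup (GL κ F)} (J : Finset κ) (g : GL κ F) (hg : g ∈ X)
    (hU : UJ J (g : Matrix κ κ F)) (τ : κ → Fˣ) (hd : diagU τ ∈ X) :
    ∃ g' ∈ X, UJ J (g' : Matrix κ κ F) ∧ ∀ i j,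
      (g' : Matrix κ κ F) i j - (1 : Matrix κ κ F) i j =
        ((g : Matrix κ κ F) i j - (1 : Matrix κ κ F) i j) *
          ((τ i : F) * (((τ j)⁻¹ : Fˣ) : F) - 1) := by
  obtain ⟨N, hN⟩ : ∃ N : Matrix κ κ F, N = (g : Matrix κ κ F) - 1 := ⟨_, rfl⟩
  have hgN : (g : Matrix κ κ F) = 1 + N := by
    rw [hN]
    abel
  have hNs : ∀ i j, N i j ≠ 0 → i ∈ J ∧ j ∉ J := by
    intro i j h
    apply hU
    intro h0
    apply h
    rw [hN, Matrix.sub_apply, h0, sub_self]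
  obtain ⟨M, hM⟩ : ∃ M : Matrix κ κ F, ∀ i j,
      M i j = N i j * ((τ i : F) * (((τ j)⁻¹ : Fˣ) : F) - 1) :=
    ⟨Matrix.of fun i j => N i j * ((τ i : F) * (((τ j)⁻¹ : Fˣ) : F) - 1), fun i j => rfl⟩
  have hMN : M * N = 0 := by
    ext i k
    rw [Matrix.mul_apply, Matrix.zero_apply]
    apply Finset.sum_eq_zero
    intro j _
    by_cases hj : j ∈ J
    · have h0 : N i j = 0 := by
        by_contra h
        exact (hNs i j h).2 hj
      rw [hM, h0, zero_mul, zero_mul]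
    · have h0 : N j k = 0 := by
        by_contra h
        exact hj (hNs j k h).1
      rw [h0, mul_zero]
  have hT : ((diagU τ * g * (diagU τ)⁻¹ : GL κ F) : Matrix κ κ F) = 1 + N + M := by
    rw [Units.val_mul, Units.val_mul, diagU_val, diagU_inv_val]
    ext i k
    rw [Matrix.mul_diagonal, Matrix.diagonal_mul, hgN, Matrix.add_apply, Matrix.add_apply,
      Matrix.add_apply, hM]
    by_cases hik : i = k
    · subst hik
      have h0 : N i i = 0 := by
        by_contra h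
        exact (hNs i i h).2 (hNs i i h).1
      rw [h0, Matrix.one_apply_eq]
      simp
    · rw [Matrix.one_apply_ne hik]
      ring
  refine ⟨diagU τ * g * (diagU τ)⁻¹ * g⁻¹,
    X.mul_mem (X.mul_mem (X.mul_mem hd hg) (X.inv_mem hd)) (X.inv_mem hg), ?_⟩
  have hval : ((diagU τ * g * (diagU τ)⁻¹ * g⁻¹ : GL κ F) : Matrix κ κ F) = 1 + M := by
    have h1 : (1 + M) * (g : Matrix κ κ F) =
        ((diagU τ * g * (diagU τ)⁻¹ : GL κ F) : Matrix κ κ F) := by
      rw [hT, hgN, add_mul, one_mul, mul_add, mul_one, hMN, add_zero]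
    rw [Units.val_mul (diagU τ * g * (diagU τ)⁻¹) g⁻¹, ← h1, mul_assoc, ← Units.val_mul,
      mul_inv_cancel, Units.val_one, mul_one]
  constructor
  · intro i j h
    apply hNs
    intro h0
    apply h
    rw [hval, Matrix.add_apply, hM, h0, zero_mul, add_zero]
  · intro i j
    rw [hval, Matrix.add_apply, hM, hN, Matrix.sub_apply]
    ring

/-- A1 -/
theorem a1 [Fintype F] (hq : 5 ≤ Fintype.card F) {X : Subgroup (GL κ F)} (hX : MonIn X) :
    A1P X := by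
  intro J hS g hg hU hg1
  have hex : ∃ i0 j0, (g : Matrix κ κ F) i0 j0 ≠ (1 : Matrix κ κ F) i0 j0 := by
    by_contra hno
    push Not at hno
    apply hg1
    apply Units.ext
    ext i j
    exact hno i j
  obtain ⟨i0, j0, h00⟩ := hex
  obtain ⟨hi0, hj0⟩ := hU i0 j0 h00
  have hcard : 1 < ((Finset.univ : Finset {i // i ∉ J}).erase ⟨j0, hj0⟩).card := by
    rw [Finset.card_erase_of_mem (Finset.mem_univ _), Finset.card_univ]
    omega
  obtain ⟨m, hm, m', hm', hmm⟩ := Finset.one_lt_card.mp hcard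
  have hmj : (m : κ) ≠ j0 := fun h => (Finset.mem_erase.mp hm).1 (Subtype.ext h)
  have hm'j : (m' : κ) ≠ j0 := fun h => (Finset.mem_erase.mp hm').1 (Subtype.ext h)
  have hmm' : (m : κ) ≠ (m' : κ) := fun h => hmm (Subtype.ext h)
  obtain ⟨s, hs⟩ : ∃ s : Fˣ, s ≠ 1 := by
    classical
    have h1 : 1 < Fintype.card Fˣ := by
      rw [Fintype.card_units]
      omega
    exact Fintype.exists_ne_of_one_lt_card h1 1
  have hi0m : i0 ≠ (m : κ) := fun h => m.2 (h ▸ hi0)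
  have hi0j0 : i0 ≠ j0 := fun h => hj0 (h ▸ hi0)
  obtain ⟨g1, hg1X, hU1, hg1e⟩ := a1_step J g hg hU (dgv j0 m s) (dg_mem hX (Ne.symm hmj) s)
  obtain ⟨g2, hg2X, hU2, hg2e⟩ :=
    a1_step J g1 hg1X hU1 (dgv j0 m' s) (dg_mem hX (Ne.symm hm'j) s)
  obtain ⟨g3, hg3X, hU3, hg3e⟩ := a1_step J g2 hg2X hU2 (dgv i0 m s) (dg_mem hX hi0m s)
  have hs1 : (s : F) - 1 ≠ 0 := by
    intro h
    exact hs (Units.ext (sub_eq_zero.mp h))
  have hs2 : ((s⁻¹ : Fˣ) : F) - 1 ≠ 0 := by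
    intro h
    have h1 : (s⁻¹ : Fˣ) = 1 := Units.ext (sub_eq_zero.mp h)
    exact hs (inv_eq_one.mp h1)
  have hn0 : (g : Matrix κ κ F) i0 j0 - (1 : Matrix κ κ F) i0 j0 ≠ 0 := sub_ne_zero.mpr h00
  refine ⟨i0, j0, ((g : Matrix κ κ F) i0 j0 - (1 : Matrix κ κ F) i0 j0) *
    (((s⁻¹ : Fˣ) : F) - 1) * (((s⁻¹ : Fˣ) : F) - 1) * ((s : F) - 1), g3, hi0j0,
    mul_ne_zero (mul_ne_zero (mul_ne_zero hn0 hs2) hs2) hs1, hg3X, ?_⟩
  ext i j
  have key : (g3 : Matrix κ κ F) i j = (1 : Matrix κ κ F) i j +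
      ((g : Matrix κ κ F) i j - (1 : Matrix κ κ F) i j) *
        (((dgv j0 (m : κ) s i : Fˣ) : F) * (((dgv j0 (m : κ) s j)⁻¹ : Fˣ) : F) - 1) *
        (((dgv j0 (m' : κ) s i : Fˣ) : F) * (((dgv j0 (m' : κ) s j)⁻¹ : Fˣ) : F) - 1) *
        (((dgv i0 (m : κ) s i : Fˣ) : F) * (((dgv i0 (m : κ) s j)⁻¹ : Fˣ) : F) - 1) := by
    have h3 := hg3e i j
    rw [hg2e i j, hg1e i j] at h3
    rw [← h3]
    ring
  rw [key, Matrix.transvection, Matrix.add_apply, Matrix.single_apply]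
  congr 1
  by_cases hn : (g : Matrix κ κ F) i j - (1 : Matrix κ κ F) i j = 0
  · rw [hn, zero_mul, zero_mul, zero_mul, if_neg]
    rintro ⟨rfl, rfl⟩
    exact hn0 hn
  · obtain ⟨hiJ, hjJ⟩ := hU i j (fun h => hn (sub_eq_zero.mpr h))
    have hi_j0 : i ≠ j0 := fun h => hj0 (h ▸ hiJ)
    have hi_m : i ≠ (m : κ) := fun h => m.2 (h ▸ hiJ)
    have hi_m' : i ≠ (m' : κ) := fun h => m'.2 (h ▸ hiJ)
    have e1 : dgv j0 (m : κ) s i = 1 := a1_dgv_other hi_j0 hi_m s
    have e2 : dgv j0 (m' : κ) s i = 1 := a1_dgv_other hi_j0 hi_m' s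
    by_cases hj : j = j0
    · rw [hj, a1_dgv_left, a1_dgv_left, e1, e2,
        a1_dgv_other (Ne.symm hi0j0) (Ne.symm hmj) s]
      by_cases hi : i = i0
      · rw [hi, a1_dgv_left, if_pos ⟨rfl, rfl⟩]
        simp only [Units.val_one, inv_one, one_mul, mul_one]
      · rw [a1_dgv_other hi hi_m s, if_neg (fun h => hi h.1.symm)]
        simp
    · rw [if_neg (fun h => hj h.2.symm)]
      by_cases hjm : j = (m : κ)
      · rw [hjm, e2, a1_dgv_other hmj hmm' s]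
        simp
      · rw [e1, a1_dgv_other hj hjm s]
        simp

end

end Cfsg.Agent.Lib.Helper65.Mono
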