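import Mathlib
import Cfsg.Prelude.Def_GeometricClasses
import Cfsg.Agent.Lib.Helper71.Asch0

/-!
# S5630 (Aschbacher's theorem for `GL_n`), piece B8 (tensor-induced branch): shared definitions

* `IsMU E`: `E x y` is a full system of matrix units in `Matrix (Fin n) (Fin n) F`;
* `iota i A`: the matrix `1 ⊗ ⋯ ⊗ A ⊗ ⋯ ⊗ 1` (`A` in position `i`) on the index type
  `Fin k → Fin m`.
-/

set_option autoImplicit false

namespace Cfsg.Agent.Lib.Helper86.ASB8

open Matrix Cfsg.Geo Cfsg.Agent.Lib.Helper71.Asch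

variable {F : Type*} [Field F]

/-- `E` is a full system of matrix units: `E x y * E z w = δ_{y z} E x w` and `∑ x, E x x = 1`. -/
structure IsMU {X : Type} [Fintype X] [DecidableEq X] {n : ℕ}
    (E : X → X → Matrix (Fin n) (Fin n) F) : Prop where
  mul : ∀ x y z w, E x y * E z w = if y = z then E x w else 0
  one : ∑ x, E x x = 1

/-- The embedding of the `i`-th tensor factor: `ι_i(A) = 1 ⊗ ⋯ ⊗ A ⊗ ⋯ ⊗ 1`, with entries
`ι_i(A) x y = A (x i) (y i)` if `x` and `y` agree outside `i`, and `0` otherwise. -/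
def iota {m k : ℕ} (i : Fin k) (A : Matrix (Fin m) (Fin m) F) :
    Matrix (Fin k → Fin m) (Fin k → Fin m) F :=
  Matrix.of fun x y => if ∀ j, j ≠ i → x j = y j then A (x i) (y i) else 0

theorem iota_apply {m k : ℕ} (i : Fin k) (A : Matrix (Fin m) (Fin m) F) (x y : Fin k → Fin m) :
    iota i A x y = if ∀ j, j ≠ i → x j = y j then A (x i) (y i) else 0 := rfl

end Cfsg.Agent.Lib.Helper86.ASB8
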