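import Mathlib
import Cfsg.Prelude.Def_GeometricClasses
import Cfsg.Agent.Lib.Helper71.Asch0
import Cfsg.Agent.Lib.Helper86.ASB8Defs

/-!
# S5630 B8.HOM: every `Ps i` is homogeneous with an absolutely irreducible constituent
-/

set_option autoImplicit false

namespace Cfsg.Agent.Lib.Helper86.ASB8HOM

open Matrix Cfsg.Geo Cfsg.Agent.Lib.Helper71.Asch Cfsg.Agent.Lib.Helper86.ASB8

variable {F : Type*} [Field F]

/-- B8.HOM: every `Ps i` is homogeneous with an absolutely irreducible constituent. -/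
theorem hom [Fintype F] {n : ℕ} (hn : 1 ≤ n) (L : Subgroup (GL (Fin n) F))
    (hLa : ActsAbsolutelyIrreducibly (matrixSet L))
    (k : ℕ) (Ps : Fin k → Subgroup (GL (Fin n) F))
    (hcomm : ∀ i j, i ≠ j → ∀ x ∈ Ps i, ∀ y ∈ Ps j, x * y = y * x)
    (hsup : L = ⨆ i, Ps i)
    (hcoreA : ∀ G N : Subgroup (GL (Fin n) F), ActsIrreducibly (matrixSet G) → N ≤ G → Nrm G N →
      (∃ (t m : ℕ) (D : Fin t → Submodule F (Fin n → F)), IsMDecomposition m D ∧
        G ≤ decompositionStabilizer D ∧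
        (∀ i, ∀ X : Matrix (Fin n) (Fin n) F, (∀ x ∈ N, X * x.1 = x.1 * X) →
          (D i).map (Matrix.toLin' X) ≤ D i) ∧
        (∀ i, ∀ x ∈ N, (D i).map (Matrix.toLin' x.1) ≤ D i)) ∨
      (∃ (d k : ℕ) (e : Fin n ≃ Fin d × Fin k) (P : GL (Fin n) F) (R : Subgroup (GL (Fin d) F)),
        ActsIrreducibly (matrixSet R) ∧ (∀ x ∈ N, ∃ y ∈ R, x.1 = tmat e P y.1 1) ∧
        (∀ y ∈ R, ∃ x ∈ N, x.1 = tmat e P y.1 1)))
    (hcoreB : ∀ G N : Subgroup (GL (Fin n) F), N ≤ G → Nrm G N → ∀ {d k : ℕ}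
      (e : Fin n ≃ Fin d × Fin k) (P : GL (Fin n) F) (R : Subgroup (GL (Fin d) F)),
      ActsIrreducibly (matrixSet R) → (∀ x ∈ N, ∃ y ∈ R, x.1 = tmat e P y.1 1) →
      (∀ y ∈ R, ∃ x ∈ N, x.1 = tmat e P y.1 1) → ¬ ActsAbsolutelyIrreducibly (matrixSet R) →
      ∃ (r : ℕ) (K : Subalgebra F (Matrix (Fin n) (Fin n) F)), r.Prime ∧ IsFieldSubalgebra r K ∧
        G ≤ subalgebraNormalizer K ∧
        (∀ z ∈ K, (∀ x ∈ N, z * x.1 = x.1 * z) ∧
          ∀ X : Matrix (Fin n) (Fin n) F, (∀ x ∈ N, X * x.1 = x.1 * X) → z * X = X * z))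
    (i : Fin k) :
    ∃ (d k' : ℕ) (e : Fin n ≃ Fin d × Fin k') (P : GL (Fin n) F) (R : Subgroup (GL (Fin d) F)),
      ActsAbsolutelyIrreducibly (matrixSet R) ∧ (∀ x ∈ Ps i, ∃ y ∈ R, x.1 = tmat e P y.1 1) ∧
      (∀ y ∈ R, ∃ x ∈ Ps i, x.1 = tmat e P y.1 1) := by
  classical
  have hNL : Ps i ≤ L := by rw [hsup]; exact le_iSup Ps i
  have hNrm : Nrm L (Ps i) := by
    intro g hg
    have hg' : g ∈ ⨆ j, Ps j := hsup ▸ hg
    refine Subgroup.iSup_induction Ps (C := fun g => ∀ x ∈ Ps i, g * x * g⁻¹ ∈ Ps i) hg' ?_ ?_ ?_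
    · intro j y hy x hx
      by_cases hj : j = i
      · subst hj
        exact (Ps j).mul_mem ((Ps j).mul_mem hy hx) ((Ps j).inv_mem hy)
      · have h1 := hcomm j i hj y hy x hx
        rw [h1, mul_assoc, mul_inv_cancel, mul_one]
        exact hx
    · intro x hx
      simpa using hx
    · intro g₁ g₂ h₁ h₂ x hx
      have h3 := h₁ _ (h₂ x hx)
      have h4 : g₁ * g₂ * x * (g₁ * g₂)⁻¹ = g₁ * (g₂ * x * g₂⁻¹) * g₁⁻¹ := by group
      rw [h4]
      exact h3
  have hcm : ∀ j, j ≠ i → ∀ y ∈ Ps j, ∀ x ∈ Ps i, y.1 * x.1 = x.1 * y.1 := by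
    intro j hj y hy x hx
    rw [← Units.val_mul, ← Units.val_mul, hcomm j i hj y hy x hx]
  rcases hcoreA L (Ps i) hLa.1 hNL hNrm with ⟨t, m, D, hD, -, hDX, hDN⟩ |
    ⟨d, k', e, P, R, hR, h1, h2⟩
  · exfalso
    have ht := hD.two_le
    have hinv : ∀ s ∈ matrixSet L, (D ⟨0, by omega⟩).map (Matrix.toLin' s) ≤ D ⟨0, by omega⟩ := by
      rintro s ⟨x, hx, rfl⟩
      have hx' : x ∈ ⨆ j, Ps j := hsup ▸ hx
      refine Subgroup.iSup_induction Ps
        (C := fun x => (D ⟨0, by omega⟩).map (Matrix.toLin' x.1) ≤ D ⟨0, by omega⟩) hx' ?_ ?_ ?_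
      · intro j y hy
        by_cases hj : j = i
        · subst hj
          exact hDN _ y hy
        · exact hDX _ y.1 (fun x hx => hcm j hj y hy x hx)
      · simp
      · intro y z hy hz
        rw [Units.val_mul, Matrix.toLin'_mul, Submodule.map_comp]
        exact (Submodule.map_mono hz).trans hy
    rcases hLa.1 _ hinv with h0 | h0
    · have h5 := hD.finrank_eq ⟨0, by omega⟩
      rw [h0, finrank_bot] at h5
      have := hD.pos
      omega
    · have hne : (⟨1, by omega⟩ : Fin t) ≠ ⟨0, by omega⟩ := by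
        intro h
        simpa using congrArg Fin.val h
      have hdisj : Disjoint (D ⟨1, by omega⟩) (D ⟨0, by omega⟩) := hD.indep.pairwiseDisjoint hne
      rw [h0] at hdisj
      have h6 : D ⟨1, by omega⟩ = ⊥ := disjoint_top.mp hdisj
      have h5 := hD.finrank_eq ⟨1, by omega⟩
      rw [h6, finrank_bot] at h5
      have := hD.pos
      omega
  · by_cases hRa : ActsAbsolutelyIrreducibly (matrixSet R)
    · exact ⟨d, k', e, P, R, hRa, h1, h2⟩
    · exfalso
      obtain ⟨r, K, hr, hK, -, hKc⟩ := hcoreB L (Ps i) hNL hNrm e P R hR h1 h2 hRa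
      have hz : ∀ z ∈ K, ∃ c : F, z = c • (1 : Matrix (Fin n) (Fin n) F) := by
        intro z hz
        apply hLa.2
        rintro s ⟨x, hx, rfl⟩
        have hx' : x ∈ ⨆ j, Ps j := hsup ▸ hx
        refine Subgroup.iSup_induction Ps (C := fun x => z * x.1 = x.1 * z) hx' ?_ ?_ ?_
        · intro j y hy
          by_cases hj : j = i
          · subst hj
            exact (hKc z hz).1 y hy
          · exact (hKc z hz).2 y.1 (fun x hx => hcm j hj y hy x hx)
        · simp
        · intro y w hy hw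
          rw [Units.val_mul, ← mul_assoc, hy, mul_assoc, hw, mul_assoc]
      have hle : Subalgebra.toSubmodule K ≤
          Submodule.span F {(1 : Matrix (Fin n) (Fin n) F)} := by
        intro z hz'
        obtain ⟨c, rfl⟩ := hz z hz'
        exact Submodule.smul_mem _ c (Submodule.subset_span rfl)
      have h7 : Module.finrank F K ≤ 1 := by
        calc Module.finrank F K = Module.finrank F (Subalgebra.toSubmodule K) := rfl
          _ ≤ Module.finrank F (Submodule.span F {(1 : Matrix (Fin n) (Fin n) F)}) :=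
            Submodule.finrank_mono hle
          _ ≤ 1 := by
            refine (finrank_span_le_card ({(1 : Matrix (Fin n) (Fin n) F)} : Set _)).trans ?_
            simp
      have h8 := hK.finrank_eq
      have h9 := hr.two_le
      omega

end Cfsg.Agent.Lib.Helper86.ASB8HOM
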