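import Mathlib
import Cfsg.Prelude.Def_GeometricClasses
import Cfsg.Agent.Lib.Helper71.Asch0
import Cfsg.Agent.Lib.Helper86.ASB8Defs

/-!
# S5630 B8.IOTA: basic lemmas on the embedding `iota` of a tensor factor
-/

set_option autoImplicit false

namespace Cfsg.Agent.Lib.Helper86.ASB8IOTA

open Matrix Cfsg.Geo Cfsg.Agent.Lib.Helper71.Asch Cfsg.Agent.Lib.Helper86.ASB8

variable {F : Type*} [Field F]

theorem off_update {m k : ℕ} (i : Fin k) (x y : Fin k → Fin m) :
    (∀ j, j ≠ i → x j = y j) ↔ y = Function.update x i (y i) := by
  constructor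
  · intro h
    funext j
    by_cases hj : j = i
    · subst hj; simp
    · rw [Function.update_of_ne hj, h j hj]
  · intro h j hj
    rw [h, Function.update_of_ne hj]

theorem iota_mul {m k : ℕ} (i : Fin k) (A B : Matrix (Fin m) (Fin m) F) :
    iota i (A * B) = iota i A * iota i B := by
  ext x z
  rw [Matrix.mul_apply, iota_apply]
  -- the sum over `y` is a sum over `c = y i`
  have h1 : ∀ y : Fin k → Fin m, iota i A x y * iota i B y z =
      if y = Function.update x i (y i) then
        (if ∀ j, j ≠ i → x j = z j then A (x i) (y i) * B (y i) (z i) else 0) else 0 := by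
    intro y
    rw [iota_apply, iota_apply]
    by_cases hxy : ∀ j, j ≠ i → x j = y j
    · rw [if_pos hxy, if_pos ((off_update i x y).mp hxy)]
      by_cases hyz : ∀ j, j ≠ i → y j = z j
      · rw [if_pos hyz, if_pos (fun j hj => (hxy j hj).trans (hyz j hj))]
      · rw [if_neg hyz, mul_zero, if_neg]
        intro hxz
        exact hyz (fun j hj => (hxy j hj).symm.trans (hxz j hj))
    · rw [if_neg hxy, zero_mul, if_neg]
      intro h
      exact hxy ((off_update i x y).mpr h)
  rw [Finset.sum_congr rfl (fun y _ => h1 y)]
  by_cases hxz : ∀ j, j ≠ i → x j = z j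
  · rw [if_pos hxz, Matrix.mul_apply]
    simp only [if_pos hxz]
    -- reindex by `c ↦ update x i c`
    rw [← Finset.sum_subset (Finset.subset_univ (Finset.univ.image (fun c => Function.update x i c)))]
    · rw [Finset.sum_image]
      · apply Finset.sum_congr rfl
        intro c _
        simp
      · intro c _ c' _ h
        have := congrFun h i
        simpa using this
    · intro y _ hy
      rw [if_neg]
      intro h
      exact hy (Finset.mem_image.mpr ⟨y i, Finset.mem_univ _, h.symm⟩)
  · rw [if_neg hxz]
    simp only [if_neg hxz, ite_self, Finset.sum_const_zero]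

theorem iota_one {m k : ℕ} (i : Fin k) : iota i (1 : Matrix (Fin m) (Fin m) F) = 1 := by
  ext x y
  rw [iota_apply]
  by_cases hxy : x = y
  · subst hxy
    simp
  · rw [Matrix.one_apply_ne hxy]
    split_ifs with h
    · apply Matrix.one_apply_ne
      intro hi
      apply hxy
      funext j
      by_cases hj : j = i
      · rw [hj]; exact hi
      · exact h j hj
    · rfl

theorem iota_add {m k : ℕ} (i : Fin k) (A B : Matrix (Fin m) (Fin m) F) :
    iota i (A + B) = iota i A + iota i B := by
  ext x y
  rw [Matrix.add_apply, iota_apply, iota_apply, iota_apply]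
  split_ifs
  · rfl
  · simp

theorem iota_smul {m k : ℕ} (i : Fin k) (c : F) (A : Matrix (Fin m) (Fin m) F) :
    iota i (c • A) = c • iota i A := by
  ext x y
  rw [Matrix.smul_apply, iota_apply, iota_apply]
  split_ifs
  · rfl
  · simp

theorem iota_zero {m k : ℕ} (i : Fin k) : iota i (0 : Matrix (Fin m) (Fin m) F) = 0 := by
  ext x y
  rw [iota_apply]
  simp

theorem iota_sum {m k : ℕ} (i : Fin k) {ι : Type*} (s : Finset ι)
    (f : ι → Matrix (Fin m) (Fin m) F) : iota i (∑ a ∈ s, f a) = ∑ a ∈ s, iota i (f a) := by
  classical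
  induction s using Finset.induction_on with
  | empty => simp [iota_zero]
  | insert a s ha ih => rw [Finset.sum_insert ha, Finset.sum_insert ha, iota_add, ih]

theorem iota_injective {m k : ℕ} (i : Fin k) :
    Function.Injective (iota (F := F) (m := m) i) := by
  intro A B h
  ext a b
  have h1 := congrFun (congrFun h (fun _ => a)) (Function.update (fun _ => a) i b)
  rw [iota_apply, iota_apply] at h1
  have h2 : ∀ j, j ≠ i → (fun _ : Fin k => a) j = Function.update (fun _ : Fin k => a) i b j := by
    intro j hj
    rw [Function.update_of_ne hj]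
  rw [if_pos h2, if_pos h2] at h1
  simpa using h1

theorem iota_single {m k : ℕ} (i : Fin k) (a b : Fin m) :
    iota i (Matrix.single a b (1 : F)) =
      ∑ x : Fin k → Fin m, if x i = a then Matrix.single x (Function.update x i b) (1 : F)
        else 0 := by
  ext x' y'
  rw [iota_apply, Matrix.sum_apply]
  rw [Finset.sum_eq_single x']
  · have e1 : (if x' i = a then Matrix.single x' (Function.update x' i b) (1 : F) else 0) x' y' =
        if x' i = a ∧ y' = Function.update x' i b then 1 else 0 := by
      by_cases ha : x' i = a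
      · rw [if_pos ha, Matrix.single_apply]
        by_cases hy : y' = Function.update x' i b
        · rw [if_pos ⟨rfl, hy.symm⟩, if_pos ⟨ha, hy⟩]
        · rw [if_neg (fun h => hy h.2.symm), if_neg (fun h => hy h.2)]
      · rw [if_neg ha, Matrix.zero_apply, if_neg (fun h => ha h.1)]
    rw [e1, Matrix.single_apply]
    by_cases h2 : ∀ j, j ≠ i → x' j = y' j
    · rw [if_pos h2]
      have h3 := (off_update i x' y').mp h2
      by_cases ha : x' i = a
      · by_cases hb : y' i = b
        · rw [if_pos ⟨ha.symm, hb.symm⟩, if_pos ⟨ha, h3.trans (by rw [hb])⟩]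
        · rw [if_neg (fun h => hb h.2.symm), if_neg]
          rintro ⟨-, hy⟩
          apply hb
          rw [hy]
          simp
      · rw [if_neg (fun h => ha h.1.symm), if_neg (fun h => ha h.1)]
    · rw [if_neg h2, if_neg]
      rintro ⟨-, hy⟩
      apply h2
      intro j hj
      rw [hy, Function.update_of_ne hj]
  · intro x _ hx
    split_ifs
    · rw [Matrix.single_apply, if_neg (fun hh => hx hh.1)]
    · rfl
  · intro h
    exact absurd (Finset.mem_univ _) h

theorem iota_eq_sum {m k : ℕ} (i : Fin k) (A : Matrix (Fin m) (Fin m) F) :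
    iota i A = ∑ a, ∑ b, A a b • iota i (Matrix.single a b (1 : F)) := by
  conv_lhs => rw [Matrix.matrix_eq_sum_single A]
  rw [iota_sum]
  apply Finset.sum_congr rfl
  intro a _
  rw [iota_sum]
  apply Finset.sum_congr rfl
  intro b _
  rw [← iota_smul]
  congr 1
  ext a' b'
  simp [Matrix.single_apply]

end Cfsg.Agent.Lib.Helper86.ASB8IOTA
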