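import Mathlib
import Cfsg.Prelude.Def_GeometricClasses
import Cfsg.Agent.Lib.Helper71.Asch0
import Cfsg.Agent.Lib.Helper86.ASB8Defs

/-!
# S5630 B8.TW2B: transport of the standard form on the tensor power of `F²` and class membership
-/

set_option autoImplicit false

namespace Cfsg.Agent.Lib.Helper86.ASB8TW2B

open Matrix Cfsg.Geo Cfsg.Agent.Lib.Helper71.Asch Cfsg.Agent.Lib.Helper86.ASB8

variable {F : Type*} [Field F]

/-- B8.TW2B: transport of the standard form and class membership. -/
theorem tw2_of_std [Fintype F] {n : ℕ} (hn : 3 ≤ n) {k : ℕ} (hk : 2 ≤ k)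
    (e : Fin n ≃ (Fin k → Fin 2)) (P : GL (Fin n) F)
    (f₀ : ((Fin k → Fin 2) → F) → ((Fin k → Fin 2) → F) → F)
    (hb : IsBilinearForm f₀) (hnd : IsNondegenerateForm f₀)
    (hsym : ∀ u v, f₀ v u = (-1) ^ k * f₀ u v)
    (halt : ((2 : F) = 0 ∨ Odd k) → ∀ v, f₀ v v = 0)
    (hle : tensorWreathStandard 2 k F ≤ similarityGroup f₀) :
    InCls (tensorWreathSubgroup 2 k e P) := by
  classical
  -- the transport map
  set T : (Fin n → F) → ((Fin k → Fin 2) → F) :=
    fun v x => ((P⁻¹ : GL (Fin n) F).1 *ᵥ v) (e.symm x) with hT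
  have hTadd : ∀ u v, T (u + v) = T u + T v := by
    intro u v
    funext x
    simp only [hT, Matrix.mulVec_add, Pi.add_apply]
  have hTsmul : ∀ (c : F) v, T (c • v) = c • T v := by
    intro c v
    funext x
    simp only [hT, Matrix.mulVec_smul, Pi.smul_apply]
  have hTsurj : ∀ w : (Fin k → Fin 2) → F, ∃ v, T v = w := by
    intro w
    refine ⟨P.1 *ᵥ (fun j => w (e j)), ?_⟩
    funext x
    simp only [hT]
    rw [Matrix.mulVec_mulVec, ← Units.val_mul, inv_mul_cancel, Units.val_one, Matrix.one_mulVec,
      Equiv.apply_symm_apply]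
  have hTinj : ∀ v, T v = 0 → v = 0 := by
    intro v hv
    have h1 : (P⁻¹ : GL (Fin n) F).1 *ᵥ v = 0 := by
      funext j
      have := congrFun hv (e j)
      simpa [hT] using this
    have h2 : v = P.1 *ᵥ ((P⁻¹ : GL (Fin n) F).1 *ᵥ v) := by
      rw [Matrix.mulVec_mulVec, ← Units.val_mul, mul_inv_cancel, Units.val_one,
        Matrix.one_mulVec]
    rw [h2, h1, Matrix.mulVec_zero]
  -- the form
  set f : (Fin n → F) → (Fin n → F) → F := fun u v => f₀ (T u) (T v) with hf
  have hfb : IsBilinearForm f := by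
    refine ⟨?_, ?_, ?_, ?_⟩
    · intro x y v
      simp only [hf, hTadd]
      exact hb.add_left _ _ _
    · intro c x v
      simp only [hf, hTsmul]
      exact hb.smul_left _ _ _
    · intro v x y
      simp only [hf, hTadd]
      exact hb.add_right _ _ _
    · intro c v x
      simp only [hf, hTsmul]
      exact hb.smul_right _ _ _
  have hfnd : IsNondegenerateForm f := by
    intro v hv
    have hTv : T v ≠ 0 := fun h => hv (hTinj v h)
    obtain ⟨⟨x, hx⟩, ⟨y, hy⟩⟩ := hnd (T v) hTv
    obtain ⟨x', rfl⟩ := hTsurj x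
    obtain ⟨y', rfl⟩ := hTsurj y
    exact ⟨⟨x', hx⟩, ⟨y', hy⟩⟩
  have hfsym : ∀ u v, f v u = (-1) ^ k * f u v := fun u v => hsym (T u) (T v)
  -- the similarity property
  have hsim : ∀ g ∈ tensorWreathSubgroup 2 k e P, ∃ c : Fˣ, ∀ u v,
      f (g.1 *ᵥ u) (g.1 *ᵥ v) = (c : F) * f u v := by
    intro g hg
    unfold tensorWreathSubgroup at hg
    obtain ⟨_, ⟨g₀, hg₀, rfl⟩, rfl⟩ := hg
    obtain ⟨c, hc⟩ := hle hg₀
    refine ⟨c, fun u v => ?_⟩
    have key : ∀ v, T (((MulAut.conj P).toMonoidHom
        ((glReindex e.symm).toMonoidHom g₀)).1 *ᵥ v) = g₀.1 *ᵥ T v := by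
      intro v
      have h2 : ((glReindex e.symm g₀ : GL (Fin n) F) : Matrix (Fin n) (Fin n) F) =
          Matrix.reindexAlgEquiv F F e.symm (g₀ : Matrix (Fin k → Fin 2) (Fin k → Fin 2) F) := rfl
      have h3 : ((MulAut.conj P).toMonoidHom ((glReindex e.symm).toMonoidHom g₀)).1 =
          P.1 * Matrix.reindexAlgEquiv F F e.symm g₀.1 * (P⁻¹ : GL (Fin n) F).1 := by
        show (P * glReindex e.symm g₀ * P⁻¹ : GL (Fin n) F).1 = _
        rw [Units.val_mul, Units.val_mul, h2]
      rw [h3]
      funext x
      simp only [hT]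
      rw [Matrix.mulVec_mulVec, ← mul_assoc, ← mul_assoc, ← Units.val_mul, inv_mul_cancel,
        Units.val_one, one_mul, ← Matrix.mulVec_mulVec]
      simp only [Matrix.mulVec, dotProduct, Matrix.coe_reindexAlgEquiv, Matrix.reindex_apply,
        Matrix.submatrix_apply, Equiv.symm_symm, Equiv.apply_symm_apply]
      exact Fintype.sum_equiv e _ _ (fun j => by simp)
    show f₀ (T _) (T _) = c * f₀ (T u) (T v)
    rw [key, key, hc]
  have hcard : n = 2 ^ k := by
    have := Fintype.card_congr e
    simpa using this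
  by_cases hcase : (2 : F) = 0 ∨ Odd k
  · have hneg : (-1 : F) ^ k = -1 := by
      rcases hcase with h2 | hodd
      · have h1 : (-1 : F) = 1 := by
          have h3 : (1 : F) + 1 = 0 := by rw [one_add_one_eq_two]; exact h2
          linear_combination -h3
        rw [h1, one_pow]
      · exact hodd.neg_one_pow
    have hsymp : IsSymplecticForm f := by
      refine ⟨hfb, ?_, ?_, hfnd⟩
      · intro v w
        have h4 := hfsym v w
        rw [hneg] at h4
        rw [h4]
        ring
      · intro v
        exact halt hcase (T v)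
    refine ⟨similarityGroup f, ?_, fun g hg => hsim g hg⟩
    right; right; right; right; right; right; right; right; right; left
    refine ⟨f, hsymp, ?_, ?_, rfl⟩
    · rw [hcard]
      exact (Nat.even_pow.mpr ⟨even_two, by omega⟩)
    · rw [hcard]
      calc 4 = 2 ^ 2 := by norm_num
        _ ≤ 2 ^ k := Nat.pow_le_pow_right (by norm_num) hk
  · push Not at hcase
    obtain ⟨h2, hodd⟩ := hcase
    have hpos : (-1 : F) ^ k = 1 := (Nat.not_odd_iff_even.mp hodd).neg_one_pow
    have hfsym' : ∀ u v, f v u = f u v := by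
      intro u v
      rw [hfsym, hpos, one_mul]
    set Q : (Fin n → F) → F := fun v => f v v with hQ
    have hpolar : QuadraticMap.polar Q = fun v w => 2 * f v w := by
      funext v w
      simp only [QuadraticMap.polar, hQ]
      rw [hfb.add_left, hfb.add_right, hfb.add_right, hfsym' v w]
      ring
    have hQnd : IsNondegenerateQuadraticForm Q := by
      refine ⟨?_, ?_, ?_⟩
      · intro c v
        simp only [hQ]
        rw [hfb.smul_left, hfb.smul_right]
        ring
      · rw [hpolar]
        refine ⟨?_, ?_, ?_, ?_⟩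
        · intro x y v
          rw [hfb.add_left]
          ring
        · intro c x v
          rw [hfb.smul_left]
          ring
        · intro v x y
          rw [hfb.add_right]
          ring
        · intro c v x
          rw [hfb.smul_right]
          ring
      · rw [hpolar]
        intro v hv
        obtain ⟨⟨x, hx⟩, ⟨y, hy⟩⟩ := hfnd v hv
        exact ⟨⟨x, mul_ne_zero h2 hx⟩, ⟨y, mul_ne_zero h2 hy⟩⟩
    have hoddF : Odd (Fintype.card F) := by
      have hch : ringChar F ≠ 2 := by
        intro h
        have : CharP F 2 := ringChar.of_eq h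
        exact h2 (by exact_mod_cast CharP.cast_eq_zero F 2)
      exact Nat.odd_iff.mpr (FiniteField.odd_card_of_char_ne_two hch)
    refine ⟨quadSimilarityGroup Q, ?_, ?_⟩
    · right; right; right; right; right; right; right; right; right; right; right
      exact ⟨Q, hQnd, hoddF, hn, rfl⟩
    · intro g hg
      obtain ⟨c, hc⟩ := hsim g hg
      exact ⟨c, fun v => hc v v⟩

end Cfsg.Agent.Lib.Helper86.ASB8TW2B
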