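import Mathlib
import Cfsg.Prelude.Def_GeometricClasses
import Cfsg.Agent.Lib.Helper71.Asch0
import Cfsg.Agent.Lib.Helper86.ASB8Defs
import Cfsg.Agent.Lib.Helper86.ASB8IOTA
import Cfsg.Agent.Lib.Helper86.ASB8HOM
import Cfsg.Agent.Lib.Helper34.ASB8MU
import Cfsg.Agent.Lib.Helper34.ASB8FP
import Cfsg.Agent.Lib.Helper71.ASB8PT
import Cfsg.Agent.Lib.Helper71.ASB8WR
import Cfsg.Agent.Lib.Helper82.ASB8BIG
import Cfsg.Agent.Lib.Helper82.ASB8UNITS
import Cfsg.Agent.Lib.Helper83.ASB8BURN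
import Cfsg.Agent.Lib.Helper83.ASB8SC
import Cfsg.Agent.Lib.Helper83.ASB8INN
import Cfsg.Agent.Lib.Helper59.ASB8DIM
import Cfsg.Agent.Lib.Helper59.ASB8SCAL
import Cfsg.Agent.Lib.Helper97.ASB8TW2A
import Cfsg.Agent.Lib.Helper86.ASB8TW2B
/-!
# S5630 (Aschbacher's theorem for `GL_n`), piece B8: the tensor-induced branch (assembly)

`B8_of`: the statement of B8 of the S5630 skeleton with `coreA` and `coreB` as hypotheses.
-/

set_option autoImplicit false

namespace Cfsg.Agent.Lib.Helper86.ASB8Main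

open Matrix Cfsg.Geo Cfsg.Agent.Lib.Helper86.ASB8
open Cfsg.Agent.Lib.Helper71.Asch (Nrm InCls tmat)

variable {F : Type*} [Field F]

/-- NORM (assembly) -/
theorem norm_wreath {m k : ℕ} (hm : 1 ≤ m) (hk : 1 ≤ k) (g : GL (Fin k → Fin m) F)
    (σ : Equiv.Perm (Fin k))
    (hg : ∀ (i : Fin k) (A : Matrix (Fin m) (Fin m) F), ∃ A' : Matrix (Fin m) (Fin m) F,
      g.1 * iota i A * (g⁻¹ : GL (Fin k → Fin m) F).1 = iota (σ i) A') :
    g ∈ tensorWreathStandard m k F := by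
  classical
  have hc : ∀ i, ∃ c : GL (Fin m) F, ∀ A : Matrix (Fin m) (Fin m) F,
      g.1 * iota i A * (g⁻¹ : GL (Fin k → Fin m) F).1 =
        iota (σ i) (c.1 * A * (c⁻¹ : GL (Fin m) F).1) :=
    fun i => Cfsg.Agent.Lib.Helper83.ASB8INN.inner hm i (σ i) g (hg i) (fun E hE hcomm => Cfsg.Agent.Lib.Helper34.ASB8MU.mu_conj hm E hE hcomm)
  choose c hc using hc
  obtain ⟨t, ht, htc⟩ := Cfsg.Agent.Lib.Helper71.ASB8PT.pure_conj (fun j => c (σ.symm j))
  obtain ⟨π, hπ, hπc⟩ := Cfsg.Agent.Lib.Helper34.ASB8FP.perm_conj (F := F) (m := m) σ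
  have hg' : ∀ i A, g.1 * iota i A =
      iota (σ i) ((c i).1 * A * ((c i)⁻¹ : GL (Fin m) F).1) * g.1 := by
    intro i A
    rw [← hc i A, mul_assoc, ← Units.val_mul, inv_mul_cancel, Units.val_one, mul_one]
  have htπ : ∀ i A, (t * π).1 * iota i A =
      iota (σ i) ((c i).1 * A * ((c i)⁻¹ : GL (Fin m) F).1) * (t * π).1 := by
    intro i A
    have h1 := htc (σ i) A
    simp only [Equiv.symm_apply_apply] at h1
    rw [Units.val_mul, mul_assoc, hπc i A, ← mul_assoc, h1, mul_assoc]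
  have hucomm : ∀ i A, ((t * π)⁻¹ * g).1 * iota i A = iota i A * ((t * π)⁻¹ * g).1 := by
    intro i A
    have key : ∀ (X Xi ι' ι : Matrix (Fin k → Fin m) (Fin k → Fin m) F), X * Xi = 1 →
        Xi * X = 1 → X * ι = ι' * X → Xi * ι' = ι * Xi := by
      intro X Xi ι' ι h1 h2 h3
      calc Xi * ι' = Xi * (ι' * X) * Xi := by
            rw [Matrix.mul_assoc, Matrix.mul_assoc, h1, Matrix.mul_one]
        _ = Xi * (X * ι) * Xi := by rw [h3]
        _ = ι * Xi := by rw [← Matrix.mul_assoc Xi X, h2, Matrix.one_mul]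
    have h1 : ((t * π)⁻¹ : GL (Fin k → Fin m) F).1 *
        iota (σ i) ((c i).1 * A * ((c i)⁻¹ : GL (Fin m) F).1) =
        iota i A * ((t * π)⁻¹ : GL (Fin k → Fin m) F).1 :=
      key _ _ _ _ (by rw [← Units.val_mul, mul_inv_cancel, Units.val_one])
        (by rw [← Units.val_mul, inv_mul_cancel, Units.val_one]) (htπ i A)
    rw [Units.val_mul, mul_assoc, hg' i A, ← mul_assoc, h1, mul_assoc]
  obtain ⟨c₀, hc₀⟩ := Cfsg.Agent.Lib.Helper83.ASB8SC.comm_scalar ((t * π)⁻¹ * g).1 hucomm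
  have hc₀ne : c₀ ≠ 0 := by
    rintro rfl
    rw [zero_smul] at hc₀
    have h1 : (1 : Matrix (Fin k → Fin m) (Fin k → Fin m) F) = 0 := by
      have h2 : ((t * π)⁻¹ * g).1 * (((t * π)⁻¹ * g)⁻¹ : GL (Fin k → Fin m) F).1 = 1 := by
        rw [← Units.val_mul, mul_inv_cancel, Units.val_one]
      rw [← h2, hc₀, zero_mul]
    have h3 := congrFun (congrFun h1 (fun _ => ⟨0, hm⟩)) (fun _ => ⟨0, hm⟩)
    simp at h3
  obtain ⟨t', ht', ht'v⟩ := Cfsg.Agent.Lib.Helper71.ASB8PT.pure_smul hk t ht (Units.mk0 c₀ hc₀ne)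
  have hgeq : g = t' * π := by
    apply Units.ext
    have h2 : g = (t * π) * ((t * π)⁻¹ * g) := by group
    rw [h2, Units.val_mul, hc₀, Units.val_mul, Units.val_mul, ht'v]
    simp
  rw [hgeq]
  exact Subgroup.mul_mem _ (Subgroup.subset_closure (Or.inl ht'))
    (Subgroup.subset_closure (Or.inr hπ))

/-- B8 (assembly), with `coreA` and `coreB` as hypotheses. -/
theorem B8_of [Fintype F] {n : ℕ} (hn : 3 ≤ n) (H L : Subgroup (GL (Fin n) F))
    (hLa : ActsAbsolutelyIrreducibly (matrixSet L))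
    (k : ℕ) (Ps : Fin k → Subgroup (GL (Fin n) F)) (hk : 2 ≤ k)
    (hns : ∀ i, ¬ Ps i ≤ scalars (Fin n) F)
    (hcomm : ∀ i j, i ≠ j → ∀ x ∈ Ps i, ∀ y ∈ Ps j, x * y = y * x)
    (hsup : L = ⨆ i, Ps i)
    (hperm : ∀ h ∈ H, ∃ σ : Equiv.Perm (Fin k), ∀ i,
      (Ps i).map (MulAut.conj h).toMonoidHom = Ps (σ i))
    (htrans : ∀ i j, ∃ h ∈ H, (Ps i).map (MulAut.conj h).toMonoidHom = Ps j)
    (hcoreA : ∀ G N : Subgroup (GL (Fin n) F), ActsIrreducibly (matrixSet G) → N ≤ G → Nrm G N →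
      (∃ (t m : ℕ) (D : Fin t → Submodule F (Fin n → F)), IsMDecomposition m D ∧
        G ≤ decompositionStabilizer D ∧
        (∀ i, ∀ X : Matrix (Fin n) (Fin n) F, (∀ x ∈ N, X * x.1 = x.1 * X) →
          (D i).map (Matrix.toLin' X) ≤ D i) ∧
        (∀ i, ∀ x ∈ N, (D i).map (Matrix.toLin' x.1) ≤ D i)) ∨
      (∃ (d k : ℕ) (e : Fin n ≃ Fin d × Fin k) (P : GL (Fin n) F) (R : Subgroup (GL (Fin d) F)),
        ActsIrreducibly (matrixSet R) ∧ (∀ x ∈ N, ∃ y ∈ R, x.1 = tmat e P y.1 1) ∧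
        (∀ y ∈ R, ∃ x ∈ N, x.1 = tmat e P y.1 1)))
    (hcoreB : ∀ G N : Subgroup (GL (Fin n) F), N ≤ G → Nrm G N → ∀ {d k : ℕ}
      (e : Fin n ≃ Fin d × Fin k) (P : GL (Fin n) F) (R : Subgroup (GL (Fin d) F)),
      ActsIrreducibly (matrixSet R) → (∀ x ∈ N, ∃ y ∈ R, x.1 = tmat e P y.1 1) →
      (∀ y ∈ R, ∃ x ∈ N, x.1 = tmat e P y.1 1) → ¬ ActsAbsolutelyIrreducibly (matrixSet R) →
      ∃ (r : ℕ) (K : Subalgebra F (Matrix (Fin n) (Fin n) F)), r.Prime ∧ IsFieldSubalgebra r K ∧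
        G ≤ subalgebraNormalizer K ∧
        (∀ z ∈ K, (∀ x ∈ N, z * x.1 = x.1 * z) ∧
          ∀ X : Matrix (Fin n) (Fin n) F, (∀ x ∈ N, X * x.1 = x.1 * X) → z * X = X * z)) :
    InCls H := by
  classical
  have hn1 : 1 ≤ n := by omega
  -- matrix units for each `i`
  have hU : ∀ i, ∃ (d : ℕ) (E : Fin d → Fin d → Matrix (Fin n) (Fin n) F), IsMU E ∧
      ∀ X : Matrix (Fin n) (Fin n) F, X ∈ Submodule.span F (matrixSet (Ps i)) ↔
        ∃ A : Matrix (Fin d) (Fin d) F, X = ∑ a, ∑ b, A a b • E a b := by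
    intro i
    obtain ⟨d, k', e, P, R, hR, h1, h2⟩ := Cfsg.Agent.Lib.Helper86.ASB8HOM.hom hn1 L hLa k Ps hcomm hsup hcoreA hcoreB i
    obtain ⟨E, hE, hs⟩ := Cfsg.Agent.Lib.Helper82.ASB8UNITS.units e P R (Ps i) (Cfsg.Agent.Lib.Helper83.ASB8BURN.burnside R hR) h1 h2
    exact ⟨d, E, hE, hs⟩
  -- the common size `m`
  obtain ⟨m, E₀, hE₀, hs₀⟩ := hU ⟨0, by omega⟩
  have hU' : ∀ i, ∃ (E : Fin m → Fin m → Matrix (Fin n) (Fin n) F), IsMU E ∧
      ∀ X : Matrix (Fin n) (Fin n) F, X ∈ Submodule.span F (matrixSet (Ps i)) ↔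
        ∃ A : Matrix (Fin m) (Fin m) F, X = ∑ a, ∑ b, A a b • E a b := by
    intro i
    obtain ⟨d, E, hE, hs⟩ := hU i
    obtain ⟨h, -, hh⟩ := htrans ⟨0, by omega⟩ i
    have hd : m = d := Cfsg.Agent.Lib.Helper59.ASB8DIM.dim_eq hn1 E₀ E hE₀ hE (Ps ⟨0, by omega⟩) (Ps i) h hh hs₀ hs
    subst hd
    exact ⟨E, hE, hs⟩
  choose E hE hs using hU'
  have hm2 : 2 ≤ m :=
    Cfsg.Agent.Lib.Helper59.ASB8SCAL.two_le_of_not_scalar hn1 (E ⟨0, by omega⟩) (hE _) (Ps ⟨0, by omega⟩) (hs _) (hns _)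
  have hEmem : ∀ i a b, E i a b ∈ Submodule.span F (matrixSet (Ps i)) := by
    intro i a b
    rw [hs i]
    refine ⟨Matrix.single a b 1, ?_⟩
    rw [Finset.sum_eq_single a, Finset.sum_eq_single b]
    · simp
    · intro b' _ hb'
      simp [hb'.symm]
    · simp
    · intro a' _ ha'
      apply Finset.sum_eq_zero
      intro b' _
      simp [ha'.symm]
    · simp
  have hspan_comm : ∀ i j, i ≠ j → ∀ X ∈ Submodule.span F (matrixSet (Ps i)),
      ∀ Y ∈ Submodule.span F (matrixSet (Ps j)), X * Y = Y * X := by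
    intro i j hij X hX Y hY
    induction hX using Submodule.span_induction with
    | mem X hX =>
      obtain ⟨x, hx, rfl⟩ := hX
      induction hY using Submodule.span_induction with
      | mem Y hY =>
        obtain ⟨y, hy, rfl⟩ := hY
        have := hcomm i j hij x hx y hy
        rw [← Units.val_mul, ← Units.val_mul, this]
      | zero => simp
      | add Y₁ Y₂ _ _ h₁ h₂ => rw [mul_add, add_mul, h₁, h₂]
      | smul c Y₁ _ h₁ => rw [Matrix.mul_smul, Matrix.smul_mul, h₁]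
    | zero => simp
    | add X₁ X₂ _ _ h₁ h₂ => rw [mul_add, add_mul, h₁, h₂]
    | smul c X₁ _ h₁ => rw [Matrix.mul_smul, Matrix.smul_mul, h₁]
  have hEcomm : ∀ i j, i ≠ j → ∀ a b c d, E i a b * E j c d = E j c d * E i a b :=
    fun i j hij a b c d => hspan_comm i j hij _ (hEmem i a b) _ (hEmem j c d)
  obtain ⟨B, hB, hBE⟩ := Cfsg.Agent.Lib.Helper82.ASB8BIG.big_units E hE hEcomm
  have hBcomm : ∀ M : Matrix (Fin n) (Fin n) F, (∀ x y, M * B x y = B x y * M) →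
      ∃ c : F, M = c • (1 : Matrix (Fin n) (Fin n) F) := by
    intro M hM
    apply hLa.2
    have h1 : ∀ i a b, M * E i a b = E i a b * M := by
      intro i a b
      rw [hBE i a b, Finset.mul_sum, Finset.sum_mul]
      apply Finset.sum_congr rfl
      intro x _
      split_ifs
      · exact hM _ _
      · simp
    have h2 : ∀ i, ∀ X ∈ Submodule.span F (matrixSet (Ps i)), M * X = X * M := by
      intro i X hX
      obtain ⟨A, rfl⟩ := (hs i X).mp hX
      simp only [Finset.mul_sum, Finset.sum_mul, Matrix.mul_smul, Matrix.smul_mul, h1]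
    rintro s ⟨x, hx, rfl⟩
    have hx' : x ∈ ⨆ i, Ps i := hsup ▸ hx
    refine Subgroup.iSup_induction Ps (C := fun x => M * x.1 = x.1 * M) hx' ?_ ?_ ?_
    · intro i y hy
      exact h2 i _ (Submodule.subset_span ⟨y, hy, rfl⟩)
    · simp
    · intro y z hy hz
      rw [Units.val_mul, ← mul_assoc, hy, mul_assoc, hz, mul_assoc]
  obtain ⟨P, Q, hPQ, hQP, hBPQ⟩ := Cfsg.Agent.Lib.Helper34.ASB8MU.mu_conj hn1 B hB hBcomm
  have hEP : ∀ i a b, E i a b = P * iota i (Matrix.single a b (1 : F)) * Q := by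
    intro i a b
    rw [hBE i a b, Cfsg.Agent.Lib.Helper86.ASB8IOTA.iota_single, Matrix.mul_sum, Matrix.sum_mul]
    apply Finset.sum_congr rfl
    intro x _
    split_ifs
    · exact hBPQ _ _
    · simp
  have hsP : ∀ i (X : Matrix (Fin n) (Fin n) F), X ∈ Submodule.span F (matrixSet (Ps i)) ↔
      ∃ A : Matrix (Fin m) (Fin m) F, X = P * iota i A * Q := by
    intro i X
    rw [hs i]
    have key : ∀ A : Matrix (Fin m) (Fin m) F,
        ∑ a, ∑ b, A a b • E i a b = P * iota i A * Q := by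
      intro A
      rw [Cfsg.Agent.Lib.Helper86.ASB8IOTA.iota_eq_sum i A]
      simp only [Matrix.mul_sum, Matrix.sum_mul, Matrix.mul_smul, Matrix.smul_mul, hEP]
    constructor
    · rintro ⟨A, rfl⟩
      exact ⟨A, key A⟩
    · rintro ⟨A, rfl⟩
      exact ⟨A, (key A).symm⟩
  obtain ⟨e, P', hW⟩ := Cfsg.Agent.Lib.Helper71.ASB8WR.wreath_mem P Q hPQ hQP
  have hHW : H ≤ tensorWreathSubgroup m k e P' := by
    intro h hh
    obtain ⟨σ, hσ⟩ := hperm h hh
    have hg1 : Q * h.1 * P * (Q * (h⁻¹ : GL (Fin n) F).1 * P) = 1 := by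
      calc Q * h.1 * P * (Q * (h⁻¹ : GL (Fin n) F).1 * P)
          = Q * (h.1 * (P * Q) * (h⁻¹ : GL (Fin n) F).1) * P := by
            simp only [Matrix.mul_assoc]
        _ = 1 := by
            rw [hPQ, Matrix.mul_one, ← Units.val_mul, mul_inv_cancel, Units.val_one,
              Matrix.mul_one, hQP]
    have hg2 : Q * (h⁻¹ : GL (Fin n) F).1 * P * (Q * h.1 * P) = 1 := by
      calc Q * (h⁻¹ : GL (Fin n) F).1 * P * (Q * h.1 * P)
          = Q * ((h⁻¹ : GL (Fin n) F).1 * (P * Q) * h.1) * P := by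
            simp only [Matrix.mul_assoc]
        _ = 1 := by
            rw [hPQ, Matrix.mul_one, ← Units.val_mul, inv_mul_cancel, Units.val_one,
              Matrix.mul_one, hQP]
    apply hW h ⟨Q * h.1 * P, Q * (h⁻¹ : GL (Fin n) F).1 * P, hg1, hg2⟩ ?_ ?_
    · apply norm_wreath (by omega) (by omega) _ σ
      intro i A
      have hX : P * iota i A * Q ∈ Submodule.span F (matrixSet (Ps i)) :=
        (hsP i _).mpr ⟨A, rfl⟩
      have hconj : ∀ X ∈ Submodule.span F (matrixSet (Ps i)),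
          h.1 * X * (h⁻¹ : GL (Fin n) F).1 ∈ Submodule.span F (matrixSet (Ps (σ i))) := by
        intro X hX
        induction hX using Submodule.span_induction with
        | mem X hX =>
          obtain ⟨x, hx, rfl⟩ := hX
          apply Submodule.subset_span
          refine ⟨h * x * h⁻¹, ?_, by simp⟩
          rw [← hσ i]
          exact ⟨x, hx, by simp [MulAut.conj_apply]⟩
        | zero => simp
        | add X₁ X₂ _ _ h₁ h₂ =>
          rw [mul_add, add_mul]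
          exact Submodule.add_mem _ h₁ h₂
        | smul c X₁ _ h₁ =>
          rw [Matrix.mul_smul, Matrix.smul_mul]
          exact Submodule.smul_mem _ c h₁
      obtain ⟨A', hA'⟩ := (hsP (σ i) _).mp (hconj _ hX)
      refine ⟨A', ?_⟩
      show Q * h.1 * P * iota i A * (Q * (h⁻¹ : GL (Fin n) F).1 * P) = iota (σ i) A'
      calc Q * h.1 * P * iota i A * (Q * (h⁻¹ : GL (Fin n) F).1 * P)
          = Q * (h.1 * (P * iota i A * Q) * (h⁻¹ : GL (Fin n) F).1) * P := by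
            simp only [Matrix.mul_assoc]
        _ = Q * (P * iota (σ i) A' * Q) * P := by rw [hA']
        _ = (Q * P) * iota (σ i) A' * (Q * P) := by simp only [Matrix.mul_assoc]
        _ = iota (σ i) A' := by rw [hQP, Matrix.one_mul, Matrix.mul_one]
    · show h.1 = P * (Q * h.1 * P) * Q
      calc h.1 = (P * Q) * h.1 * (P * Q) := by rw [hPQ, Matrix.one_mul, Matrix.mul_one]
        _ = P * (Q * h.1 * P) * Q := by simp only [Matrix.mul_assoc]
  by_cases hm3 : 3 ≤ m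
  · refine ⟨tensorWreathSubgroup m k e P', ?_, hHW⟩
    right; right; right; right; right; right; right; right; left
    exact ⟨m, k, e, P', hm3, hk, rfl⟩
  · have hm : m = 2 := by omega
    subst hm
    obtain ⟨f₀, hb, hnd, hsym, halt, hle⟩ := Cfsg.Agent.Lib.Helper97.ASB8TW2A.tw2_std (F := F) (k := k) (by omega)
    obtain ⟨M, hM, hle'⟩ := Cfsg.Agent.Lib.Helper86.ASB8TW2B.tw2_of_std hn hk e P' f₀ hb hnd hsym halt hle
    exact ⟨M, hM, hHW.trans hle'⟩

end Cfsg.Agent.Lib.Helper86.ASB8Main
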