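import Mathlib
import Cfsg.Prelude.Def_GeometricClasses
import Cfsg.Agent.Lib.Helper71.Asch0
import Cfsg.Agent.Lib.Helper86.ASB8Main
import Cfsg.Agent.Lib.Helper57.ASCOREA
import Cfsg.Agent.Lib.Helper82.ASCOREB

/-!
# S5630 (Aschbacher's theorem for `GL_n`), piece B8: the tensor-induced branch

`B8`: the exact statement of B8 of the S5630 skeleton.
-/

set_option autoImplicit false

namespace Cfsg.Agent.Lib.Helper86.ASB8Final

open Matrix Cfsg.Geo
open Cfsg.Agent.Lib.Helper71.Asch (Nrm InCls tmat)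

variable {n : ℕ} {F : Type*} [Field F] [Fintype F]

/-- B8: the tensor-induced branch. -/
theorem B8 (hn : 3 ≤ n) (H L : Subgroup (GL (Fin n) F))
    (hLa : ActsAbsolutelyIrreducibly (matrixSet L))
    (k : ℕ) (Ps : Fin k → Subgroup (GL (Fin n) F)) (hk : 2 ≤ k)
    (hns : ∀ i, ¬ Ps i ≤ scalars (Fin n) F)
    (hcomm : ∀ i j, i ≠ j → ∀ x ∈ Ps i, ∀ y ∈ Ps j, x * y = y * x)
    (hsup : L = ⨆ i, Ps i)
    (hperm : ∀ h ∈ H, ∃ σ : Equiv.Perm (Fin k), ∀ i,
      (Ps i).map (MulAut.conj h).toMonoidHom = Ps (σ i))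
    (htrans : ∀ i j, ∃ h ∈ H, (Ps i).map (MulAut.conj h).toMonoidHom = Ps j) :
    InCls H :=
  Cfsg.Agent.Lib.Helper86.ASB8Main.B8_of hn H L hLa k Ps hk hns hcomm hsup hperm htrans
    (fun G N hG hNG hN => Cfsg.Agent.Lib.Helper57.ASCOREA.coreA (by omega) G N hG hNG hN)
    (fun G N hNG hN {_ _} e P R hR h1 h2 hna =>
      Cfsg.Agent.Lib.Helper82.ASCOREB.coreB (by omega) G N hNG hN e P R hR h1 h2 hna)

end Cfsg.Agent.Lib.Helper86.ASB8Final
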