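import Mathlib
import Cfsg.Agent.Lib.Helper26.GrossDefs

set_option autoImplicit false
set_option linter.style.haveILetI false
set_option linter.unusedSectionVars false
set_option linter.unusedVariables false

open scoped commutatorElement
open Cfsg.Agent.Lib.Helper26

namespace Cfsg.Agent.Lib.Helper86

theorem gross_G1_aux {k : Type*} [Field k] {W : Type*} [AddCommGroup W] [Module k W]
    [Module.Finite k W] [Nontrivial W] {G : Type*} [Group G] [Finite G]
    (E : G →* Module.End k W) (hE : Function.Injective E)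
    (hc2 : ∀ x y w : G, ⁅x, y⁆ * w = w * ⁅x, y⁆)
    (hsc : ∀ z : G, (∀ w : G, z * w = w * z) → ∃ c : k, ∀ v : W, E z v = c • v)
    (hcard : (Nat.card G : k) ≠ 0)
    (C : Submodule k (Module.End k W)) (hC : ∀ f, f ∈ C ↔ ∀ y : G, E y * f = f * E y) :
    Module.finrank k (Module.End k W) * Nat.card (Subgroup.center G) =
      Nat.card G * Module.finrank k C := by
  classical
  haveI : Fintype G := Fintype.ofFinite G
  obtain ⟨v0, hv0⟩ := exists_ne (0 : W)
  have hsmul_inj : ∀ a b : k, a • (1 : Module.End k W) = b • (1 : Module.End k W) → a = b := by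
    intro a b hab
    have h1 : a • v0 = b • v0 := by
      have := congrArg (fun f : Module.End k W => f v0) hab
      simpa using this
    exact smul_left_injective k hv0 h1
  have hsc' : ∀ z : G, (∀ w, z * w = w * z) → ∃ c : k, E z = c • (1 : Module.End k W) := by
    intro z hz
    obtain ⟨c, hc⟩ := hsc z hz
    refine ⟨c, LinearMap.ext fun v => ?_⟩
    rw [hc v]
    simp
  let lam : G → k := fun z =>
    if h : ∃ c : k, E z = c • (1 : Module.End k W) then Classical.choose h else 1
  have hlam : ∀ z : G, (∀ w, z * w = w * z) → E z = lam z • (1 : Module.End k W) := by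
    intro z hz
    have h := hsc' z hz
    have h1 : lam z = Classical.choose h := dif_pos h
    rw [h1]
    exact Classical.choose_spec h
  have hlam_one : lam 1 = 1 := by
    apply hsmul_inj
    rw [← hlam 1 (fun w => by rw [one_mul, mul_one]), map_one, one_smul]
  have hlam_mul : ∀ a b : G, (∀ w, a * w = w * a) → (∀ w, b * w = w * b) →
      lam (a * b) = lam a * lam b := by
    intro a b ha hb
    apply hsmul_inj
    have hab : ∀ w, a * b * w = w * (a * b) := by
      intro w
      rw [mul_assoc, hb w, ← mul_assoc, ha w, mul_assoc]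
    rw [← hlam _ hab, map_mul, hlam a ha, hlam b hb, smul_mul_smul_comm, mul_one]
  have hlam_ne : ∀ z : G, (∀ w, z * w = w * z) → lam z ≠ 0 := by
    intro z hz h0
    have h1 : E z * E z⁻¹ = 1 := by rw [← map_mul, mul_inv_cancel, map_one]
    rw [hlam z hz, h0, zero_smul, zero_mul] at h1
    have h2 := congrArg (fun f : Module.End k W => f v0) h1
    simp at h2
    exact hv0 h2.symm
  have hlam_inj : ∀ z : G, (∀ w, z * w = w * z) → lam z = 1 → z = 1 := by
    intro z hz h1
    apply hE
    rw [hlam z hz, h1, one_smul, map_one]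
  have hcomm_left : ∀ y y' s : G, ⁅y * y', s⁆ = ⁅y, s⁆ * ⁅y', s⁆ := by
    intro y y' s
    have h1 : ⁅y * y', s⁆ = y * ⁅y', s⁆ * y⁻¹ * ⁅y, s⁆ := by
      simp only [commutatorElement_def]; group
    rw [h1, ← hc2 y' s y, mul_inv_cancel_right]
    exact hc2 y' s ⁅y, s⁆
  have hcomm_right : ∀ y s s' : G, ⁅y, s * s'⁆ = ⁅y, s⁆ * ⁅y, s'⁆ := by
    intro y s s'
    have h1 : ⁅y, s * s'⁆ = y * s * y⁻¹ * (⁅y, s'⁆ * s⁻¹) := by
      simp only [commutatorElement_def]; group
    rw [h1, hc2 y s' s⁻¹, ← mul_assoc, commutatorElement_def y s]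
  have hχ_left : ∀ y y' s : G, lam ⁅y * y', s⁆ = lam ⁅y, s⁆ * lam ⁅y', s⁆ := by
    intro y y' s
    rw [hcomm_left, hlam_mul _ _ (hc2 y s) (hc2 y' s)]
  have hχ_right : ∀ y s s' : G, lam ⁅y, s * s'⁆ = lam ⁅y, s⁆ * lam ⁅y, s'⁆ := by
    intro y s s'
    rw [hcomm_right, hlam_mul _ _ (hc2 y s) (hc2 y s')]
  have hK : ∀ y s : G, E y * E s = lam ⁅y, s⁆ • (E s * E y) := by
    intro y s
    have h1 : y * s = ⁅y, s⁆ * (s * y) := by rw [commutatorElement_def]; group
    rw [← map_mul, h1, map_mul, hlam _ (hc2 y s), smul_mul_assoc, one_mul, map_mul]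
  let act : G →* Module.End k (Module.End k W) :=
    { toFun := fun y => (LinearMap.mulLeft k (E y)).comp (LinearMap.mulRight k (E y⁻¹))
      map_one' := by
        refine LinearMap.ext fun f => ?_
        simp
      map_mul' := by
        intro y y'
        refine LinearMap.ext fun f => ?_
        simp [mul_assoc] }
  have hact : ∀ y f, act y f = E y * (f * E y⁻¹) := fun _ _ => rfl
  have hEinv : ∀ y : G, E y * E y⁻¹ = 1 := fun y => by rw [← map_mul, mul_inv_cancel, map_one]
  have hEinv' : ∀ y : G, E y⁻¹ * E y = 1 := fun y => by rw [← map_mul, inv_mul_cancel, map_one]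
  let I := G ⧸ Subgroup.center G
  haveI : Fintype I := Fintype.ofFinite I
  let α : I → G → k := fun i y => lam ⁅y, Quotient.out i⁆
  have hout : ∀ (y s : G), lam ⁅y, Quotient.out (QuotientGroup.mk s : I)⁆ = lam ⁅y, s⁆ := by
    intro y s
    have h1 : (QuotientGroup.mk (Quotient.out (QuotientGroup.mk s : I)) : I) = QuotientGroup.mk s :=
      QuotientGroup.out_eq' _
    have h2 : (Quotient.out (QuotientGroup.mk s : I))⁻¹ * s ∈ Subgroup.center G :=
      QuotientGroup.eq.mp h1
    have h4 : ⁅y, (Quotient.out (QuotientGroup.mk s : I))⁻¹ * s⁆ = 1 := by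
      rw [commutatorElement_eq_one_iff_mul_comm]
      exact (Subgroup.mem_center_iff.mp h2 y)
    have h5 : ⁅y, Quotient.out (QuotientGroup.mk s : I) *
        ((Quotient.out (QuotientGroup.mk s : I))⁻¹ * s)⁆ =
        ⁅y, Quotient.out (QuotientGroup.mk s : I)⁆ := by rw [hcomm_right, h4, mul_one]
    rw [mul_inv_cancel_left] at h5
    rw [h5]
  have hmul : ∀ (i : I) (y y' : G), α i (y * y') = α i y * α i y' :=
    fun i y y' => hχ_left y y' _
  have hne : ∀ (i : I) (y : G), α i y ≠ 0 := fun i y => hlam_ne _ (hc2 y _)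
  have hdist : ∀ i j : I, i ≠ j → ∃ y, α i y ≠ α j y := by
    intro i j hij
    by_contra hcon
    push Not at hcon
    apply hij
    rw [← QuotientGroup.out_eq' i, ← QuotientGroup.out_eq' j]
    apply QuotientGroup.eq.mpr
    rw [Subgroup.mem_center_iff]
    intro y
    rw [← commutatorElement_eq_one_iff_mul_comm]
    apply hlam_inj _ (hc2 y _)
    rw [hχ_right]
    have h1 : lam ⁅y, (Quotient.out i)⁻¹⁆ * lam ⁅y, Quotient.out i⁆ = 1 := by
      rw [← hχ_right, inv_mul_cancel]
      have h0 : ⁅y, (1 : G)⁆ = 1 := by simp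
      rw [h0, hlam_one]
    have h2 : lam ⁅y, Quotient.out i⁆ = lam ⁅y, Quotient.out j⁆ := hcon y
    rw [← h2, h1]
  have hcen1 : ∀ y : G, y ∈ Subgroup.center G → ∀ s : G, ⁅y, s⁆ = 1 := by
    intro y hy s
    rw [commutatorElement_eq_one_iff_mul_comm]
    exact (Subgroup.mem_center_iff.mp hy s).symm
  have hS : ∀ y : G, ∑ i : I, (α i y)⁻¹ =
      if y ∈ Subgroup.center G then (Fintype.card I : k) else 0 := by
    intro y
    split_ifs with hy
    · have h1 : ∀ i : I, (α i y)⁻¹ = 1 := by
        intro i
        show (lam ⁅y, Quotient.out i⁆)⁻¹ = 1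
        rw [hcen1 y hy, hlam_one, inv_one]
      simp [h1]
    · have h0 : ∃ s₀ : G, ⁅y, s₀⁆ ≠ 1 := by
        by_contra hcon
        push Not at hcon
        apply hy
        rw [Subgroup.mem_center_iff]
        intro g
        exact ((commutatorElement_eq_one_iff_mul_comm).mp (hcon g)).symm
      obtain ⟨s₀, hs₀⟩ := h0
      have hc1 : lam ⁅y, s₀⁆ ≠ 1 := fun h => hs₀ (hlam_inj _ (hc2 y s₀) h)
      have hshift : ∑ i : I, (α i y)⁻¹ = ∑ i : I, (α ((QuotientGroup.mk s₀ : I) * i) y)⁻¹ :=
        (Equiv.sum_comp (Equiv.mulLeft (QuotientGroup.mk s₀ : I)) (fun i => (α i y)⁻¹)).symm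
      have hterm : ∀ i : I, (α ((QuotientGroup.mk s₀ : I) * i) y)⁻¹ =
          (lam ⁅y, s₀⁆)⁻¹ * (α i y)⁻¹ := by
        intro i
        have h1 : (QuotientGroup.mk s₀ : I) * i = QuotientGroup.mk (s₀ * Quotient.out i) := by
          rw [QuotientGroup.mk_mul, QuotientGroup.out_eq']
        show (lam ⁅y, Quotient.out ((QuotientGroup.mk s₀ : I) * i)⁆)⁻¹ =
          (lam ⁅y, s₀⁆)⁻¹ * (lam ⁅y, Quotient.out i⁆)⁻¹
        rw [h1, hout, hχ_right, mul_inv]
      have hSeq : ∑ i : I, (α i y)⁻¹ = (lam ⁅y, s₀⁆)⁻¹ * ∑ i : I, (α i y)⁻¹ := by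
        calc ∑ i : I, (α i y)⁻¹ = ∑ i : I, (α ((QuotientGroup.mk s₀ : I) * i) y)⁻¹ := hshift
          _ = ∑ i : I, (lam ⁅y, s₀⁆)⁻¹ * (α i y)⁻¹ := Finset.sum_congr rfl (fun i _ => hterm i)
          _ = _ := (Finset.mul_sum _ _ _).symm
      have h3 : (1 - (lam ⁅y, s₀⁆)⁻¹) * ∑ i : I, (α i y)⁻¹ = 0 := by
        rw [sub_mul, one_mul, ← hSeq, sub_self]
      rcases mul_eq_zero.mp h3 with h | h
      · exfalso
        apply hc1
        have h4 : (lam ⁅y, s₀⁆)⁻¹ = 1 := (sub_eq_zero.mp h).symm
        exact inv_eq_one.mp h4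
      · exact h
  have hact_cen : ∀ y : G, y ∈ Subgroup.center G → act y = 1 := by
    intro y hy
    refine LinearMap.ext fun f => ?_
    have hyc : ∀ w, y * w = w * y := fun w => (Subgroup.mem_center_iff.mp hy w).symm
    have hcomm : E y * f = f * E y := by
      rw [hlam y hyc, smul_mul_assoc, one_mul, mul_smul_comm, mul_one]
    rw [hact, ← mul_assoc, hcomm, mul_assoc, hEinv, mul_one]
    rfl
  have hcardG : Nat.card G = Nat.card I * Nat.card (Subgroup.center G) :=
    Subgroup.card_eq_card_quotient_mul_card_subgroup (Subgroup.center G)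
  have hfilt : (Finset.univ.filter (fun y : G => y ∈ Subgroup.center G)).card =
      Nat.card (Subgroup.center G) := by
    rw [Nat.card_eq_fintype_card, Fintype.card_subtype]
  have horth : ∑ y : G, (∑ i : I, (α i y)⁻¹) • act y =
      (Fintype.card G : k) • (1 : Module.End k (Module.End k W)) := by
    have h1 : ∀ y : G, (∑ i : I, (α i y)⁻¹) • act y =
        if y ∈ Subgroup.center G then (Fintype.card I : k) • (1 : Module.End k (Module.End k W))
        else 0 := by
      intro y
      rw [hS y]
      split_ifs with hy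
      · rw [hact_cen y hy]
      · rw [zero_smul]
    rw [Finset.sum_congr rfl (fun y _ => h1 y), Finset.sum_ite, Finset.sum_const_zero, add_zero,
      Finset.sum_const, hfilt, ← Nat.card_eq_fintype_card, ← Nat.card_eq_fintype_card, hcardG,
      ← Nat.cast_smul_eq_nsmul k, smul_smul]
    push_cast
    rw [mul_comm]
  have hmain := gross_dec_finrank act α hmul hne hdist
    (by rwa [← Nat.card_eq_fintype_card]) horth
  have heig : ∀ i : I, Module.finrank k (grossEig (fun y => act y) (α i)) =
      Module.finrank k C := by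
    intro i
    let e : Module.End k W ≃ₗ[k] Module.End k W :=
      { toFun := fun f => f * E (Quotient.out i)
        map_add' := fun f g => add_mul f g _
        map_smul' := fun c f => smul_mul_assoc c f _
        invFun := fun f => f * E (Quotient.out i)⁻¹
        left_inv := fun f => by
          show f * E (Quotient.out i) * E (Quotient.out i)⁻¹ = f
          rw [mul_assoc, hEinv, mul_one]
        right_inv := fun f => by
          show f * E (Quotient.out i)⁻¹ * E (Quotient.out i) = f
          rw [mul_assoc, hEinv', mul_one] }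
    have hmap : grossEig (fun y => act y) (α i) = C.map e.toLinearMap := by
      apply le_antisymm
      · intro g hg
        rw [mem_grossEig] at hg
        refine ⟨g * E (Quotient.out i)⁻¹, ?_, ?_⟩
        · rw [SetLike.mem_coe, hC]
          intro y
          have h1 : E y * g = lam ⁅y, Quotient.out i⁆ • (g * E y) := by
            have h0 : E y * (g * E y⁻¹) = lam ⁅y, Quotient.out i⁆ • g := hg y
            calc E y * g = E y * (g * E y⁻¹) * E y := by
                  rw [mul_assoc, mul_assoc, hEinv', mul_one]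
              _ = lam ⁅y, Quotient.out i⁆ • (g * E y) := by
                  rw [h0]
                  exact smul_mul_assoc _ _ _
          have h2 : E (Quotient.out i)⁻¹ * E y =
              lam ⁅y, Quotient.out i⁆ • (E y * E (Quotient.out i)⁻¹) := by
            have h0 := hK y (Quotient.out i)
            calc E (Quotient.out i)⁻¹ * E y
                = E (Quotient.out i)⁻¹ * (E y * E (Quotient.out i)) * E (Quotient.out i)⁻¹ := by
                  rw [mul_assoc, mul_assoc, hEinv, mul_one]
              _ = E (Quotient.out i)⁻¹ * (lam ⁅y, Quotient.out i⁆ • (E (Quotient.out i) * E y)) *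
                    E (Quotient.out i)⁻¹ := by rw [h0]
              _ = lam ⁅y, Quotient.out i⁆ • (E y * E (Quotient.out i)⁻¹) := by
                  rw [mul_smul_comm, smul_mul_assoc, ← mul_assoc, hEinv', one_mul]
          calc E y * (g * E (Quotient.out i)⁻¹) = (E y * g) * E (Quotient.out i)⁻¹ :=
                (mul_assoc _ _ _).symm
            _ = lam ⁅y, Quotient.out i⁆ • (g * E y * E (Quotient.out i)⁻¹) := by
                rw [h1, smul_mul_assoc]
            _ = g * (lam ⁅y, Quotient.out i⁆ • (E y * E (Quotient.out i)⁻¹)) := by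
                rw [mul_smul_comm, mul_assoc]
            _ = g * E (Quotient.out i)⁻¹ * E y := by rw [← h2, mul_assoc]
        · show g * E (Quotient.out i)⁻¹ * E (Quotient.out i) = g
          rw [mul_assoc, hEinv', mul_one]
      · rintro _ ⟨f, hf, rfl⟩
        rw [SetLike.mem_coe, hC] at hf
        rw [mem_grossEig]
        intro y
        show act y (f * E (Quotient.out i)) = lam ⁅y, Quotient.out i⁆ • (f * E (Quotient.out i))
        rw [hact]
        calc E y * (f * E (Quotient.out i) * E y⁻¹)
            = (E y * f) * E (Quotient.out i) * E y⁻¹ := by simp only [mul_assoc]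
          _ = f * (E y * E (Quotient.out i)) * E y⁻¹ := by rw [hf y, mul_assoc f]
          _ = f * (lam ⁅y, Quotient.out i⁆ • (E (Quotient.out i) * E y)) * E y⁻¹ := by rw [hK]
          _ = lam ⁅y, Quotient.out i⁆ • (f * E (Quotient.out i)) := by
              rw [mul_smul_comm, smul_mul_assoc, mul_assoc, mul_assoc, hEinv, mul_one]
    rw [hmap]
    exact LinearEquiv.finrank_map_eq e C
  rw [hmain, Finset.sum_congr rfl (fun i _ => heig i), Finset.sum_const, Finset.card_univ,
    smul_eq_mul, ← Nat.card_eq_fintype_card, hcardG]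
  ring

theorem gross_hh_G1 {k : Type*} [Field k] {W : Type*} [AddCommGroup W] [Module k W]
    [Module.Finite k W] [Nontrivial W]
    (Q : Subgroup (Module.End k W)ˣ) [Finite Q]
    (hc2 : ∀ x ∈ Q, ∀ y ∈ Q, ∀ w ∈ Q, ⁅x, y⁆ * w = w * ⁅x, y⁆)
    (hsc : ∀ z ∈ Q, (∀ w ∈ Q, z * w = w * z) → ∃ c : k, ∀ v : W, (z : Module.End k W) v = c • v)
    (hcard : (Nat.card Q : k) ≠ 0) :
    Module.finrank k (Module.End k W) *
        Nat.card ↥(Q ⊓ Subgroup.centralizer (Q : Set (Module.End k W)ˣ)) =
      Nat.card Q * Module.finrank k ↥(grossComm (Q : Set (Module.End k W)ˣ)) := by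
  let E : ↥Q →* Module.End k W := (Units.coeHom (Module.End k W)).comp Q.subtype
  have hE : Function.Injective E := by
    intro a b hab
    exact Subtype.ext (Units.ext hab)
  have h := gross_G1_aux E hE ?_ ?_ hcard (grossComm (Q : Set (Module.End k W)ˣ)) ?_
  · rw [← h]
    congr 1
    have h1 : (Q ⊓ Subgroup.centralizer (Q : Set (Module.End k W)ˣ)).subgroupOf Q =
        Subgroup.center ↥Q := by
      ext ⟨z, hz⟩
      rw [Subgroup.mem_subgroupOf, Subgroup.mem_center_iff]
      constructor
      · rintro ⟨_, h2⟩ ⟨g, hg⟩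
        apply Subtype.ext
        exact Subgroup.mem_centralizer_iff.mp h2 g hg
      · intro h2
        refine ⟨hz, ?_⟩
        exact Subgroup.mem_centralizer_iff.mpr
          (fun g hg => congrArg Subtype.val (h2 ⟨g, hg⟩))
    rw [← h1]
    exact Nat.card_congr (Subgroup.subgroupOfEquivOfLe inf_le_left).toEquiv.symm
  · intro x y w
    apply Subtype.ext
    exact hc2 x x.2 y y.2 w w.2
  · intro z hz
    exact hsc z z.2 (fun w hw => congrArg Subtype.val (hz ⟨w, hw⟩))
  · intro f
    rw [mem_grossComm]
    constructor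
    · intro hf y
      exact hf y y.2
    · intro hf x hx
      exact hf ⟨x, hx⟩

end Cfsg.Agent.Lib.Helper86
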