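import Mathlib
import Cfsg.Prelude.Def_Blocks
import Cfsg.Prelude.Def_Local
import Cfsg.Agent.S4479

/-!
# S4501 project (helper30), piece K3

The case `ε = -1` of the principal 2-block of a simple group of order `4 p^a q^b`: one of the
two characters of degree `≡ 3 (mod 4)` has degree `3`.
-/

set_option autoImplicit false
open Cfsg
open scoped ComplexConjugate

namespace Cfsg.Agent.Lib.Helper30.S4501.K3

/-- the pure arithmetic part -/
theorem arith (p q a b : ℕ) (hp : p.Prime) (hq : q.Prime) (g₀ : ℕ) (hg : g₀ = p ^ a * q ^ b)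
    (A B C cJ cP : ℕ) (hA4 : A % 4 = 1) (hB4 : B % 4 = 3) (hC4 : C % 4 = 3)
    (hAd : A ∣ g₀) (hBd : B ∣ g₀) (hCd : C ∣ g₀) (hA1 : A ≠ 1) (hrel : 1 + A = B + C)
    (hcJ : cJ ∣ 4 * g₀)
    (heq : 4 * g₀ * ((A + 1) * (B - 1) * (C - 1)) * cP ^ 2 = 8 * (A * B * C) * cJ ^ 3) :
    B = 3 ∨ C = 3 := by
  by_contra hcon
  push Not at hcon
  obtain ⟨hB3, hC3⟩ := hcon
  obtain ⟨A', hA'⟩ : ∃ A', A + 1 = 2 * A' := ⟨(A + 1) / 2, by omega⟩
  obtain ⟨B', hB'⟩ : ∃ B', B = 2 * B' + 1 := ⟨(B - 1) / 2, by omega⟩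
  obtain ⟨C', hC'⟩ : ∃ C', C = 2 * C' + 1 := ⟨(C - 1) / 2, by omega⟩
  have hA'odd : A' % 2 = 1 := by omega
  have hB'odd : B' % 2 = 1 := by omega
  have hC'odd : C' % 2 = 1 := by omega
  have hA'1 : A' ≠ 1 := by omega
  have hB'1 : B' ≠ 1 := by omega
  have hC'1 : C' ≠ 1 := by omega
  have hB1 : B ≠ 1 := by omega
  have hC1 : C ≠ 1 := by omega
  -- the cleared equation
  have heq' : 4 * g₀ * (A' * B' * C') * cP ^ 2 = (A * B * C) * cJ ^ 3 := by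
    have e1 : B - 1 = 2 * B' := by omega
    have e2 : C - 1 = 2 * C' := by omega
    rw [hA', e1, e2] at heq
    have h8 : 8 * (4 * g₀ * (A' * B' * C') * cP ^ 2) = 8 * ((A * B * C) * cJ ^ 3) := by
      rw [← mul_assoc 8 (A * B * C), ← heq]
      ring
    exact Nat.eq_of_mul_eq_mul_left (by norm_num) h8
  -- the primes of g₀
  have hpq : ∀ s : ℕ, s.Prime → s ∣ g₀ → s = p ∨ s = q := by
    intro s hs hsd
    rw [hg] at hsd
    rcases (Nat.Prime.dvd_mul hs).mp hsd with h | h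
    · left; exact (Nat.prime_dvd_prime_iff_eq hs hp).mp (hs.dvd_of_dvd_pow h)
    · right; exact (Nat.prime_dvd_prime_iff_eq hs hq).mp (hs.dvd_of_dvd_pow h)
  -- the primes of the odd numbers A', B', C'
  have hprime' : ∀ X' : ℕ, X' % 2 = 1 → X' ∣ A' * B' * C' → ∀ s : ℕ, s.Prime → s ∣ X' →
      s = p ∨ s = q := by
    intro X' hodd hX' s hs hsd
    have hs2 : s ≠ 2 := by
      intro h2
      rw [h2] at hsd
      omega
    have h1 : s ∣ (A * B * C) * cJ ^ 3 := by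
      rw [← heq']
      exact Dvd.dvd.mul_right (Dvd.dvd.mul_left (hsd.trans hX') _) _
    apply hpq s hs
    rcases (Nat.Prime.dvd_mul hs).mp h1 with h | h
    · rcases (Nat.Prime.dvd_mul hs).mp h with h | h
      · rcases (Nat.Prime.dvd_mul hs).mp h with h | h
        · exact h.trans hAd
        · exact h.trans hBd
      · exact h.trans hCd
    · have h2 : s ∣ 4 * g₀ := (hs.dvd_of_dvd_pow h).trans hcJ
      rcases (Nat.Prime.dvd_mul hs).mp h2 with h | h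
      · exfalso
        have h4 : s ∣ 2 ^ 2 := by
          have : (2 : ℕ) ^ 2 = 4 := by norm_num
          rw [this]
          exact h
        exact hs2 ((Nat.prime_dvd_prime_iff_eq hs Nat.prime_two).mp (hs.dvd_of_dvd_pow h4))
      · exact h
  -- a number and its coprime companion are supported on different primes
  have hD : ∀ X X' : ℕ, X ≠ 1 → X' ≠ 1 → Nat.gcd X X' = 1 →
      (∀ s : ℕ, s.Prime → s ∣ X → s = p ∨ s = q) →
      (∀ s : ℕ, s.Prime → s ∣ X' → s = p ∨ s = q) →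
      (p ∣ X ∧ ¬ q ∣ X ∧ q ∣ X' ∧ ¬ p ∣ X') ∨ (q ∣ X ∧ ¬ p ∣ X ∧ p ∣ X' ∧ ¬ q ∣ X') := by
    intro X X' hX hX' hco h1 h2
    obtain ⟨s, hs, hsd⟩ := Nat.exists_prime_and_dvd hX
    obtain ⟨s', hs', hsd'⟩ := Nat.exists_prime_and_dvd hX'
    have hno : ∀ t : ℕ, t.Prime → t ∣ X → t ∣ X' → False := by
      intro t ht h h'
      have := Nat.dvd_gcd h h'
      rw [hco] at this
      exact ht.one_lt.ne' (Nat.dvd_one.mp this)
    rcases h1 s hs hsd with e | e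
    · rw [e] at hsd
      rcases h2 s' hs' hsd' with e' | e'
      · rw [e'] at hsd'
        exact (hno p hp hsd hsd').elim
      · rw [e'] at hsd'
        left
        exact ⟨hsd, fun h => hno q hq h hsd', hsd', fun h => hno p hp hsd h⟩
    · rw [e] at hsd
      rcases h2 s' hs' hsd' with e' | e'
      · rw [e'] at hsd'
        right
        exact ⟨hsd, fun h => hno p hp h hsd', hsd', fun h => hno q hq hsd h⟩
      · rw [e'] at hsd'
        exact (hno q hq hsd hsd').elim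
  have hcoA : Nat.gcd A A' = 1 := by
    have h1 : Nat.gcd A A' ∣ A + 1 := by
      rw [hA']
      exact Dvd.dvd.mul_left (Nat.gcd_dvd_right A A') 2
    exact Nat.dvd_one.mp ((Nat.dvd_add_right (Nat.gcd_dvd_left A A')).mp h1)
  have hcoB : Nat.gcd B B' = 1 := by
    have h1 : Nat.gcd B B' ∣ 2 * B' + 1 := by
      rw [← hB']
      exact Nat.gcd_dvd_left B B'
    exact Nat.dvd_one.mp
      ((Nat.dvd_add_right (Dvd.dvd.mul_left (Nat.gcd_dvd_right B B') 2)).mp h1)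
  have hcoC : Nat.gcd C C' = 1 := by
    have h1 : Nat.gcd C C' ∣ 2 * C' + 1 := by
      rw [← hC']
      exact Nat.gcd_dvd_left C C'
    exact Nat.dvd_one.mp
      ((Nat.dvd_add_right (Dvd.dvd.mul_left (Nat.gcd_dvd_right C C') 2)).mp h1)
  have hDA := hD A A' hA1 hA'1 hcoA (fun s hs h => hpq s hs (h.trans hAd))
    (hprime' A' hA'odd (Dvd.intro _ (mul_assoc A' B' C').symm))
  have hDB := hD B B' hB1 hB'1 hcoB (fun s hs h => hpq s hs (h.trans hBd))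
    (hprime' B' hB'odd (Dvd.intro_left (A' * C') (by ring)))
  have hDC := hD C C' hC1 hC'1 hcoC (fun s hs h => hpq s hs (h.trans hCd))
    (hprime' C' hC'odd (Dvd.intro_left (A' * B') rfl))
  have fin : ∀ r r' : ℕ, r ≠ 1 → r' ≠ 1 → (r ∣ A ∧ ¬ r' ∣ A ∧ r' ∣ A' ∧ ¬ r ∣ A') →
      ((r ∣ B ∧ ¬ r' ∣ B ∧ r' ∣ B' ∧ ¬ r ∣ B') ∨ (r' ∣ B ∧ ¬ r ∣ B ∧ r ∣ B' ∧ ¬ r' ∣ B')) →
      ((r ∣ C ∧ ¬ r' ∣ C ∧ r' ∣ C' ∧ ¬ r ∣ C') ∨ (r' ∣ C ∧ ¬ r ∣ C ∧ r ∣ C' ∧ ¬ r' ∣ C')) →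
      False := by
    intro r r' hr hr' ⟨a1, a2, a3, a4⟩ hB hC
    rcases hB with ⟨b1, b2, b3, b4⟩ | ⟨b1, b2, b3, b4⟩
    · rcases hC with ⟨c1, c2, c3, c4⟩ | ⟨c1, c2, c3, c4⟩
      · have h : r ∣ A + 1 := by
          rw [show A + 1 = B + C by omega]
          exact dvd_add b1 c1
        exact hr (Nat.dvd_one.mp ((Nat.dvd_add_right a1).mp h))
      · have h : r' ∣ B + C := by
          rw [show B + C = 2 * A' by omega]
          exact Dvd.dvd.mul_left a3 2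
        exact b2 ((Nat.dvd_add_left c1).mp h)
    · rcases hC with ⟨c1, c2, c3, c4⟩ | ⟨c1, c2, c3, c4⟩
      · have h : r' ∣ B + C := by
          rw [show B + C = 2 * A' by omega]
          exact Dvd.dvd.mul_left a3 2
        exact c2 ((Nat.dvd_add_right b1).mp h)
      · have h : r ∣ (2 * B' + 2 * C') + 1 := by
          rw [show (2 * B' + 2 * C') + 1 = A by omega]
          exact a1
        have h' : r ∣ 2 * B' + 2 * C' :=
          dvd_add (Dvd.dvd.mul_left b3 2) (Dvd.dvd.mul_left c3 2)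
        exact hr (Nat.dvd_one.mp ((Nat.dvd_add_right h').mp h))
  rcases hDA with hA | hA
  · exact fin p q hp.ne_one hq.ne_one hA hDB hDC
  · exact fin q p hq.ne_one hp.ne_one hA hDB.symm hDC.symm

/-- K3 -/
theorem eps_neg_degree_three {G : Type*} [Group G] [Finite G] (M : Ideal Cfsg.AlgInt)
    (hM : Cfsg.IsPModular 2 M) (g₀ : ℕ) (hg₀ : Odd g₀) (hG : Nat.card G = 4 * g₀)
    (hnc : ¬ ∃ N : Subgroup G, N.Normal ∧ Nat.card N = g₀) (P : Sylow 2 G) (J : G)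
    (hJ : J ∈ (P : Subgroup G)) (hJ2 : orderOf J = 2) (ζ₂ ζ₃ ζ₄ : Cfsg.IrrCharacter G)
    (hB : Cfsg.principalBlock M G = {χ : Cfsg.IrrCharacter G |
        (χ : G → ℂ) = (fun _ => 1) ∨ χ = ζ₂ ∨ χ = ζ₃ ∨ χ = ζ₄})
    (hdist : (ζ₂ : G → ℂ) ≠ (fun _ => 1) ∧ (ζ₃ : G → ℂ) ≠ (fun _ => 1) ∧
      (ζ₄ : G → ℂ) ≠ (fun _ => 1) ∧ ζ₂ ≠ ζ₃ ∧ ζ₂ ≠ ζ₄ ∧ ζ₃ ≠ ζ₄)
    (hval : (ζ₂ : G → ℂ) J = 1 ∧ (ζ₃ : G → ℂ) J = -1 ∧ (ζ₄ : G → ℂ) J = -1)
    (p q a b : ℕ) (hp : p.Prime) (hq : q.Prime) (hg : g₀ = p ^ a * q ^ b)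
    (hA4 : Cfsg.charDegree (ζ₂ : G → ℂ) % 4 = 1) (hB4 : Cfsg.charDegree (ζ₃ : G → ℂ) % 4 = 3)
    (hC4 : Cfsg.charDegree (ζ₄ : G → ℂ) % 4 = 3)
    (hAd : Cfsg.charDegree (ζ₂ : G → ℂ) ∣ g₀) (hBd : Cfsg.charDegree (ζ₃ : G → ℂ) ∣ g₀)
    (hCd : Cfsg.charDegree (ζ₄ : G → ℂ) ∣ g₀) (hA1 : Cfsg.charDegree (ζ₂ : G → ℂ) ≠ 1)
    (hrel : 1 + Cfsg.charDegree (ζ₂ : G → ℂ) =
      Cfsg.charDegree (ζ₃ : G → ℂ) + Cfsg.charDegree (ζ₄ : G → ℂ)) :
    Cfsg.charDegree (ζ₃ : G → ℂ) = 3 ∨ Cfsg.charDegree (ζ₄ : G → ℂ) = 3 := by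
  classical
  have h := Cfsg.Agent.S4479.result M hM g₀ hg₀ hG hnc P J hJ hJ2 ζ₂ ζ₃ ζ₄ 1 (-1) (-1) hB hdist
    ⟨Or.inl rfl, Or.inr rfl, Or.inr rfl⟩
    ⟨by rw [hval.1]; norm_num, by rw [hval.2.1]; norm_num, by rw [hval.2.2]; norm_num⟩
  have hcJd : Nat.card (Subgroup.centralizer ({J} : Set G)) ∣ 4 * g₀ := by
    rw [← hG]
    exact Subgroup.card_subgroup_dvd_card _
  have hcP : 0 < Nat.card (Subgroup.centralizer ((P : Subgroup G) : Set G)) := Nat.card_pos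
  generalize Cfsg.charDegree (ζ₂ : G → ℂ) = A at *
  generalize Cfsg.charDegree (ζ₃ : G → ℂ) = B at *
  generalize Cfsg.charDegree (ζ₄ : G → ℂ) = C at *
  generalize Nat.card (Subgroup.centralizer ({J} : Set G)) = cJ at *
  generalize Nat.card (Subgroup.centralizer ((P : Subgroup G) : Set G)) = cP at *
  have hB1 : 1 ≤ B := by omega
  have hC1 : 1 ≤ C := by omega
  have heq : 4 * g₀ * ((A + 1) * (B - 1) * (C - 1)) * cP ^ 2 = 8 * (A * B * C) * cJ ^ 3 := by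
    have hq : ((4 * g₀ * ((A + 1) * (B - 1) * (C - 1)) * cP ^ 2 : ℕ) : ℚ) =
        ((8 * (A * B * C) * cJ ^ 3 : ℕ) : ℚ) := by
      push_cast [Nat.cast_sub hB1, Nat.cast_sub hC1]
      rw [hG] at h
      push_cast at h
      have hA0 : ((A : ℚ) + 1) ≠ 0 := by positivity
      have hB0 : ((B : ℚ) - 1) ≠ 0 := by
        have : (3 : ℚ) ≤ B := by exact_mod_cast (by omega : 3 ≤ B)
        linarith
      have hC0 : ((C : ℚ) - 1) ≠ 0 := by
        have : (3 : ℚ) ≤ C := by exact_mod_cast (by omega : 3 ≤ C)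
        linarith
      have hP0 : (cP : ℚ) ≠ 0 := Nat.cast_ne_zero.mpr hcP.ne'
      have h' : (4 : ℚ) * g₀ = 8 * ((A : ℚ) * B * C / ((A + 1) * (B - 1) * (C - 1))) * cJ ^ 3
          / cP ^ 2 := by
        rw [h]
        ring
      rw [h']
      field_simp
    exact_mod_cast hq
  exact arith p q a b hp hq g₀ hg A B C cJ cP hA4 hB4 hC4 hAd hBd hCd hA1 hrel hcJd heq

end Cfsg.Agent.Lib.Helper30.S4501.K3
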