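import Mathlib

/-!
Piece J2 for S2116: an elementary abelian 3-subgroup of order 9 in `A_6`, `A_7` of
index prime to 3, and cyclic Sylow subgroups at the primes at least 5.
-/

namespace Cfsg.Agent.Lib.Helper86

theorem j2_nine_dvd_card_closure {G : Type*} [Group G] [Finite G] (u v : G)
    (hu : u ^ 3 = 1) (hv : v ^ 3 = 1) (hu1 : u ≠ 1) (hv1 : v ≠ 1)
    (hc : u * v = v * u) (hd : u ∉ Subgroup.zpowers v) :
    9 ∣ Nat.card (Subgroup.closure ({u, v} : Set G)) := by
  classical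
  have : Fact (Nat.Prime 3) := ⟨by norm_num⟩
  have hou : orderOf u = 3 := orderOf_eq_prime hu hu1
  have hov : orderOf v = 3 := orderOf_eq_prime hv hv1
  have hcomm : ∀ (a : Subgroup.zpowers u) (b : Subgroup.zpowers v),
      Commute ((Subgroup.zpowers u).subtype a) ((Subgroup.zpowers v).subtype b) := by
    rintro ⟨a, ha⟩ ⟨b, hb⟩
    obtain ⟨i, rfl⟩ := Subgroup.mem_zpowers_iff.mp ha
    obtain ⟨j, rfl⟩ := Subgroup.mem_zpowers_iff.mp hb
    exact Commute.zpow_zpow (show Commute u v from hc) i j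
  have hinj : Function.Injective
      (MonoidHom.noncommCoprod (Subgroup.zpowers u).subtype (Subgroup.zpowers v).subtype hcomm) := by
    rw [MonoidHom.noncommCoprod_injective]
    refine ⟨Subtype.coe_injective, Subtype.coe_injective, ?_⟩
    rw [Subgroup.range_subtype, Subgroup.range_subtype, Subgroup.disjoint_def]
    intro x hxu hxv
    by_contra hx1
    have hcard : Nat.card (Subgroup.zpowers u) = 3 := by rw [Nat.card_zpowers, hou]
    have htop := zpowers_eq_top_of_prime_card hcard (g := (⟨x, hxu⟩ : Subgroup.zpowers u))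
      (by intro h; exact hx1 (congrArg Subtype.val h))
    have hmem : (⟨u, Subgroup.mem_zpowers u⟩ : Subgroup.zpowers u) ∈
        Subgroup.zpowers (⟨x, hxu⟩ : Subgroup.zpowers u) := by
      rw [htop]; trivial
    obtain ⟨k, hk⟩ := Subgroup.mem_zpowers_iff.mp hmem
    have hk' : x ^ k = u := by simpa using congrArg Subtype.val hk
    exact hd (hk' ▸ zpow_mem hxv k)
  have hrange : (MonoidHom.noncommCoprod (Subgroup.zpowers u).subtype
      (Subgroup.zpowers v).subtype hcomm).range ≤ Subgroup.closure ({u, v} : Set G) := by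
    rintro _ ⟨⟨a, b⟩, rfl⟩
    rw [MonoidHom.noncommCoprod_apply]
    refine mul_mem ?_ ?_
    · exact (Subgroup.zpowers_le.mpr (Subgroup.subset_closure (by simp))) a.2
    · exact (Subgroup.zpowers_le.mpr (Subgroup.subset_closure (by simp))) b.2
  have hcr : Nat.card (MonoidHom.noncommCoprod (Subgroup.zpowers u).subtype
      (Subgroup.zpowers v).subtype hcomm).range = 9 := by
    rw [← Nat.card_congr (MonoidHom.ofInjective hinj).toEquiv, Nat.card_prod, Nat.card_zpowers,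
      Nat.card_zpowers, hou, hov]
  rw [← hcr]
  exact Subgroup.card_dvd_of_le hrange

theorem j2_card_alt6 : Nat.card (alternatingGroup (Fin 6)) = 360 := by
  rw [nat_card_alternatingGroup]; simp [Nat.factorial]

theorem j2_card_alt7 : Nat.card (alternatingGroup (Fin 7)) = 2520 := by
  rw [nat_card_alternatingGroup]; simp [Nat.factorial]

theorem j2_not_mem_zpowers {n : ℕ} (σ τ : Equiv.Perm (Fin n))
    (hσ : σ ∈ alternatingGroup (Fin n)) (hτ : τ ∈ alternatingGroup (Fin n)) (x : Fin n)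
    (hv : τ x = x) (hu : σ x ≠ x) :
    (⟨σ, hσ⟩ : alternatingGroup (Fin n)) ∉ Subgroup.zpowers (⟨τ, hτ⟩ : alternatingGroup (Fin n)) := by
  intro h
  obtain ⟨k, hk⟩ := Subgroup.mem_zpowers_iff.mp h
  apply hu
  have hk' : τ ^ k = σ := by simpa using congrArg Subtype.val hk
  rw [← hk']
  exact Equiv.Perm.zpow_apply_eq_self_of_apply_eq_self hv k

theorem j2_ne_one {n : ℕ} (σ : Equiv.Perm (Fin n)) (hσ : σ ∈ alternatingGroup (Fin n))
    (x : Fin n) (hu : σ x ≠ x) : (⟨σ, hσ⟩ : alternatingGroup (Fin n)) ≠ 1 := by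
  intro h
  apply hu
  have h' : σ = 1 := congrArg Subtype.val h
  rw [h']; rfl

theorem alt_three_sq (n : ℕ) (hn : n = 6 ∨ n = 7) :
    ∃ u₁ u₂ : alternatingGroup (Fin n), u₁ ^ 3 = 1 ∧ u₂ ^ 3 = 1 ∧ u₁ * u₂ = u₂ * u₁ ∧
      ¬ 3 ∣ (Subgroup.closure ({u₁, u₂} : Set (alternatingGroup (Fin n)))).index := by
  rcases hn with rfl | rfl
  · have m1 : (Equiv.swap (0 : Fin 6) 1 * Equiv.swap 0 2) ∈ alternatingGroup (Fin 6) :=
      Equiv.Perm.mem_alternatingGroup.mpr (by decide)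
    have m2 : (Equiv.swap (3 : Fin 6) 4 * Equiv.swap 3 5) ∈ alternatingGroup (Fin 6) :=
      Equiv.Perm.mem_alternatingGroup.mpr (by decide)
    have e1 : (⟨_, m1⟩ : alternatingGroup (Fin 6)) ^ 3 = 1 := Subtype.ext (by
      simp only [Subgroup.coe_pow, Subgroup.coe_one]; decide)
    have e2 : (⟨_, m2⟩ : alternatingGroup (Fin 6)) ^ 3 = 1 := Subtype.ext (by
      simp only [Subgroup.coe_pow, Subgroup.coe_one]; decide)
    have e3 : (⟨_, m1⟩ : alternatingGroup (Fin 6)) * ⟨_, m2⟩ = ⟨_, m2⟩ * ⟨_, m1⟩ :=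
      Subtype.ext (by simp only [Subgroup.coe_mul]; decide)
    refine ⟨⟨_, m1⟩, ⟨_, m2⟩, e1, e2, e3, ?_⟩
    have h9 := j2_nine_dvd_card_closure (⟨_, m1⟩ : alternatingGroup (Fin 6)) ⟨_, m2⟩ e1 e2
      (j2_ne_one _ m1 0 (by decide)) (j2_ne_one _ m2 3 (by decide)) e3
      (j2_not_mem_zpowers _ _ m1 m2 0 (by decide) (by decide))
    intro h3
    have hmul := Subgroup.card_mul_index
      (Subgroup.closure ({⟨_, m1⟩, ⟨_, m2⟩} : Set (alternatingGroup (Fin 6))))
    rw [j2_card_alt6] at hmul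
    obtain ⟨a, ha⟩ := h9
    obtain ⟨b, hb⟩ := h3
    have : 27 ∣ 360 := ⟨a * b, by rw [← hmul, ha, hb]; ring⟩
    omega
  · have m1 : (Equiv.swap (0 : Fin 7) 1 * Equiv.swap 0 2) ∈ alternatingGroup (Fin 7) :=
      Equiv.Perm.mem_alternatingGroup.mpr (by decide)
    have m2 : (Equiv.swap (3 : Fin 7) 4 * Equiv.swap 3 5) ∈ alternatingGroup (Fin 7) :=
      Equiv.Perm.mem_alternatingGroup.mpr (by decide)
    have e1 : (⟨_, m1⟩ : alternatingGroup (Fin 7)) ^ 3 = 1 := Subtype.ext (by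
      simp only [Subgroup.coe_pow, Subgroup.coe_one]; decide)
    have e2 : (⟨_, m2⟩ : alternatingGroup (Fin 7)) ^ 3 = 1 := Subtype.ext (by
      simp only [Subgroup.coe_pow, Subgroup.coe_one]; decide)
    have e3 : (⟨_, m1⟩ : alternatingGroup (Fin 7)) * ⟨_, m2⟩ = ⟨_, m2⟩ * ⟨_, m1⟩ :=
      Subtype.ext (by simp only [Subgroup.coe_mul]; decide)
    refine ⟨⟨_, m1⟩, ⟨_, m2⟩, e1, e2, e3, ?_⟩
    have h9 := j2_nine_dvd_card_closure (⟨_, m1⟩ : alternatingGroup (Fin 7)) ⟨_, m2⟩ e1 e2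
      (j2_ne_one _ m1 0 (by decide)) (j2_ne_one _ m2 3 (by decide)) e3
      (j2_not_mem_zpowers _ _ m1 m2 0 (by decide) (by decide))
    intro h3
    have hmul := Subgroup.card_mul_index
      (Subgroup.closure ({⟨_, m1⟩, ⟨_, m2⟩} : Set (alternatingGroup (Fin 7))))
    rw [j2_card_alt7] at hmul
    obtain ⟨a, ha⟩ := h9
    obtain ⟨b, hb⟩ := h3
    have : 27 ∣ 2520 := ⟨a * b, by rw [← hmul, ha, hb]; ring⟩
    omega

theorem alt_sylow_cyclic (n : ℕ) (hn : n = 6 ∨ n = 7) (ℓ : ℕ) [Fact ℓ.Prime] (h2 : ℓ ≠ 2)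
    (h3 : ℓ ≠ 3) (R : Sylow ℓ (alternatingGroup (Fin n))) : IsCyclic R := by
  have hp : ℓ.Prime := Fact.out
  obtain ⟨k, hk⟩ := IsPGroup.iff_card.mp R.isPGroup'
  have hdvd : Nat.card R ∣ Nat.card (alternatingGroup (Fin n)) :=
    Subgroup.card_subgroup_dvd_card _
  have hk1 : k ≤ 1 := by
    by_contra hcon
    have h2k : 2 ≤ k := by omega
    have hsq : ℓ ^ 2 ∣ Nat.card (alternatingGroup (Fin n)) :=
      (pow_dvd_pow ℓ h2k).trans (hk ▸ hdvd)
    rcases hn with rfl | rfl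
    · rw [j2_card_alt6] at hsq
      have hle : ℓ ^ 2 ≤ 360 := Nat.le_of_dvd (by norm_num) hsq
      have hl : ℓ ≤ 18 := by nlinarith
      interval_cases ℓ <;>
        first | exact absurd rfl h2 | exact absurd rfl h3 | (revert hsq hp; decide)
    · rw [j2_card_alt7] at hsq
      have hle : ℓ ^ 2 ≤ 2520 := Nat.le_of_dvd (by norm_num) hsq
      have hl : ℓ ≤ 50 := by nlinarith
      interval_cases ℓ <;>
        first | exact absurd rfl h2 | exact absurd rfl h3 | (revert hsq hp; decide)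
  interval_cases k
  · have : Subsingleton R := (Nat.card_eq_one_iff_unique.mp (by simpa using hk)).1
    exact isCyclic_of_subsingleton
  · exact isCyclic_of_prime_card (p := ℓ) (by simpa using hk)

end Cfsg.Agent.Lib.Helper86
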