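import Mathlib
import Cfsg.Prelude.Def_GeometricClasses
import Cfsg.Prelude.Def_LieClassical
import Cfsg.Agent.Lib.Helper71.Asch0
import Cfsg.Agent.Lib.Helper57.ASCOREA

/-! Project SPP (helper71), piece CAP: Clifford's theorem (`coreA`) with the extra information
that the blocks of the first alternative are isotypic.  The first alternative is helper57's
`first_alt` with one more conjunct, proved by `CAP_iso_full`: a subspace of an isotypic component
invariant under `N` and under the commutant of `N` is a fully invariant submodule, hence a sum of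
isotypic components. -/

set_option autoImplicit false

namespace Cfsg.Agent.Lib.Helper86.SPPCAP

open Matrix Cfsg.Geo Cfsg.Agent.Lib.Helper71.Asch Cfsg.Agent.Lib.Helper57.ASCOREA
open scoped Kronecker

section aux

variable {n : ℕ} {F : Type*} [Field F]

/-- A subspace of an isotypic component which is invariant under `N` and under every matrix
commuting with `N` is zero or the whole component. -/
theorem CAP_iso_full (N : Subgroup (GL (Fin n) F)) [IsSemisimpleModule (Env N) (Fin n → F)]
    {c : Submodule (Env N) (Fin n → F)} (hc : c ∈ isotypicComponents (Env N) (Fin n → F))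
    (W : Submodule F (Fin n → F)) (hWc : W ≤ c.restrictScalars F)
    (hWN : ∀ x ∈ N, W.map (Matrix.toLin' x.1) ≤ W)
    (hWX : ∀ X : Matrix (Fin n) (Fin n) F, (∀ x ∈ N, X * x.1 = x.1 * X) →
      W.map (Matrix.toLin' X) ≤ W) :
    W = ⊥ ∨ W = c.restrictScalars F := by
  have hfi : (toA N W hWN).IsFullyInvariant := by
    intro f v hv
    show f v ∈ W
    have hXf : ∀ u, Matrix.toLin' (LinearMap.toMatrix' (f.restrictScalars F)) u = f u := by
      intro u
      rw [Matrix.toLin'_toMatrix']
      rfl
    have hXN : ∀ x ∈ N, LinearMap.toMatrix' (f.restrictScalars F) * x.1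
        = x.1 * LinearMap.toMatrix' (f.restrictScalars F) := by
      intro x hx
      apply Matrix.toLin'.injective
      apply LinearMap.ext
      intro u
      rw [Matrix.toLin'_mul, Matrix.toLin'_mul, LinearMap.comp_apply, LinearMap.comp_apply,
        hXf, hXf]
      exact f.map_smul (⟨Matrix.toLin' x.1, gen_mem N hx⟩ : Env N) u
    have h1 := hWX _ hXN ⟨v, hv, rfl⟩
    rw [hXf] at h1
    exact h1
  obtain ⟨s, hs, hs'⟩ := isFullyInvariant_iff_sSup_isotypicComponents.mp hfi
  by_cases hse : s = ∅
  · left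
    rw [hse, sSup_empty] at hs'
    have h2 : (toA N W hWN).restrictScalars F
        = (⊥ : Submodule (Env N) (Fin n → F)).restrictScalars F := by rw [hs']
    rw [restrict_toA, Submodule.restrictScalars_bot] at h2
    exact h2
  · right
    obtain ⟨c', hc'⟩ := Set.nonempty_iff_ne_empty.mpr hse
    have hle : c' ≤ toA N W hWN := hs' ▸ le_sSup hc'
    have hle2 : toA N W hWN ≤ c := fun v hv => hWc hv
    have heq : c' = c := iso_antichain N hc (hs hc') (hle.trans hle2)
    have h3 : toA N W hWN = c := le_antisymm hle2 (heq ▸ hle)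
    rw [← h3]
    rfl

/-- The first alternative (at least two isotypic components), with the blocks isotypic. -/
theorem CAP_first_alt (G N : Subgroup (GL (Fin n) F))
    (hG : ActsIrreducibly (matrixSet G)) (hN : Nrm G N) [IsSemisimpleModule (Env N) (Fin n → F)]
    (c₀ : Submodule (Env N) (Fin n → F))
    (hc₀ : c₀ ∈ isotypicComponents (Env N) (Fin n → F)) (hne : c₀ ≠ ⊤) :
    ∃ (t m : ℕ) (D : Fin t → Submodule F (Fin n → F)), IsMDecomposition m D ∧
      G ≤ decompositionStabilizer D ∧
      (∀ i, ∀ X : Matrix (Fin n) (Fin n) F, (∀ x ∈ N, X * x.1 = x.1 * X) →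
        (D i).map (Matrix.toLin' X) ≤ D i) ∧
      (∀ i, ∀ x ∈ N, (D i).map (Matrix.toLin' x.1) ≤ D i) ∧
      (∀ i, ∀ W : Submodule F (Fin n → F), W ≤ D i →
        (∀ x ∈ N, W.map (Matrix.toLin' x.1) ≤ W) →
        (∀ X : Matrix (Fin n) (Fin n) F, (∀ x ∈ N, X * x.1 = x.1 * X) →
          W.map (Matrix.toLin' X) ≤ W) →
        W = ⊥ ∨ W = D i) := by
  classical
  have hfin : Finite (isotypicComponents (Env N) (Fin n → F)) := inferInstance
  obtain ⟨ε⟩ : Nonempty (isotypicComponents (Env N) (Fin n → F)
      ≃ Fin (Nat.card (isotypicComponents (Env N) (Fin n → F)))) := ⟨Finite.equivFin _⟩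
  obtain ⟨t, ht⟩ : ∃ t, t = Nat.card (isotypicComponents (Env N) (Fin n → F)) := ⟨_, rfl⟩
  rw [← ht] at ε
  obtain ⟨A, hA⟩ : ∃ A : Fin t → Submodule (Env N) (Fin n → F), A = fun i => (ε.symm i).1 :=
    ⟨_, rfl⟩
  have hAmem : ∀ i, A i ∈ isotypicComponents (Env N) (Fin n → F) := fun i => by
    rw [hA]; exact (ε.symm i).2
  have hAsurj : ∀ c ∈ isotypicComponents (Env N) (Fin n → F), ∃ i, A i = c := fun c hc =>
    ⟨ε ⟨c, hc⟩, by rw [hA]; simp⟩
  have hAinj : Function.Injective A := by
    intro i j hij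
    rw [hA] at hij
    exact ε.symm.injective (Subtype.ext hij)
  refine ⟨t, Module.finrank F (c₀.restrictScalars F), fun i => (A i).restrictScalars F,
    ⟨?_, ?_, ?_, ?_, ?_⟩, ?_, ?_, ?_, ?_⟩
  · -- two_le
    obtain ⟨c₁, hc₁, hc₁'⟩ : ∃ c₁ ∈ isotypicComponents (Env N) (Fin n → F), c₁ ≠ c₀ := by
      by_contra hcon
      push Not at hcon
      apply hne
      rw [← top_le_iff, ← sSup_isotypicComponents (Env N) (Fin n → F)]
      exact sSup_le fun c hc => (hcon c hc).le
    have hnt : Nontrivial (isotypicComponents (Env N) (Fin n → F)) :=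
      ⟨⟨c₁, hc₁⟩, ⟨c₀, hc₀⟩, fun h => hc₁' (congrArg Subtype.val h)⟩
    have := Finite.one_lt_card_iff_nontrivial.mpr hnt
    omega
  · -- pos
    apply Nat.pos_of_ne_zero
    intro h0
    rw [Submodule.finrank_eq_zero] at h0
    exact (bot_lt_isotypicComponents hc₀).ne'
      ((Submodule.restrictScalars_eq_bot_iff F (Env N) (Fin n → F)).mp h0)
  · -- finrank_eq
    intro i
    obtain ⟨g, hg, hgc⟩ := iso_transitive G N hG hN hc₀ (hAmem i)
    show Module.finrank F ((A i).restrictScalars F) = _
    rw [hgc, finrank_gmap]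
  · -- indep
    have h1 : iSupIndep A := by
      have h2 := (sSupIndep_iff _).mp (sSupIndep_isotypicComponents (Env N) (Fin n → F))
      have h3 := h2.comp ε.symm.injective
      rw [hA]; exact h3
    intro i
    rw [Submodule.disjoint_def]
    intro x hx hx'
    have h4 := h1 i
    rw [Submodule.disjoint_def] at h4
    apply h4 x hx
    have h5 : (⨆ j, ⨆ (_ : j ≠ i), (A j).restrictScalars F)
        = (⨆ j, ⨆ (_ : j ≠ i), A j).restrictScalars F := by
      simp only [Submodule.restrictScalars_iSup]
    rw [h5] at hx'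
    exact hx'
  · -- iSup_eq_top
    have h1 : (⨆ i, A i) = ⊤ := by
      rw [← sSup_isotypicComponents (Env N) (Fin n → F), sSup_eq_iSup', hA]
      exact ε.symm.iSup_comp (g := fun c : isotypicComponents (Env N) (Fin n → F) => c.1)
    have h2 : (⨆ i, (A i).restrictScalars F) = (⨆ i, A i).restrictScalars F := by
      simp only [Submodule.restrictScalars_iSup]
    rw [h2, h1, Submodule.restrictScalars_top]
  · -- stabilizer
    intro g hg
    have hgz := nz_of_nrm hN hg
    have hperm : ∀ i, ∃ j, A j = gmap N g hgz (A i) := fun i =>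
      hAsurj _ (gmap_mem_iso N g hgz (hAmem i))
    choose σ hσ using hperm
    have hσinj : Function.Injective σ := by
      intro i j hij
      have h1 : gmap N g hgz (A i) = gmap N g hgz (A j) := by rw [← hσ i, ← hσ j, hij]
      have h2 := congrArg (gmap N g⁻¹ hgz.inv) h1
      rw [gmap_inv_gmap, gmap_inv_gmap] at h2
      exact hAinj h2
    refine ⟨Equiv.ofBijective σ (Finite.injective_iff_bijective.mp hσinj), fun i => ?_⟩
    show Submodule.map (Matrix.toLin' g.1) ((A i).restrictScalars F)
      = (A (Equiv.ofBijective σ (Finite.injective_iff_bijective.mp hσinj) i)).restrictScalars F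
    rw [Equiv.ofBijective_apply, hσ i]
    rfl
  · -- commutant
    intro i X hX
    rintro _ ⟨v, hv, rfl⟩
    have hfi := Submodule.IsFullyInvariant.of_mem_isotypicComponents (hAmem i)
    exact hfi (commEnd N X hX) hv
  · intro i
    exact restrict_inv N (A i)
  · intro i W hW hWN hWX
    exact CAP_iso_full N (hAmem i) W hW hWN hWX

end aux

variable {n : ℕ} {F : Type*} [Field F] [Fintype F]

/-- CAP: Clifford's theorem (`coreA`) with the extra information that the blocks of the first
alternative are isotypic: a subspace of a block invariant under `N` and under the commutant of `N`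
is zero or the whole block. -/
theorem CAP (hn : 1 ≤ n) (G N : Subgroup (GL (Fin n) F)) (hG : ActsIrreducibly (matrixSet G))
    (hNG : N ≤ G) (hN : Nrm G N) :
    (∃ (t m : ℕ) (D : Fin t → Submodule F (Fin n → F)), IsMDecomposition m D ∧
      G ≤ decompositionStabilizer D ∧
      (∀ i, ∀ X : Matrix (Fin n) (Fin n) F, (∀ x ∈ N, X * x.1 = x.1 * X) →
        (D i).map (Matrix.toLin' X) ≤ D i) ∧
      (∀ i, ∀ x ∈ N, (D i).map (Matrix.toLin' x.1) ≤ D i) ∧
      (∀ i, ∀ W : Submodule F (Fin n → F), W ≤ D i →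
        (∀ x ∈ N, W.map (Matrix.toLin' x.1) ≤ W) →
        (∀ X : Matrix (Fin n) (Fin n) F, (∀ x ∈ N, X * x.1 = x.1 * X) →
          W.map (Matrix.toLin' X) ≤ W) →
        W = ⊥ ∨ W = D i)) ∨
    (∃ (d k : ℕ) (e : Fin n ≃ Fin d × Fin k) (P : GL (Fin n) F) (R : Subgroup (GL (Fin d) F)),
      ActsIrreducibly (matrixSet R) ∧ (∀ x ∈ N, ∃ y ∈ R, x.1 = tmat e P y.1 1) ∧
      (∀ y ∈ R, ∃ x ∈ N, x.1 = tmat e P y.1 1)) := by
  have hss : IsSemisimpleModule (Env N) (Fin n → F) := semisimple hn G N hG hN
  have hnt : Nontrivial (Fin n → F) := by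
    have : Nonempty (Fin n) := ⟨⟨0, by omega⟩⟩
    infer_instance
  have hne : (isotypicComponents (Env N) (Fin n → F)).Nonempty := by
    by_contra h
    rw [Set.not_nonempty_iff_eq_empty] at h
    have h1 := sSup_isotypicComponents (Env N) (Fin n → F)
    rw [h, sSup_empty] at h1
    exact bot_ne_top h1
  obtain ⟨c₀, hc₀⟩ := hne
  by_cases htop : c₀ = ⊤
  · right
    obtain ⟨S, hS, hS'⟩ := hc₀
    have hiso : IsIsotypicOfType (Env N) (Fin n → F) S :=
      isotypicComponent_eq_top_iff.mp (hS'.symm.trans htop)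
    obtain ⟨k, ⟨Φ⟩⟩ := hiso.linearEquiv_fun
    exact second_alt N S k Φ
  · left
    exact CAP_first_alt G N hG hN c₀ hc₀ htop

end Cfsg.Agent.Lib.Helper86.SPPCAP
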