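import Cfsg.Agent.Lib.Helper86.Spec

/-!
# Special rank one pairs: the partner of a product and of a power
-/

set_option autoImplicit false

namespace Cfsg.Agent.Lib.Helper86

open Cfsg

variable {G : Type*} [Group G] {A B : Subgroup G}

/-- The partner of a product `a c`, in terms of the partners of `a` and of
`a · n(a) γ n(a)⁻¹`. -/
theorem spart_add (hs : IsSpecialRankOnePair A B) (hA : ∀ x ∈ A, ∀ y ∈ A, x * y = y * x)
    {a β c γ : G} (h1 : SPart A B a β) (h2 : SPart A B c γ) (hac : a * c ≠ 1) :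
    ∃ δ, SPart A B (a * ((a * β * a) * γ * (a * β * a)⁻¹)) δ ∧ SPart A B (a * c) (δ⁻¹ * β) := by
  have hμ : (a * β * a) * γ * (a * β * a)⁻¹ ∈ A := spart_conj_mem hs h1 h2.2.2.1
  have hg : a * ((a * β * a) * γ * (a * β * a)⁻¹) ∈ A := A.mul_mem h1.1 hμ
  have hacA : a * c ∈ A := A.mul_mem h1.1 h2.1
  have hc' : conjBy A γ⁻¹ = conjBy B c := by
    have := (spart_inv hs h2).2.2.2.2
    rwa [inv_inv] at this
  -- two computations of `n(a)` applied to the point `c B c⁻¹`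
  have e1 : conjBy (conjBy B c) (a * β * a) =
      conjBy B ((a * β * a) * γ * (a * β * a)⁻¹)⁻¹ := by
    have e : (a * β * a) * γ⁻¹ =
        ((a * β * a) * γ * (a * β * a)⁻¹)⁻¹ * (a * β * a) := by group
    rw [← hc', conjBy_conjBy, e, ← conjBy_conjBy, spart_conjA h1]
  have e2 : conjBy (conjBy B c) (a * β * a) = conjBy (conjBy B (a * c)) (a * β) := by
    have e : (a * β * a) * c = (a * β) * (a * c) := by group
    rw [conjBy_conjBy, e, ← conjBy_conjBy]
  have e3 : conjBy B (a * c) =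
      conjBy (conjBy B (a * ((a * β * a) * γ * (a * β * a)⁻¹))⁻¹) β⁻¹ := by
    have h3 : conjBy (conjBy B (a * c)) (a * β) =
        conjBy B ((a * β * a) * γ * (a * β * a)⁻¹)⁻¹ := e2.symm.trans e1
    rw [conjBy_eq_iff] at h3
    rw [h3, conjBy_conjBy, conjBy_conjBy]
    have hcomm := hA a h1.1 _ hμ
    have e : (a * β)⁻¹ * ((a * β * a) * γ * (a * β * a)⁻¹)⁻¹ =
        β⁻¹ * (a * ((a * β * a) * γ * (a * β * a)⁻¹))⁻¹ := by
      calc (a * β)⁻¹ * ((a * β * a) * γ * (a * β * a)⁻¹)⁻¹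
          = β⁻¹ * (((a * β * a) * γ * (a * β * a)⁻¹) * a)⁻¹ := by group
        _ = β⁻¹ * (a * ((a * β * a) * γ * (a * β * a)⁻¹))⁻¹ := by rw [hcomm]
    rw [e]
  have hg1 : a * ((a * β * a) * γ * (a * β * a)⁻¹) ≠ 1 := by
    intro e
    rw [e, inv_one, conjBy_one, conjBy_of_mem (B.inv_mem h1.2.2.1)] at e3
    exact hac (rk1_normA hs.1 hacA e3)
  obtain ⟨δ, h3⟩ := spart_exists hs.1 hg hg1
  refine ⟨δ, h3, ?_⟩
  rw [← h3.2.2.2.2, conjBy_conjBy] at e3
  -- e3 : conjBy B (a * c) = conjBy A (β⁻¹ * δ)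
  have hβδ : β⁻¹ * δ ≠ 1 := by
    intro e
    rw [e, conjBy_one] at e3
    exact rk1_conjB_ne_A hs.1 hacA e3
  have h4 : SPart A B (a * c)⁻¹ (β⁻¹ * δ) :=
    ⟨A.inv_mem hacA, inv_ne_one.mpr hac, B.mul_mem (B.inv_mem h1.2.2.1) h3.2.2.1, hβδ, by
      rw [inv_inv]; exact e3.symm⟩
  have h5 := spart_inv hs h4
  have e : (β⁻¹ * δ)⁻¹ = δ⁻¹ * β := by group
  rwa [inv_inv, e] at h5

/-- The power identity: if `c ^ m ≠ 1` then the partner of `c ^ m` is an `m`-th root of the partner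
of `c`. -/
theorem spart_pow (hs : IsSpecialRankOnePair A B) (hA : ∀ x ∈ A, ∀ y ∈ A, x * y = y * x)
    (hB : ∀ x ∈ B, ∀ y ∈ B, x * y = y * x) :
    ∀ m : ℕ, 1 ≤ m → ∀ c γ γ' : G, SPart A B c γ → SPart A B (c ^ m) γ' → γ' ^ m = γ := by
  intro m hm
  induction m, hm using Nat.le_induction with
  | base =>
    intro c γ γ' h1 h2
    rw [pow_one] at h2 ⊢
    exact spart_unique hs.1 h2 h1
  | succ k hk ih =>
    intro c γ γ' h1 h2
    by_cases hck : c ^ k = 1
    · have e : c ^ (k + 1) = c := by rw [pow_succ, hck, one_mul]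
      rw [e] at h2
      have e2 : γ' = γ := spart_unique hs.1 h2 h1
      have e3 : γ ^ k = 1 := by
        rw [← braid_conj_left (spart_braid hs h1), conj_pow, hck]
        group
      rw [e2, pow_succ, e3, one_mul]
    · have hak : c ^ k ∈ A := A.pow_mem h1.1 k
      obtain ⟨β, h3⟩ := spart_exists hs.1 hak hck
      have hβ : β ^ k = γ := ih c γ β h1 h3
      have hac : c ^ k * c ≠ 1 := by
        rw [← pow_succ]; exact h2.2.1
      obtain ⟨δ, h4, h5⟩ := spart_add hs hA h3 h1 hac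
      have e1 : (c ^ k * β * c ^ k) * γ * (c ^ k * β * c ^ k)⁻¹ = (c ^ k) ^ k := by
        rw [← hβ, ← conj_pow, braid_conj_right (spart_braid hs h3)]
      have e2 : c ^ k * ((c ^ k * β * c ^ k) * γ * (c ^ k * β * c ^ k)⁻¹) = (c ^ (k + 1)) ^ k := by
        rw [e1, ← pow_mul, ← pow_mul, ← pow_add]
        congr 1
        ring
      rw [e2] at h4
      rw [← pow_succ] at h5
      have e3 : γ' = δ⁻¹ * β := spart_unique hs.1 h2 h5
      have hδ : δ ^ k = γ' := ih (c ^ (k + 1)) γ' δ h2 h4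
      have hδB : δ ∈ B := h4.2.2.1
      have hβB : β ∈ B := h3.2.2.1
      have c1 : Commute δ⁻¹ β := hB _ (B.inv_mem hδB) _ hβB
      have c2 : Commute γ' γ := hB _ h2.2.2.1 _ h1.2.2.1
      calc γ' ^ (k + 1) = γ' ^ k * γ' := pow_succ _ _
        _ = (δ⁻¹ * β) ^ k * γ' := by rw [← e3]
        _ = (δ⁻¹ ^ k * β ^ k) * γ' := by rw [c1.mul_pow]
        _ = ((δ ^ k)⁻¹ * γ) * γ' := by rw [inv_pow, hβ]
        _ = (γ'⁻¹ * γ) * γ' := by rw [hδ]
        _ = γ'⁻¹ * (γ' * γ) := by rw [mul_assoc, c2.eq]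
        _ = γ := by group

end Cfsg.Agent.Lib.Helper86
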