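import Cfsg.Agent.S5016
import Cfsg.Agent.Lib.Helper86.Spec2

/-!
# Small special rank one groups: homomorphisms from `SL₂(ZMod 2)` and `SL₂(ZMod 3)`

Two elements `a`, `b` of order dividing `p ∈ {2, 3}` satisfying the braid relation `a b a = b a b`
are the images of the elementary matrices under a homomorphism from `SL₂(ZMod p)`.
-/

set_option autoImplicit false
set_option linter.unusedSimpArgs false

namespace Cfsg.Agent.Lib.Helper86

open Cfsg Cfsg.Agent.S5016

section enum

variable {G : Type*} [Group G]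

/-- Consequences of `a³ = b³ = 1` and the braid relation for `n = a b a`. -/
theorem braid3_facts {a b n : G} (ha : a ^ 3 = 1) (hb : b ^ 3 = 1) (hbr : a * b * a = b * a * b)
    (hn : n = a * b * a) :
    n ^ 4 = 1 ∧ n * n * a = a * (n * n) ∧ n * a * n = a⁻¹ * n⁻¹ * a⁻¹ ∧
      n * a⁻¹ * n = a * n * a := by
  have hn' : n = b * a * b := hn.trans hbr
  have hna : n * a = b * n := by
    calc n * a = (b * a * b) * a := by rw [← hn']
      _ = b * (a * b * a) := by group
      _ = b * n := by rw [← hn]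
  have hnb : n * b = a * n := by
    calc n * b = (a * b * a) * b := by rw [← hn]
      _ = a * (b * a * b) := by group
      _ = a * n := by rw [← hn']
  have hz : n * n * a = a * (n * n) := by
    calc n * n * a = n * (n * a) := by group
      _ = n * (b * n) := by rw [hna]
      _ = (n * b) * n := by group
      _ = (a * n) * n := by rw [hnb]
      _ = a * (n * n) := by group
  have haaa : a * (a * a) = 1 := by
    calc a * (a * a) = a ^ 3 := by simp only [pow_succ, pow_zero, one_mul, mul_one, mul_assoc]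
      _ = 1 := ha
  have hbbb : b * b * b = 1 := by
    calc b * b * b = b ^ 3 := by simp only [pow_succ, pow_zero, one_mul, mul_one, mul_assoc]
      _ = 1 := hb
  have hai : a⁻¹ = a * a := inv_eq_of_mul_eq_one_right haaa
  have han : a * n = a⁻¹ * b * a := by
    rw [hn, hai]; group
  have han3 : (a * n) * (a * n) * (a * n) = 1 := by
    calc (a * n) * (a * n) * (a * n) = (a⁻¹ * b * a) * (a⁻¹ * b * a) * (a⁻¹ * b * a) := by
          rw [han]
      _ = a⁻¹ * (b * b * b) * a := by group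
      _ = 1 := by rw [hbbb]; group
  have hna3 : (n * a) * (n * a) * (n * a) = 1 := by
    calc (n * a) * (n * a) * (n * a) = a⁻¹ * ((a * n) * (a * n) * (a * n)) * a := by group
      _ = 1 := by rw [han3]; group
  have h1 : n * a * n = a⁻¹ * n⁻¹ * a⁻¹ := by
    have e : (a * n * a) * (n * a * n) = 1 := by
      calc (a * n * a) * (n * a * n) = (a * n) * (a * n) * (a * n) := by group
        _ = 1 := han3
    have e2 := eq_inv_of_mul_eq_one_right e
    rw [e2]; group
  have h4 : n ^ 4 = 1 := by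
    have e : (n * a) * (n * a) * (n * a) = n ^ 4 := by
      calc (n * a) * (n * a) * (n * a) = (b * n) * (b * n) * (b * n) := by rw [hna]
        _ = b * (n * b) * (n * b) * n := by group
        _ = b * (a * n) * (a * n) * n := by rw [hnb]
        _ = b * a * (n * a) * (n * n) := by group
        _ = b * a * (b * n) * (n * n) := by rw [hna]
        _ = (b * a * b) * (n * n * n) := by group
        _ = n * (n * n * n) := by rw [← hn']
        _ = n ^ 4 := by simp only [pow_succ, pow_zero, one_mul, mul_one, mul_assoc]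
    rw [← e, hna3]
  have h2 : n * a⁻¹ * n = a * n * a := by
    calc n * a⁻¹ * n = n * a⁻¹ * (a * b * a) := by rw [← hn]
      _ = n * b * a := by group
      _ = (a * b * a) * b * a := by rw [← hn]
      _ = a * (b * a * b) * a := by group
      _ = a * n * a := by rw [← hn']
  exact ⟨h4, hz, h1, h2⟩

/-- The `24` normal forms `a^i n^j a^k` exhaust the subgroup generated by `a` and `n`. -/
theorem enum3 {a n : G} (ha : a ^ 3 = 1) (hn4 : n ^ 4 = 1) (hz : n * n * a = a * (n * n))
    (h1 : n * a * n = a⁻¹ * n⁻¹ * a⁻¹) (h2 : n * a⁻¹ * n = a * n * a) :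
    ∀ x ∈ Subgroup.closure ({a, n} : Set G), ∃ i j k : ℕ, i < 3 ∧ j < 4 ∧ k < 3 ∧
      x = a ^ i * n ^ j * a ^ k := by
  have hai : a⁻¹ = a ^ 2 := inv_eq_of_mul_eq_one_right (by rw [← pow_succ', ha])
  have hni : n⁻¹ = n ^ 3 := inv_eq_of_mul_eq_one_right (by rw [← pow_succ', hn4])
  have hzi : a⁻¹ * (n * n) = (n * n) * a⁻¹ := by
    calc a⁻¹ * (n * n) = a⁻¹ * (n * n * a) * a⁻¹ := by group
      _ = a⁻¹ * (a * (n * n)) * a⁻¹ := by rw [hz]
      _ = (n * n) * a⁻¹ := by group
  have hz2 : a ^ 2 * (n * n) = (n * n) * a ^ 2 := by rw [← hai]; exact hzi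
  have key : ∀ i j : ℕ, i < 3 → j < 4 → ∃ i' j' k' : ℕ, i' < 3 ∧ j' < 4 ∧
      n * (a ^ i * n ^ j) = a ^ i' * n ^ j' * a ^ k' := by
    intro i j hi hj
    interval_cases i <;> interval_cases j
    · exact ⟨0, 1, 0, by norm_num, by norm_num, by simp only [pow_succ, pow_zero, one_mul, mul_one, mul_assoc]⟩
    · exact ⟨0, 2, 0, by norm_num, by norm_num, by simp only [pow_succ, pow_zero, one_mul, mul_one, mul_assoc]⟩
    · exact ⟨0, 3, 0, by norm_num, by norm_num, by simp only [pow_succ, pow_zero, one_mul, mul_one, mul_assoc]⟩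
    · refine ⟨0, 0, 0, by norm_num, by norm_num, ?_⟩
      calc n * (a ^ 0 * n ^ 3) = n ^ 4 := by simp only [pow_succ, pow_zero, one_mul, mul_one, mul_assoc]
        _ = a ^ 0 * n ^ 0 * a ^ 0 := by rw [hn4]; simp only [pow_zero, one_mul]
    · exact ⟨0, 1, 1, by norm_num, by norm_num, by simp only [pow_succ, pow_zero, one_mul, mul_one, mul_assoc]⟩
    · refine ⟨2, 3, 2, by norm_num, by norm_num, ?_⟩
      calc n * (a ^ 1 * n ^ 1) = n * a * n := by simp only [pow_succ, pow_zero, one_mul, mul_one, mul_assoc]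
        _ = a⁻¹ * n⁻¹ * a⁻¹ := h1
        _ = a ^ 2 * n ^ 3 * a ^ 2 := by rw [hai, hni]
    · refine ⟨0, 3, 1, by norm_num, by norm_num, ?_⟩
      calc n * (a ^ 1 * n ^ 2) = n * (a * (n * n)) := by simp only [pow_succ, pow_zero, one_mul, mul_one, mul_assoc]
        _ = n * (n * n * a) := by rw [hz]
        _ = a ^ 0 * n ^ 3 * a ^ 1 := by simp only [pow_succ, pow_zero, one_mul, mul_one, mul_assoc]
    · refine ⟨2, 1, 2, by norm_num, by norm_num, ?_⟩
      calc n * (a ^ 1 * n ^ 3) = (n * a * n) * (n * n) := by simp only [pow_succ, pow_zero, one_mul, mul_one, mul_assoc]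
        _ = (a⁻¹ * n⁻¹ * a⁻¹) * (n * n) := by rw [h1]
        _ = a⁻¹ * n⁻¹ * (a⁻¹ * (n * n)) := by group
        _ = a⁻¹ * n⁻¹ * ((n * n) * a⁻¹) := by rw [hzi]
        _ = a⁻¹ * n ^ 1 * a⁻¹ := by group
        _ = a ^ 2 * n ^ 1 * a ^ 2 := by rw [hai]
    · exact ⟨0, 1, 2, by norm_num, by norm_num, by simp only [pow_succ, pow_zero, one_mul, mul_one, mul_assoc]⟩
    · refine ⟨1, 1, 1, by norm_num, by norm_num, ?_⟩
      calc n * (a ^ 2 * n ^ 1) = n * a ^ 2 * n := by simp only [pow_succ, pow_zero, one_mul, mul_one, mul_assoc]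
        _ = n * a⁻¹ * n := by rw [hai]
        _ = a * n * a := h2
        _ = a ^ 1 * n ^ 1 * a ^ 1 := by simp only [pow_succ, pow_zero, one_mul, mul_one, mul_assoc]
    · refine ⟨0, 3, 2, by norm_num, by norm_num, ?_⟩
      calc n * (a ^ 2 * n ^ 2) = n * (a ^ 2 * (n * n)) := by simp only [pow_succ, pow_zero, one_mul, mul_one, mul_assoc]
        _ = n * ((n * n) * a ^ 2) := by rw [hz2]
        _ = a ^ 0 * n ^ 3 * a ^ 2 := by simp only [pow_succ, pow_zero, one_mul, mul_one, mul_assoc]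
    · refine ⟨1, 3, 1, by norm_num, by norm_num, ?_⟩
      calc n * (a ^ 2 * n ^ 3) = (n * a ^ 2 * n) * (n * n) := by simp only [pow_succ, pow_zero, one_mul, mul_one, mul_assoc]
        _ = (n * a⁻¹ * n) * (n * n) := by rw [hai]
        _ = (a * n * a) * (n * n) := by rw [h2]
        _ = a * n * (a * (n * n)) := by simp only [pow_succ, pow_zero, one_mul, mul_one, mul_assoc]
        _ = a * n * (n * n * a) := by rw [← hz]
        _ = a ^ 1 * n ^ 3 * a ^ 1 := by simp only [pow_succ, pow_zero, one_mul, mul_one, mul_assoc]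
  have hA : ∀ y : G, (∃ i j k : ℕ, i < 3 ∧ j < 4 ∧ k < 3 ∧ y = a ^ i * n ^ j * a ^ k) →
      ∃ i j k : ℕ, i < 3 ∧ j < 4 ∧ k < 3 ∧ a * y = a ^ i * n ^ j * a ^ k := by
    rintro y ⟨i, j, k, hi, hj, hk, rfl⟩
    refine ⟨(i + 1) % 3, j, k, Nat.mod_lt _ (by norm_num), hj, hk, ?_⟩
    rw [← pow_eq_pow_mod (i + 1) ha, pow_succ']
    simp only [mul_assoc]
  have hN : ∀ y : G, (∃ i j k : ℕ, i < 3 ∧ j < 4 ∧ k < 3 ∧ y = a ^ i * n ^ j * a ^ k) →
      ∃ i j k : ℕ, i < 3 ∧ j < 4 ∧ k < 3 ∧ n * y = a ^ i * n ^ j * a ^ k := by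
    rintro y ⟨i, j, k, hi, hj, hk, rfl⟩
    obtain ⟨i', j', k', hi', hj', e⟩ := key i j hi hj
    refine ⟨i', j', (k' + k) % 3, hi', hj', Nat.mod_lt _ (by norm_num), ?_⟩
    rw [← pow_eq_pow_mod (k' + k) ha, pow_add]
    calc n * (a ^ i * n ^ j * a ^ k) = n * (a ^ i * n ^ j) * a ^ k := by simp only [mul_assoc]
      _ = a ^ i' * n ^ j' * a ^ k' * a ^ k := by rw [e]
      _ = a ^ i' * n ^ j' * (a ^ k' * a ^ k) := by simp only [mul_assoc]
  intro x hx
  induction hx using Subgroup.closure_induction_left with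
  | one => exact ⟨0, 0, 0, by norm_num, by norm_num, by norm_num, by simp⟩
  | mul_left g hg y hy ih =>
    simp only [Set.mem_insert_iff, Set.mem_singleton_iff] at hg
    rcases hg with rfl | rfl
    · exact hA y ih
    · exact hN y ih
  | inv_mul_cancel g hg y hy ih =>
    simp only [Set.mem_insert_iff, Set.mem_singleton_iff] at hg
    rcases hg with rfl | rfl
    · have e : g⁻¹ * y = g * (g * y) := by rw [hai, pow_two, mul_assoc]
      rw [e]
      exact hA _ (hA _ ih)
    · have e : g⁻¹ * y = g * (g * (g * y)) := by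
        rw [hni, pow_succ, pow_two]; simp only [mul_assoc]
      rw [e]
      exact hN _ (hN _ (hN _ ih))

/-- Consequences of `a² = b² = 1` and the braid relation for `n = a b a`. -/
theorem braid2_facts {a b n : G} (ha : a ^ 2 = 1) (hb : b ^ 2 = 1) (hbr : a * b * a = b * a * b)
    (hn : n = a * b * a) : n ^ 2 = 1 ∧ n * a * n = a * n * a := by
  have hn' : n = b * a * b := hn.trans hbr
  have haa : a * a = 1 := by rw [← pow_two]; exact ha
  have hbb : b * b = 1 := by rw [← pow_two]; exact hb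
  constructor
  · calc n ^ 2 = n * n := pow_two n
      _ = a * b * (a * a) * b * a := by rw [hn]; group
      _ = a * (b * b) * a := by rw [haa]; group
      _ = 1 := by rw [hbb, mul_one, haa]
  · calc n * a * n = a * b * (a * a) * (a * b * a) := by rw [hn]; group
      _ = a * (b * a * b) * a := by rw [haa]; group
      _ = a * n * a := by rw [← hn']

/-- The `6` normal forms `a^i n^j a^k` exhaust the subgroup generated by `a` and `n`. -/
theorem enum2 {a n : G} (ha : a ^ 2 = 1) (hn2 : n ^ 2 = 1) (h1 : n * a * n = a * n * a) :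
    ∀ x ∈ Subgroup.closure ({a, n} : Set G), ∃ i j k : ℕ, i < 2 ∧ j < 2 ∧ k < 2 ∧
      x = a ^ i * n ^ j * a ^ k := by
  have hai : a⁻¹ = a := inv_eq_of_mul_eq_one_right (by rw [← pow_two, ha])
  have hni : n⁻¹ = n := inv_eq_of_mul_eq_one_right (by rw [← pow_two, hn2])
  have key : ∀ i j : ℕ, i < 2 → j < 2 → ∃ i' j' k' : ℕ, i' < 2 ∧ j' < 2 ∧
      n * (a ^ i * n ^ j) = a ^ i' * n ^ j' * a ^ k' := by
    intro i j hi hj
    interval_cases i <;> interval_cases j
    · exact ⟨0, 1, 0, by norm_num, by norm_num, by simp only [pow_succ, pow_zero, one_mul, mul_one, mul_assoc]⟩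
    · refine ⟨0, 0, 0, by norm_num, by norm_num, ?_⟩
      calc n * (a ^ 0 * n ^ 1) = n ^ 2 := by simp only [pow_succ, pow_zero, one_mul, mul_one, mul_assoc]
        _ = a ^ 0 * n ^ 0 * a ^ 0 := by rw [hn2]; simp only [pow_zero, one_mul]
    · exact ⟨0, 1, 1, by norm_num, by norm_num, by simp only [pow_succ, pow_zero, one_mul, mul_one, mul_assoc]⟩
    · refine ⟨1, 1, 1, by norm_num, by norm_num, ?_⟩
      calc n * (a ^ 1 * n ^ 1) = n * a * n := by simp only [pow_succ, pow_zero, one_mul, mul_one, mul_assoc]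
        _ = a * n * a := h1
        _ = a ^ 1 * n ^ 1 * a ^ 1 := by simp only [pow_succ, pow_zero, one_mul, mul_one, mul_assoc]
  have hA : ∀ y : G, (∃ i j k : ℕ, i < 2 ∧ j < 2 ∧ k < 2 ∧ y = a ^ i * n ^ j * a ^ k) →
      ∃ i j k : ℕ, i < 2 ∧ j < 2 ∧ k < 2 ∧ a * y = a ^ i * n ^ j * a ^ k := by
    rintro y ⟨i, j, k, hi, hj, hk, rfl⟩
    refine ⟨(i + 1) % 2, j, k, Nat.mod_lt _ (by norm_num), hj, hk, ?_⟩
    rw [← pow_eq_pow_mod (i + 1) ha, pow_succ']
    simp only [mul_assoc]
  have hN : ∀ y : G, (∃ i j k : ℕ, i < 2 ∧ j < 2 ∧ k < 2 ∧ y = a ^ i * n ^ j * a ^ k) →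
      ∃ i j k : ℕ, i < 2 ∧ j < 2 ∧ k < 2 ∧ n * y = a ^ i * n ^ j * a ^ k := by
    rintro y ⟨i, j, k, hi, hj, hk, rfl⟩
    obtain ⟨i', j', k', hi', hj', e⟩ := key i j hi hj
    refine ⟨i', j', (k' + k) % 2, hi', hj', Nat.mod_lt _ (by norm_num), ?_⟩
    rw [← pow_eq_pow_mod (k' + k) ha, pow_add]
    calc n * (a ^ i * n ^ j * a ^ k) = n * (a ^ i * n ^ j) * a ^ k := by simp only [mul_assoc]
      _ = a ^ i' * n ^ j' * a ^ k' * a ^ k := by rw [e]
      _ = a ^ i' * n ^ j' * (a ^ k' * a ^ k) := by simp only [mul_assoc]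
  intro x hx
  induction hx using Subgroup.closure_induction_left with
  | one => exact ⟨0, 0, 0, by norm_num, by norm_num, by norm_num, by simp⟩
  | mul_left g hg y hy ih =>
    simp only [Set.mem_insert_iff, Set.mem_singleton_iff] at hg
    rcases hg with rfl | rfl
    · exact hA y ih
    · exact hN y ih
  | inv_mul_cancel g hg y hy ih =>
    simp only [Set.mem_insert_iff, Set.mem_singleton_iff] at hg
    rcases hg with rfl | rfl
    · rw [hai]
      exact hA _ ih
    · rw [hni]
      exact hN _ ih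

end enum

section pres

/-- The relations `a^p = b^p = 1`, `a b a = b a b` on two generators. -/
def braidRels (p : ℕ) : Set (FreeGroup (Fin 2)) :=
  {FreeGroup.of 0 ^ p, FreeGroup.of 1 ^ p,
    FreeGroup.of 0 * FreeGroup.of 1 * FreeGroup.of 0 *
      (FreeGroup.of 1 * FreeGroup.of 0 * FreeGroup.of 1)⁻¹}

theorem braidRels_lift {X : Type*} [Group X] (p : ℕ) {a b : X} (ha : a ^ p = 1) (hb : b ^ p = 1)
    (hbr : a * b * a = b * a * b) :
    ∃ ρ : PresentedGroup (braidRels p) →* X,
      ρ (PresentedGroup.of 0) = a ∧ ρ (PresentedGroup.of 1) = b := by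
  have h : ∀ r ∈ braidRels p, FreeGroup.lift ![a, b] r = 1 := by
    intro r hr
    simp only [braidRels, Set.mem_insert_iff, Set.mem_singleton_iff] at hr
    rcases hr with rfl | rfl | rfl
    · simp [ha]
    · simp [hb]
    · simp only [map_mul, map_inv, FreeGroup.lift_apply_of, Matrix.cons_val_zero,
        Matrix.cons_val_one]
      rw [hbr]
      exact mul_inv_cancel _
  exact ⟨PresentedGroup.toGroup h, by rw [PresentedGroup.toGroup.of]; rfl,
    by rw [PresentedGroup.toGroup.of]; rfl⟩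

theorem braidRels_pow0 (p : ℕ) :
    (PresentedGroup.of 0 : PresentedGroup (braidRels p)) ^ p = 1 := by
  have h : PresentedGroup.mk (braidRels p) (FreeGroup.of 0 ^ p) = 1 :=
    PresentedGroup.one_of_mem (by simp [braidRels])
  rw [map_pow] at h
  exact h

theorem braidRels_pow1 (p : ℕ) :
    (PresentedGroup.of 1 : PresentedGroup (braidRels p)) ^ p = 1 := by
  have h : PresentedGroup.mk (braidRels p) (FreeGroup.of 1 ^ p) = 1 :=
    PresentedGroup.one_of_mem (by simp [braidRels])
  rw [map_pow] at h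
  exact h

theorem braidRels_braid (p : ℕ) :
    (PresentedGroup.of 0 : PresentedGroup (braidRels p)) * PresentedGroup.of 1 *
        PresentedGroup.of 0 =
      PresentedGroup.of 1 * PresentedGroup.of 0 * PresentedGroup.of 1 := by
  have h : PresentedGroup.mk (braidRels p) (FreeGroup.of 0 * FreeGroup.of 1 * FreeGroup.of 0 *
      (FreeGroup.of 1 * FreeGroup.of 0 * FreeGroup.of 1)⁻¹) = 1 :=
    PresentedGroup.one_of_mem (by simp [braidRels])
  rw [map_mul, map_inv, mul_inv_eq_one, map_mul, map_mul, map_mul, map_mul] at h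
  exact h

theorem Lm_natCast {k : Type*} [Field k] (m : ℕ) : Lm ((m : ℕ) : k) = Lm 1 ^ m := by
  induction m with
  | zero => rw [Nat.cast_zero, Lm_zero, pow_zero]
  | succ m ih => rw [Nat.cast_succ, Lm_add, ih, pow_succ]

theorem Um_neg_natCast {k : Type*} [Field k] (m : ℕ) : Um (-((m : ℕ) : k)) = Um (-1) ^ m := by
  induction m with
  | zero => rw [Nat.cast_zero, neg_zero, Um_zero, pow_zero]
  | succ m ih => rw [Nat.cast_succ, neg_add, Um_add, ih, pow_succ]

theorem Lm_one_pow (p : ℕ) [Fact p.Prime] : Lm (1 : ZMod p) ^ p = 1 := by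
  rw [← Lm_natCast, ZMod.natCast_self, Lm_zero]

theorem Um_one_pow (p : ℕ) [Fact p.Prime] : Um (-1 : ZMod p) ^ p = 1 := by
  rw [← Um_neg_natCast, ZMod.natCast_self, neg_zero, Um_zero]

theorem LU_braid {k : Type*} [Field k] :
    Lm (1 : k) * Um (-1) * Lm 1 = Um (-1) * Lm 1 * Um (-1) := by
  ext i j
  simp only [Matrix.SpecialLinearGroup.coe_mul, Lm_coe, Um_coe, Matrix.mul_fin_two]
  fin_cases i <;> fin_cases j <;> simp

/-- If the presented group `⟨a, b | a^p, b^p, aba = bab⟩` is exhausted by normal forms that are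
faithfully represented in `SL₂(ZMod p)`, then any pair `a`, `b` satisfying the relations is the
image of the pair of elementary matrices under a homomorphism. -/
theorem sl2_hom_of_enum (p q : ℕ) [Fact p.Prime]
    (hdec : ∀ i j k : ℕ, i < p → j < q → k < p →
      Lm (1 : ZMod p) ^ i * (Lm 1 * Um (-1) * Lm 1) ^ j * Lm 1 ^ k = 1 → j = 0 ∧ (i + k) % p = 0)
    (henum : ∀ x : PresentedGroup (braidRels p), ∃ i j k : ℕ, i < p ∧ j < q ∧ k < p ∧
      x = PresentedGroup.of 0 ^ i *
        (PresentedGroup.of 0 * PresentedGroup.of 1 * PresentedGroup.of 0) ^ j *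
        PresentedGroup.of 0 ^ k)
    {X : Type*} [Group X] {a b : X} (ha : a ^ p = 1) (hb : b ^ p = 1)
    (hbr : a * b * a = b * a * b) :
    ∃ φ : Matrix.SpecialLinearGroup (Fin 2) (ZMod p) →* X, φ (Lm 1) = a ∧ φ (Um (-1)) = b := by
  have : NeZero p := ⟨(Fact.out : p.Prime).ne_zero⟩
  obtain ⟨π, hπ0, hπ1⟩ := braidRels_lift p (Lm_one_pow p) (Um_one_pow p) (LU_braid (k := ZMod p))
  obtain ⟨ρ, hρ0, hρ1⟩ := braidRels_lift p ha hb hbr
  have hinj : Function.Injective π := by
    rw [injective_iff_map_eq_one]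
    intro x hx
    obtain ⟨i, j, k, hi, hj, hk, rfl⟩ := henum x
    rw [map_mul, map_mul, map_pow, map_pow, map_pow, map_mul, map_mul, hπ0, hπ1] at hx
    obtain ⟨rfl, hik⟩ := hdec i j k hi hj hk hx
    rw [pow_zero, mul_one, ← pow_add, pow_eq_pow_mod (i + k) (braidRels_pow0 p), hik, pow_zero]
  have hsurj : Function.Surjective π := by
    rw [← MonoidHom.range_eq_top, eq_top_iff, ← sup_eq_top, sup_le_iff]
    constructor
    · intro g hg
      obtain ⟨t, rfl⟩ := mem_lower_iff.mp hg
      refine ⟨PresentedGroup.of 0 ^ t.val, ?_⟩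
      rw [map_pow, hπ0, ← Lm_natCast, ZMod.natCast_zmod_val]
    · intro g hg
      obtain ⟨t, rfl⟩ := mem_upper_iff.mp hg
      refine ⟨PresentedGroup.of 1 ^ (-t).val, ?_⟩
      rw [map_pow, hπ1, ← Um_neg_natCast, ZMod.natCast_zmod_val, neg_neg]
  let e := MulEquiv.ofBijective π ⟨hinj, hsurj⟩
  have he0 : e.symm (Lm 1) = PresentedGroup.of 0 := by
    rw [MulEquiv.symm_apply_eq]; exact hπ0.symm
  have he1 : e.symm (Um (-1)) = PresentedGroup.of 1 := by
    rw [MulEquiv.symm_apply_eq]; exact hπ1.symm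
  refine ⟨ρ.comp e.symm.toMonoidHom, ?_, ?_⟩
  · show ρ (e.symm (Lm 1)) = a
    rw [he0, hρ0]
  · show ρ (e.symm (Um (-1))) = b
    rw [he1, hρ1]

theorem braid3_enum (x : PresentedGroup (braidRels 3)) : ∃ i j k : ℕ, i < 3 ∧ j < 4 ∧ k < 3 ∧
    x = PresentedGroup.of 0 ^ i *
      (PresentedGroup.of 0 * PresentedGroup.of 1 * PresentedGroup.of 0) ^ j *
      PresentedGroup.of 0 ^ k := by
  obtain ⟨h4, hz, h1, h2⟩ :=
    braid3_facts (braidRels_pow0 3) (braidRels_pow1 3) (braidRels_braid 3) rfl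
  apply enum3 (braidRels_pow0 3) h4 hz h1 h2
  have htop : Subgroup.closure ({PresentedGroup.of 0,
      PresentedGroup.of 0 * PresentedGroup.of 1 * PresentedGroup.of 0} :
        Set (PresentedGroup (braidRels 3))) = ⊤ := by
    rw [eq_top_iff, ← PresentedGroup.closure_range_of, Subgroup.closure_le]
    rintro _ ⟨i, rfl⟩
    have h0 : (PresentedGroup.of 0 : PresentedGroup (braidRels 3)) ∈ Subgroup.closure
        ({PresentedGroup.of 0, PresentedGroup.of 0 * PresentedGroup.of 1 * PresentedGroup.of 0} :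
          Set (PresentedGroup (braidRels 3))) := Subgroup.subset_closure (by simp)
    have hn : (PresentedGroup.of 0 * PresentedGroup.of 1 * PresentedGroup.of 0 :
        PresentedGroup (braidRels 3)) ∈ Subgroup.closure
        ({PresentedGroup.of 0, PresentedGroup.of 0 * PresentedGroup.of 1 * PresentedGroup.of 0} :
          Set (PresentedGroup (braidRels 3))) := Subgroup.subset_closure (by simp)
    fin_cases i
    · exact h0
    · have e : (PresentedGroup.of 1 : PresentedGroup (braidRels 3)) =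
          (PresentedGroup.of 0)⁻¹ *
            (PresentedGroup.of 0 * PresentedGroup.of 1 * PresentedGroup.of 0) *
            (PresentedGroup.of 0)⁻¹ := by group
      have hm := mul_mem (mul_mem (inv_mem h0) hn) (inv_mem h0)
      rw [← e] at hm
      exact hm
  rw [htop]; trivial

theorem braid2_enum (x : PresentedGroup (braidRels 2)) : ∃ i j k : ℕ, i < 2 ∧ j < 2 ∧ k < 2 ∧
    x = PresentedGroup.of 0 ^ i *
      (PresentedGroup.of 0 * PresentedGroup.of 1 * PresentedGroup.of 0) ^ j *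
      PresentedGroup.of 0 ^ k := by
  obtain ⟨h2, h1⟩ :=
    braid2_facts (braidRels_pow0 2) (braidRels_pow1 2) (braidRels_braid 2) rfl
  apply enum2 (braidRels_pow0 2) h2 h1
  have htop : Subgroup.closure ({PresentedGroup.of 0,
      PresentedGroup.of 0 * PresentedGroup.of 1 * PresentedGroup.of 0} :
        Set (PresentedGroup (braidRels 2))) = ⊤ := by
    rw [eq_top_iff, ← PresentedGroup.closure_range_of, Subgroup.closure_le]
    rintro _ ⟨i, rfl⟩
    have h0 : (PresentedGroup.of 0 : PresentedGroup (braidRels 2)) ∈ Subgroup.closure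
        ({PresentedGroup.of 0, PresentedGroup.of 0 * PresentedGroup.of 1 * PresentedGroup.of 0} :
          Set (PresentedGroup (braidRels 2))) := Subgroup.subset_closure (by simp)
    have hn : (PresentedGroup.of 0 * PresentedGroup.of 1 * PresentedGroup.of 0 :
        PresentedGroup (braidRels 2)) ∈ Subgroup.closure
        ({PresentedGroup.of 0, PresentedGroup.of 0 * PresentedGroup.of 1 * PresentedGroup.of 0} :
          Set (PresentedGroup (braidRels 2))) := Subgroup.subset_closure (by simp)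
    fin_cases i
    · exact h0
    · have e : (PresentedGroup.of 1 : PresentedGroup (braidRels 2)) =
          (PresentedGroup.of 0)⁻¹ *
            (PresentedGroup.of 0 * PresentedGroup.of 1 * PresentedGroup.of 0) *
            (PresentedGroup.of 0)⁻¹ := by group
      have hm := mul_mem (mul_mem (inv_mem h0) hn) (inv_mem h0)
      rw [← e] at hm
      exact hm
  rw [htop]; trivial

theorem dec3 : ∀ i : Fin 3, ∀ j : Fin 4, ∀ k : Fin 3,
    Lm (1 : ZMod 3) ^ (i : ℕ) * (Lm 1 * Um (-1) * Lm 1) ^ (j : ℕ) * Lm 1 ^ (k : ℕ) = 1 →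
      (j : ℕ) = 0 ∧ ((i : ℕ) + k) % 3 = 0 := by
  decide

theorem dec2 : ∀ i : Fin 2, ∀ j : Fin 2, ∀ k : Fin 2,
    Lm (1 : ZMod 2) ^ (i : ℕ) * (Lm 1 * Um (-1) * Lm 1) ^ (j : ℕ) * Lm 1 ^ (k : ℕ) = 1 →
      (j : ℕ) = 0 ∧ ((i : ℕ) + k) % 2 = 0 := by
  decide

/-- Elements `a`, `b` with `a³ = b³ = 1` and `a b a = b a b` are the images of the elementary
matrices under a homomorphism from `SL₂(ZMod 3)`. -/
theorem sl2_three_hom {X : Type*} [Group X] {a b : X} (ha : a ^ 3 = 1) (hb : b ^ 3 = 1)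
    (hbr : a * b * a = b * a * b) :
    ∃ φ : Matrix.SpecialLinearGroup (Fin 2) (ZMod 3) →* X, φ (Lm 1) = a ∧ φ (Um (-1)) = b :=
  sl2_hom_of_enum 3 4 (fun i j k hi hj hk h => dec3 ⟨i, hi⟩ ⟨j, hj⟩ ⟨k, hk⟩ h) braid3_enum ha hb hbr

/-- Elements `a`, `b` with `a² = b² = 1` and `a b a = b a b` are the images of the elementary
matrices under a homomorphism from `SL₂(ZMod 2)`. -/
theorem sl2_two_hom {X : Type*} [Group X] {a b : X} (ha : a ^ 2 = 1) (hb : b ^ 2 = 1)
    (hbr : a * b * a = b * a * b) :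
    ∃ φ : Matrix.SpecialLinearGroup (Fin 2) (ZMod 2) →* X, φ (Lm 1) = a ∧ φ (Um (-1)) = b :=
  sl2_hom_of_enum 2 2 (fun i j k hi hj hk h => dec2 ⟨i, hi⟩ ⟨j, hj⟩ ⟨k, hk⟩ h) braid2_enum ha hb hbr

end pres

section small

/-- A surjection from `SL₂(k)` onto a group carrying a rank one pair, mapping the lower unipotent
subgroup into `A`, has central kernel. -/
theorem ker_le_center_of_rk1 {k : Type*} [Field k] {X : Type*} [Group X] {A B : Subgroup X}
    (hp : IsRankOnePair A B) (φ : Matrix.SpecialLinearGroup (Fin 2) k →* X)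
    (hsurj : Function.Surjective φ) (hA : (lowerUnipotentSL2 k).map φ ≤ A) :
    φ.ker ≤ Subgroup.center (Matrix.SpecialLinearGroup (Fin 2) k) := by
  rcases rk1_normal_dichotomy (Cfsg.Agent.S5016.result k).1 φ.ker inferInstance with h | h
  · exfalso
    have h1 : (φ.ker ⊔ lowerUnipotentSL2 k).map φ = ⊤ := by
      rw [h, ← MonoidHom.range_eq_map, MonoidHom.range_eq_top]; exact hsurj
    rw [Subgroup.map_sup, (Subgroup.map_eq_bot_iff _).mpr le_rfl, bot_sup_eq] at h1
    have hAtop : A = ⊤ := top_le_iff.mp (h1 ▸ hA)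
    obtain ⟨b, hb, hb1⟩ := rk1_B_nontriv hp
    have hmem : b ∈ A ⊓ B := ⟨hAtop ▸ Subgroup.mem_top b, hb⟩
    rw [rk1_inf_eq_bot hp] at hmem
    exact hb1 (Subgroup.mem_bot.mp hmem)
  · exact h

/-- A special rank one group whose unipotent subgroups have prime order `p`, such that the
braid-type presentation is realised by `SL₂(ZMod p)`, is a central quotient of `SL₂(ZMod p)`. -/
theorem small_hom (p : ℕ) [Fact p.Prime] {X : Type*} [Group X] {A B : Subgroup X}
    (h : IsRankOneGroup X A B) (hs : IsSpecialRankOnePair A B) (hcard : Nat.card A = p)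
    (hom : ∀ a b : X, a ^ p = 1 → b ^ p = 1 → a * b * a = b * a * b →
      ∃ φ : Matrix.SpecialLinearGroup (Fin 2) (ZMod p) →* X, φ (Lm 1) = a ∧ φ (Um (-1)) = b) :
    ∃ φ : Matrix.SpecialLinearGroup (Fin 2) (ZMod p) →* X, Function.Surjective φ ∧
      φ.ker ≤ Subgroup.center (Matrix.SpecialLinearGroup (Fin 2) (ZMod p)) := by
  obtain ⟨htop, hp⟩ := h
  obtain ⟨a, ha, ha1⟩ := rk1_A_nontriv hp
  have hne : (⟨a, ha⟩ : A) ≠ 1 := fun e => ha1 (congrArg Subtype.val e)
  have hz := zpowers_eq_top_of_prime_card hcard hne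
  have hgen : ∀ x ∈ A, ∃ m : ℤ, a ^ m = x := by
    intro x hx
    have hx' : (⟨x, hx⟩ : A) ∈ Subgroup.zpowers (⟨a, ha⟩ : A) := by rw [hz]; trivial
    obtain ⟨m, hm⟩ := Subgroup.mem_zpowers_iff.mp hx'
    exact ⟨m, by simpa using congrArg Subtype.val hm⟩
  have hap : a ^ p = 1 := by
    have h1 : (⟨a, ha⟩ : A) ^ Nat.card A = 1 := pow_card_eq_one'
    rw [hcard] at h1
    simpa using congrArg Subtype.val h1
  obtain ⟨β, hβ⟩ := spart_exists hp ha ha1
  have hbr := spart_braid hs hβ
  have hβp : β ^ p = 1 := by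
    rw [← braid_conj_left hbr, conj_pow, hap, mul_one, mul_inv_cancel]
  obtain ⟨φ, hφa, hφb⟩ := hom a β hap hβp hbr
  have hnr : a * β * a ∈ φ.range :=
    ⟨Lm 1 * Um (-1) * Lm 1, by rw [map_mul, map_mul, hφa, hφb]⟩
  have hA : A ≤ φ.range := by
    intro x hx
    obtain ⟨m, rfl⟩ := hgen x hx
    exact ⟨Lm 1 ^ m, by rw [map_zpow, hφa]⟩
  have hsurj : Function.Surjective φ := by
    rw [← MonoidHom.range_eq_top, eq_top_iff, ← htop, sup_le_iff]
    refine ⟨hA, ?_⟩
    intro y hy
    have h3 : y ∈ conjBy A (a * β * a) := by rw [spart_conjA hβ]; exact hy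
    have h4 := hA (mem_conjBy.mp h3)
    have e : y = (a * β * a) * ((a * β * a)⁻¹ * y * (a * β * a)) * (a * β * a)⁻¹ := by group
    rw [e]
    exact mul_mem (mul_mem hnr h4) (inv_mem hnr)
  have hlow : (lowerUnipotentSL2 (ZMod p)).map φ ≤ A := by
    rintro _ ⟨g, hg, rfl⟩
    obtain ⟨t, rfl⟩ := mem_lower_iff.mp hg
    have : NeZero p := ⟨(Fact.out : p.Prime).ne_zero⟩
    rw [← ZMod.natCast_zmod_val t, Lm_natCast, map_pow, hφa]
    exact A.pow_mem ha _
  exact ⟨φ, hsurj, ker_le_center_of_rk1 hp φ hsurj hlow⟩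

theorem zmod2_root : ∀ r : ZMod 2, r ^ Fintype.card (Fin 2) = 1 → r = 1 := by decide

theorem zmod3_root : ∀ r : ZMod 3, r ^ Fintype.card (Fin 2) = 1 → r = 1 ∨ r = -1 := by decide

/-- The special rank one groups with unipotent subgroups of order at most three. -/
theorem small_case {X : Type*} [Group X] {A B : Subgroup X} (h : IsRankOneGroup X A B)
    (hs : IsSpecialRankOnePair A B) (hcard : ENat.card A ≤ 3) :
    Nonempty (X ≃* Matrix.SpecialLinearGroup (Fin 2) (ZMod 2)) ∨
      Nonempty (X ≃* Matrix.SpecialLinearGroup (Fin 2) (ZMod 3)) ∨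
      Nonempty (X ≃* Matrix.ProjectiveSpecialLinearGroup (Fin 2) (ZMod 3)) := by
  have hfin : Finite A := ENat.card_lt_top.mp (lt_of_le_of_lt hcard (ENat.natCast_lt_top 3))
  have hc3 : Nat.card A ≤ 3 := by
    rw [ENat.card_eq_coe_natCard] at hcard
    exact_mod_cast hcard
  obtain ⟨a, ha, ha1⟩ := rk1_A_nontriv h.2
  have hc2 : 1 < Nat.card A := by
    rw [Finite.one_lt_card_iff_nontrivial]
    exact ⟨⟨⟨a, ha⟩, 1, fun e => ha1 (congrArg Subtype.val e)⟩⟩
  have hc : Nat.card A = 2 ∨ Nat.card A = 3 := by omega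
  rcases hc with h2 | h3
  · left
    obtain ⟨φ, hsurj, hker⟩ := small_hom 2 h hs h2 (fun a b => sl2_two_hom)
    have hinj : Function.Injective φ := by
      rw [injective_iff_map_eq_one]
      intro g hg
      obtain ⟨r, hr, hrg⟩ :=
        Matrix.SpecialLinearGroup.mem_center_iff.mp (hker (MonoidHom.mem_ker.mpr hg))
      have hr1 := zmod2_root r hr
      apply Subtype.ext
      rw [← hrg, hr1, map_one]
      rfl
    exact ⟨(MulEquiv.ofBijective φ ⟨hinj, hsurj⟩).symm⟩
  · right
    obtain ⟨φ, hsurj, hker⟩ := small_hom 3 h hs h3 (fun a b => sl2_three_hom)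
    by_cases hk : φ.ker = ⊥
    · left
      have hinj : Function.Injective φ := (MonoidHom.ker_eq_bot_iff φ).mp hk
      exact ⟨(MulEquiv.ofBijective φ ⟨hinj, hsurj⟩).symm⟩
    · right
      obtain ⟨g, hg, hg1⟩ := exists_ne_one_of_ne_bot hk
      obtain ⟨r, hr, hrg⟩ := Matrix.SpecialLinearGroup.mem_center_iff.mp (hker hg)
      have hrm : r = -1 := by
        rcases zmod3_root r hr with hr1 | hr1
        · exfalso
          apply hg1
          apply Subtype.ext
          rw [← hrg, hr1, map_one]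
          rfl
        · exact hr1
      have hkc : φ.ker = Subgroup.center (Matrix.SpecialLinearGroup (Fin 2) (ZMod 3)) := by
        apply le_antisymm hker
        intro z hz
        obtain ⟨r', hr', hrz⟩ := Matrix.SpecialLinearGroup.mem_center_iff.mp hz
        rcases zmod3_root r' hr' with hr1 | hr1
        · have hz1 : z = 1 := by
            apply Subtype.ext
            rw [← hrz, hr1, map_one]
            rfl
          rw [hz1]
          exact one_mem _
        · have hzg : z = g := by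
            apply Subtype.ext
            rw [← hrz, ← hrg, hr1, hrm]
          rw [hzg]
          exact hg
      exact ⟨(QuotientGroup.quotientKerEquivOfSurjective φ hsurj).symm.trans
        (QuotientGroup.quotientMulEquivOfEq hkc)⟩

end small

end Cfsg.Agent.Lib.Helper86
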