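import Mathlib
import Cfsg.Prelude.Def_RootSubgroups

set_option autoImplicit false

namespace Cfsg.Agent.Lib.Helper86

open Cfsg

variable {G : Type*} [Group G]

/-! ### Conjugation of subgroups -/

theorem mem_conjBy {A : Subgroup G} {g x : G} : x ∈ conjBy A g ↔ g⁻¹ * x * g ∈ A := by
  constructor
  · rintro ⟨a, ha, rfl⟩
    simpa [MulAut.conj_apply, mul_assoc] using ha
  · intro h
    exact ⟨g⁻¹ * x * g, h, by simp [MulAut.conj_apply, mul_assoc]⟩

theorem conj_mem_conjBy {A : Subgroup G} {a : G} (ha : a ∈ A) (g : G) : g * a * g⁻¹ ∈ conjBy A g := by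
  rw [mem_conjBy]; simpa [mul_assoc] using ha

theorem conjBy_one (A : Subgroup G) : conjBy A 1 = A := by
  ext x; simp

theorem conjBy_conjBy (A : Subgroup G) (g h : G) : conjBy (conjBy A g) h = conjBy A (h * g) := by
  ext x; simp [mul_assoc]

theorem conjBy_of_mem {A : Subgroup G} {g : G} (hg : g ∈ A) : conjBy A g = A := by
  ext x
  rw [mem_conjBy]
  constructor
  · intro h
    have := A.mul_mem (A.mul_mem hg h) (A.inv_mem hg)
    simpa [mul_assoc] using this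
  · intro h
    exact A.mul_mem (A.mul_mem (A.inv_mem hg) h) hg

theorem conjBy_inv_cancel (A : Subgroup G) (g : G) : conjBy (conjBy A g) g⁻¹ = A := by
  rw [conjBy_conjBy]; simp [conjBy_one]

theorem conjBy_cancel_inv (A : Subgroup G) (g : G) : conjBy (conjBy A g⁻¹) g = A := by
  rw [conjBy_conjBy]; simp [conjBy_one]

theorem conjBy_eq_iff {A C : Subgroup G} {g : G} : conjBy A g = C ↔ A = conjBy C g⁻¹ := by
  constructor
  · rintro rfl; rw [conjBy_inv_cancel]
  · rintro rfl; rw [conjBy_cancel_inv]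

theorem conjBy_injective (g : G) {A C : Subgroup G} (h : conjBy A g = conjBy C g) : A = C := by
  rw [conjBy_eq_iff, conjBy_inv_cancel] at h; exact h

theorem conjBy_mono {A C : Subgroup G} (h : A ≤ C) (g : G) : conjBy A g ≤ conjBy C g :=
  Subgroup.map_mono h

theorem conjBy_sup (A B : Subgroup G) (g : G) : conjBy (A ⊔ B) g = conjBy A g ⊔ conjBy B g :=
  Subgroup.map_sup A B _

theorem conjBy_eq_self_iff {A : Subgroup G} {g : G} :
    conjBy A g = A ↔ g ∈ Subgroup.normalizer (A : Set G) := by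
  rw [Subgroup.mem_normalizer_iff_map_conj_eq]; rfl

theorem conjBy_eq_self_of_le {A X : Subgroup G} {g : G} (hg : g ∈ X) (hA : A = X) : conjBy A g = A := by
  subst hA; exact conjBy_of_mem hg

theorem conjBy_le_of_mem {A X : Subgroup G} {g : G} (hA : A ≤ X) (hg : g ∈ X) : conjBy A g ≤ X := by
  intro x hx
  rw [mem_conjBy] at hx
  have := X.mul_mem (X.mul_mem hg (hA hx)) (X.inv_mem hg)
  simpa [mul_assoc] using this

/-- commuting subgroups stated elementwise -/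
theorem commutator_eq_bot_iff' {A B : Subgroup G} :
    ⁅A, B⁆ = ⊥ ↔ ∀ a ∈ A, ∀ b ∈ B, a * b = b * a := by
  rw [Subgroup.commutator_eq_bot_iff_le_centralizer]
  constructor
  · intro h a ha b hb
    exact ((Subgroup.mem_centralizer_iff.mp (h ha)) b hb).symm
  · intro h a ha
    rw [Subgroup.mem_centralizer_iff]
    intro b hb
    exact (h a ha b hb).symm

/-! ### Induction on `A ⊔ B` for conjugation-stable families -/

theorem sup_conj_induction {A B : Subgroup G} {T : Set (Subgroup G)}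
    (hA : ∀ C ∈ T, ∀ a ∈ A, conjBy C a ∈ T) (hB : ∀ C ∈ T, ∀ b ∈ B, conjBy C b ∈ T) :
    ∀ x ∈ A ⊔ B, ∀ C ∈ T, conjBy C x ∈ T := by
  have key : ∀ x ∈ A ⊔ B, (∀ C ∈ T, conjBy C x ∈ T) ∧ (∀ C ∈ T, conjBy C x⁻¹ ∈ T) := by
    intro x hx
    rw [← Subgroup.closure_eq A, ← Subgroup.closure_eq B, ← Subgroup.closure_union] at hx
    induction hx using Subgroup.closure_induction with
    | mem y hy =>
      rcases hy with hy | hy
      · exact ⟨fun C hC => hA C hC y hy, fun C hC => hA C hC y⁻¹ (A.inv_mem hy)⟩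
      · exact ⟨fun C hC => hB C hC y hy, fun C hC => hB C hC y⁻¹ (B.inv_mem hy)⟩
    | one =>
      refine ⟨fun C hC => ?_, fun C hC => ?_⟩
      · rw [conjBy_one]; exact hC
      · rw [inv_one, conjBy_one]; exact hC
    | mul y z _ _ ihy ihz =>
      refine ⟨fun C hC => ?_, fun C hC => ?_⟩
      · rw [← conjBy_conjBy]; exact ihy.1 _ (ihz.1 C hC)
      · rw [mul_inv_rev, ← conjBy_conjBy]; exact ihz.2 _ (ihy.2 C hC)
    | inv y _ ih =>
      refine ⟨ih.2, fun C hC => ?_⟩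
      rw [inv_inv]; exact ih.1 C hC
  exact fun x hx => (key x hx).1

/-! ### Rank one pairs: basic facts -/

variable {A B : Subgroup G}

/-- No non-identity element of `A` normalizes `B`. -/
theorem rk1_normA (h : IsRankOnePair A B) {a : G} (ha : a ∈ A) (hn : conjBy B a = B) : a = 1 := by
  by_contra ha1
  obtain ⟨b, hb, -, hab⟩ := h.cond_left a ha ha1
  have h1 : conjBy B a⁻¹ = B := by
    rw [conjBy_eq_iff, inv_inv]; exact hn.symm
  rw [h1, conjBy_eq_iff, inv_inv, conjBy_of_mem hb] at hab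
  exact h.ne hab

/-- No non-identity element of `B` normalizes `A`. -/
theorem rk1_normB (h : IsRankOnePair A B) {b : G} (hb : b ∈ B) (hn : conjBy A b = A) : b = 1 :=
  rk1_normA (RankOnePair_symm h) hb hn

theorem exists_ne_one_of_ne_bot {A : Subgroup G} (hA : A ≠ ⊥) : ∃ a ∈ A, a ≠ 1 := by
  by_contra hcon
  push Not at hcon
  exact hA ((Subgroup.eq_bot_iff_forall A).mpr hcon)

theorem rk1_A_nontriv (h : IsRankOnePair A B) : ∃ a ∈ A, a ≠ 1 := by
  by_cases hA : A = ⊥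
  · have hB : B ≠ ⊥ := fun hB => h.ne (hA.trans hB.symm)
    obtain ⟨b, hb, hb1⟩ := exists_ne_one_of_ne_bot hB
    obtain ⟨a, ha, ha1, -⟩ := h.cond_right b hb hb1
    exact ⟨a, ha, ha1⟩
  · exact exists_ne_one_of_ne_bot hA

theorem rk1_B_nontriv (h : IsRankOnePair A B) : ∃ b ∈ B, b ≠ 1 :=
  rk1_A_nontriv (RankOnePair_symm h)

/-- Uniqueness of the partner `b(a)`. -/
theorem rk1_partner_unique_left (h : IsRankOnePair A B) {b b' : G} (hb : b ∈ B) (hb' : b' ∈ B)
    (hbb : conjBy A b⁻¹ = conjBy A b'⁻¹) : b = b' := by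
  have h1 : conjBy A (b * b'⁻¹) = A := by
    rw [← conjBy_conjBy, ← hbb, conjBy_cancel_inv]
  have h2 := rk1_normB h (B.mul_mem hb (B.inv_mem hb')) h1
  exact mul_inv_eq_one.mp h2

theorem rk1_partner_unique_right (h : IsRankOnePair A B) {a a' : G} (ha : a ∈ A) (ha' : a' ∈ A)
    (haa : conjBy B a⁻¹ = conjBy B a'⁻¹) : a = a' :=
  rk1_partner_unique_left (RankOnePair_symm h) ha ha' haa

/-- A rank one pair is stable under simultaneous conjugation. -/
theorem rk1_conj (h : IsRankOnePair A B) (g : G) : IsRankOnePair (conjBy A g) (conjBy B g) := by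
  have hc : ∀ {A B : Subgroup G}, RankOneCondition A B → RankOneCondition (conjBy A g) (conjBy B g) := by
    intro A B hAB a ha ha1
    rw [mem_conjBy] at ha
    obtain ⟨b, hb, hb1, hab⟩ := hAB (g⁻¹ * a * g) ha (by
      intro h1; apply ha1
      have : a = g * (g⁻¹ * a * g) * g⁻¹ := by group
      rw [this, h1]; group)
    refine ⟨g * b * g⁻¹, conj_mem_conjBy hb g, ?_, ?_⟩
    · intro h1; apply hb1
      have : b = g⁻¹ * (g * b * g⁻¹) * g := by group
      rw [this, h1]; group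
    · rw [conjBy_conjBy, conjBy_conjBy]
      have e1 : (g * b * g⁻¹)⁻¹ * g = g * b⁻¹ := by group
      have e2 : a⁻¹ * g = g * (g⁻¹ * a * g)⁻¹ := by group
      rw [e1, e2, ← conjBy_conjBy A, ← conjBy_conjBy B, hab]
  refine ⟨fun hne => h.ne (conjBy_injective g hne), ?_, ?_, hc h.cond_left, hc h.cond_right⟩
  · have := h.nilpotent_left
    exact Group.nilpotent_of_mulEquiv (A.equivMapOfInjective _ (MulAut.conj g).injective)
  · have := h.nilpotent_right
    exact Group.nilpotent_of_mulEquiv (B.equivMapOfInjective _ (MulAut.conj g).injective)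

/-- A rank one pair does not commute elementwise. -/
theorem rk1_not_commute (h : IsRankOnePair A B) : ¬ (∀ a ∈ A, ∀ b ∈ B, a * b = b * a) := by
  intro hc
  obtain ⟨a, ha, ha1⟩ := rk1_A_nontriv h
  apply ha1
  apply rk1_normA h ha
  ext x
  rw [mem_conjBy]
  constructor
  · intro hx
    have := hc a ha _ hx
    have e : x = a * (a⁻¹ * x * a) * a⁻¹ := by group
    rw [e, this]; simpa using hx
  · intro hx
    have := hc a ha x hx
    have e : a⁻¹ * x * a = a⁻¹ * (x * a) := by group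
    rw [e, ← this]; simpa using hx

theorem rk1_commutator_ne_bot (h : IsRankOnePair A B) : ⁅A, B⁆ ≠ ⊥ := by
  intro hc
  exact rk1_not_commute h (commutator_eq_bot_iff'.mp hc)

/-! ### The set of unipotent subgroups -/

theorem unip_self_mem (A B : Subgroup G) : A ∈ unipotentSubgroups A B :=
  ⟨1, Subgroup.one_mem _, (conjBy_one A).symm⟩

theorem unip_conj_mem {C : Subgroup G} (hC : C ∈ unipotentSubgroups A B) {x : G} (hx : x ∈ A ⊔ B) :
    conjBy C x ∈ unipotentSubgroups A B := by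
  obtain ⟨y, hy, rfl⟩ := hC
  exact ⟨x * y, Subgroup.mul_mem _ hx hy, conjBy_conjBy A y x⟩

theorem rk1_B_mem_unip (h : IsRankOnePair A B) : B ∈ unipotentSubgroups A B := by
  obtain ⟨a, ha, ha1⟩ := rk1_A_nontriv h
  obtain ⟨b, hb, -, hab⟩ := h.cond_left a ha ha1
  refine ⟨a * b⁻¹, Subgroup.mul_mem _ (Subgroup.mem_sup_left ha)
    (Subgroup.mem_sup_right (B.inv_mem hb)), ?_⟩
  rw [← conjBy_conjBy, hab, conjBy_cancel_inv]

theorem unip_le_sup {C : Subgroup G} (hC : C ∈ unipotentSubgroups A B) : C ≤ A ⊔ B := by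
  obtain ⟨y, hy, rfl⟩ := hC
  exact conjBy_le_of_mem le_sup_left hy

/-- `Ω = {A} ∪ {a B a⁻¹ | a ∈ A}`. -/
theorem rk1_unip_cases (h : IsRankOnePair A B) {C : Subgroup G} (hC : C ∈ unipotentSubgroups A B) :
    C = A ∨ ∃ a ∈ A, C = conjBy B a := by
  obtain ⟨x, hx, rfl⟩ := hC
  have key := sup_conj_induction (A := A) (B := B)
    (T := {C | C = A ∨ ∃ a ∈ A, C = conjBy B a}) ?_ ?_ x hx A (Or.inl rfl)
  · exact key
  · rintro C (rfl | ⟨a, ha, rfl⟩) a' ha'
    · exact Or.inl (conjBy_of_mem ha')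
    · exact Or.inr ⟨a' * a, A.mul_mem ha' ha, conjBy_conjBy B a a'⟩
  · have hAb : ∀ b ∈ B, conjBy A b = A ∨ ∃ a ∈ A, conjBy A b = conjBy B a := by
      intro b hb
      by_cases hb1 : b = 1
      · left; rw [hb1, conjBy_one]
      · right
        obtain ⟨a, ha, -, hab⟩ := h.cond_right b⁻¹ (B.inv_mem hb) (by simpa using hb1)
        rw [inv_inv] at hab
        exact ⟨a⁻¹, A.inv_mem ha, hab.symm⟩
    rintro C (rfl | ⟨a, ha, rfl⟩) b hb
    · exact hAb b hb
    · by_cases ha1 : a = 1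
      · right
        refine ⟨1, A.one_mem, ?_⟩
        rw [ha1, conjBy_one, conjBy_of_mem hb]
      · obtain ⟨b₁, hb₁, -, hab⟩ := h.cond_left a⁻¹ (A.inv_mem ha) (by simpa using ha1)
        rw [inv_inv] at hab
        rw [← hab, conjBy_conjBy]
        exact hAb _ (B.mul_mem hb (B.inv_mem hb₁))

theorem rk1_conjB_mem_unip (h : IsRankOnePair A B) {a : G} (ha : a ∈ A) :
    conjBy B a ∈ unipotentSubgroups A B :=
  unip_conj_mem (rk1_B_mem_unip h) (Subgroup.mem_sup_left ha)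

theorem rk1_conjB_ne_A (h : IsRankOnePair A B) {a : G} (ha : a ∈ A) : conjBy B a ≠ A := by
  intro hBa
  rw [conjBy_eq_iff, conjBy_of_mem (A.inv_mem ha)] at hBa
  exact h.ne hBa.symm

/-- `A` acts regularly on `Ω ∖ {A}`. -/
theorem rk1_regular (h : IsRankOnePair A B) {C D : Subgroup G} (hC : C ∈ unipotentSubgroups A B)
    (hD : D ∈ unipotentSubgroups A B) (hCA : C ≠ A) (hDA : D ≠ A) :
    ∃! a : G, a ∈ A ∧ conjBy C a = D := by
  rcases rk1_unip_cases h hC with rfl | ⟨a₁, ha₁, rfl⟩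
  · exact absurd rfl hCA
  rcases rk1_unip_cases h hD with rfl | ⟨a₂, ha₂, rfl⟩
  · exact absurd rfl hDA
  refine ⟨a₂ * a₁⁻¹, ⟨A.mul_mem ha₂ (A.inv_mem ha₁), ?_⟩, ?_⟩
  · rw [conjBy_conjBy]; simp [mul_assoc]
  · rintro a ⟨ha, hae⟩
    rw [conjBy_conjBy] at hae
    have h1 : conjBy B (a₂⁻¹ * (a * a₁)) = B := by
      rw [← conjBy_conjBy, hae, conjBy_inv_cancel]
    have h2 := rk1_normA h (A.mul_mem (A.inv_mem ha₂) (A.mul_mem ha ha₁)) h1
    have : a = a₂ * (a₂⁻¹ * (a * a₁)) * a₁⁻¹ := by group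
    rw [this, h2]; group

/-- `⟨A, B⟩` is doubly transitive on `Ω`. -/
theorem rk1_two_transitive (h : IsRankOnePair A B) {C₁ C₂ D₁ D₂ : Subgroup G}
    (hC₁ : C₁ ∈ unipotentSubgroups A B) (hC₂ : C₂ ∈ unipotentSubgroups A B)
    (hD₁ : D₁ ∈ unipotentSubgroups A B) (hD₂ : D₂ ∈ unipotentSubgroups A B)
    (hC : C₁ ≠ C₂) (hD : D₁ ≠ D₂) :
    ∃ x ∈ A ⊔ B, conjBy C₁ x = D₁ ∧ conjBy C₂ x = D₂ := by
  obtain ⟨x₁, hx₁, rfl⟩ := hC₁
  obtain ⟨y₁, hy₁, rfl⟩ := hD₁
  have hC₂' : conjBy C₂ x₁⁻¹ ∈ unipotentSubgroups A B := unip_conj_mem hC₂ (Subgroup.inv_mem _ hx₁)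
  have hD₂' : conjBy D₂ y₁⁻¹ ∈ unipotentSubgroups A B := unip_conj_mem hD₂ (Subgroup.inv_mem _ hy₁)
  have hC₂A : conjBy C₂ x₁⁻¹ ≠ A := by
    intro e; rw [conjBy_eq_iff, inv_inv] at e; exact hC e.symm
  have hD₂A : conjBy D₂ y₁⁻¹ ≠ A := by
    intro e; rw [conjBy_eq_iff, inv_inv] at e; exact hD e.symm
  obtain ⟨a, ⟨ha, hae⟩, -⟩ := rk1_regular h hC₂' hD₂' hC₂A hD₂A
  refine ⟨y₁ * a * x₁⁻¹, Subgroup.mul_mem _ (Subgroup.mul_mem _ hy₁ (Subgroup.mem_sup_left ha))
    (Subgroup.inv_mem _ hx₁), ?_, ?_⟩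
  · rw [conjBy_conjBy]
    have : y₁ * a * x₁⁻¹ * x₁ = y₁ * a := by group
    rw [this, ← conjBy_conjBy, conjBy_of_mem ha]
  · have : y₁ * a * x₁⁻¹ = y₁ * (a * x₁⁻¹) := by group
    rw [this, ← conjBy_conjBy, ← conjBy_conjBy, hae, conjBy_conjBy]
    simp [conjBy_one]

/-- Two different unipotent subgroups are simultaneously conjugate to `(A, B)`. -/
theorem rk1_pair_conj (h : IsRankOnePair A B) {C D : Subgroup G}
    (hC : C ∈ unipotentSubgroups A B) (hD : D ∈ unipotentSubgroups A B) (hCD : C ≠ D) :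
    ∃ x ∈ A ⊔ B, C = conjBy A x ∧ D = conjBy B x := by
  obtain ⟨x, hx, h1, h2⟩ := rk1_two_transitive h (unip_self_mem A B) (rk1_B_mem_unip h) hC hD h.ne hCD
  exact ⟨x, hx, h1.symm, h2.symm⟩

theorem rk1_pair_of_unip (h : IsRankOnePair A B) {C D : Subgroup G}
    (hC : C ∈ unipotentSubgroups A B) (hD : D ∈ unipotentSubgroups A B) (hCD : C ≠ D) :
    IsRankOnePair C D := by
  obtain ⟨x, -, rfl, rfl⟩ := rk1_pair_conj h hC hD hCD
  exact rk1_conj h x

theorem rk1_sup_of_unip (h : IsRankOnePair A B) {C D : Subgroup G}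
    (hC : C ∈ unipotentSubgroups A B) (hD : D ∈ unipotentSubgroups A B) (hCD : C ≠ D) :
    C ⊔ D = A ⊔ B := by
  obtain ⟨x, hx, rfl, rfl⟩ := rk1_pair_conj h hC hD hCD
  rw [← conjBy_sup]
  exact conjBy_of_mem hx

theorem rk1_unip_eq_of_unip (h : IsRankOnePair A B) {C D : Subgroup G}
    (hC : C ∈ unipotentSubgroups A B) (hD : D ∈ unipotentSubgroups A B) (hCD : C ≠ D) :
    unipotentSubgroups C D = unipotentSubgroups A B := by
  have hsup := rk1_sup_of_unip h hC hD hCD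
  ext E
  constructor
  · rintro ⟨x, hx, rfl⟩
    rw [hsup] at hx
    exact unip_conj_mem hC hx
  · intro hE
    obtain ⟨y, hy, rfl⟩ := hC
    obtain ⟨z, hz, rfl⟩ := hE
    refine ⟨z * y⁻¹, ?_, ?_⟩
    · rw [hsup]; exact Subgroup.mul_mem _ hz (Subgroup.inv_mem _ hy)
    · rw [conjBy_conjBy]; simp [mul_assoc]

/-- Three different unipotent subgroups. -/
theorem rk1_three (h : IsRankOnePair A B) :
    ∃ C ∈ unipotentSubgroups A B, C ≠ A ∧ C ≠ B := by
  obtain ⟨a, ha, ha1⟩ := rk1_A_nontriv h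
  obtain ⟨b, hb, hb1, hab⟩ := h.cond_left a ha ha1
  refine ⟨conjBy A b⁻¹, unip_conj_mem (unip_self_mem A B) (Subgroup.mem_sup_right (B.inv_mem hb)), ?_, ?_⟩
  · intro e
    exact hb1 (inv_eq_one.mp (rk1_normB h (B.inv_mem hb) e))
  · rw [hab]
    intro e
    exact ha1 (inv_eq_one.mp (rk1_normA h (A.inv_mem ha) e))

end Cfsg.Agent.Lib.Helper86
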