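import Mathlib
import Cfsg.Agent.Lib.Helper53.MinusDefs
import Cfsg.Agent.Lib.Helper53.FixField
import Cfsg.Agent.Lib.Helper54.OrthInnMinus
import Cfsg.Agent.Lib.Helper44.Dickson
import Cfsg.Agent.Lib.Helper82.RankExt
import Cfsg.Agent.Lib.Helper51.OAF

/-!
S2716 piece MF-CENTE (characteristic two): the centralizer of the standard field automorphism in
the inner automorphism group of `PΩ⁻(F)` is isomorphic to the inner automorphism group of
`PΩ⁻(F₀)`, `F₀` the fixed field.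
-/

set_option autoImplicit false
set_option linter.unusedSectionVars false
set_option linter.unusedVariables false

namespace Cfsg.Agent.Lib.Helper86.MFCENTE

open Module QuadraticMap Matrix
open Cfsg Cfsg.Agent.Lib.Helper51 Cfsg.Agent.Lib.Helper51.GammaO Cfsg.Agent.Lib.Helper52
  Cfsg.Agent.Lib.Helper52.OA Cfsg.Agent.Lib.Helper51.OutSpin Cfsg.Agent.Lib.Helper53.OddF
  Cfsg.Agent.Lib.Helper53.MinusF Cfsg.Agent.Lib.Helper54

universe u v

section Gen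

variable {ι : Type} [Fintype ι] [DecidableEq ι]

/-- (Z): in characteristic two an element of `Ω(Q)` inducing the trivial automorphism of `PΩ(Q)`
is trivial. -/
theorem h86_conj_mk_eq_one {K : Type*} [Field K] [Fintype K] (h2 : (2 : K) = 0)
    (Q : QuadraticForm K (ι → K)) (hQ : (polarBilin Q).Nondegenerate)
    (hn : 7 ≤ Fintype.card ι) (v : ι → K) (hv : Q v ≠ 0) (s : ↥(Omega K ⇑Q))
    (h : MulAut.conj (QuotientGroup.mk s : POmega K ⇑Q) = 1) : s = 1 := by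
  rw [← Theta_inl] at h
  obtain ⟨-, c, hc, hl⟩ := (ker_Theta Q hQ hn _).mp h
  have hl' : (((s : ↥(isometryGroup K ⇑Q)) : Matrix.GeneralLinearGroup ι K) : Matrix ι ι K) =
      c • (1 : Matrix ι ι K) := hl
  have hiso := (mem_isometryGroup_iff Q _).mp (s : ↥(isometryGroup K ⇑Q)).2 v
  rw [hl', Matrix.smul_mulVec, Matrix.one_mulVec, QuadraticMap.map_smul, smul_eq_mul] at hiso
  have hcc : c * c = 1 := mul_right_cancel₀ hv (hiso.trans (one_mul _).symm)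
  have hc1 : c = 1 := by
    have h3 : (c - 1) * (c - 1) = 0 := by
      linear_combination hcc - (c - 1) * h2
    exact sub_eq_zero.mp (mul_self_eq_zero.mp h3)
  apply Subtype.ext
  apply Subtype.ext
  apply Units.ext
  rw [hl', hc1, one_smul]
  rfl

theorem h86_conj_mk_inj {K : Type*} [Field K] [Fintype K] (h2 : (2 : K) = 0)
    (Q : QuadraticForm K (ι → K)) (hQ : (polarBilin Q).Nondegenerate)
    (hn : 7 ≤ Fintype.card ι) (v : ι → K) (hv : Q v ≠ 0) (s t : ↥(Omega K ⇑Q))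
    (h : MulAut.conj (QuotientGroup.mk s : POmega K ⇑Q) = MulAut.conj (QuotientGroup.mk t)) :
    s = t := by
  have h1 : MulAut.conj (QuotientGroup.mk (s⁻¹ * t) : POmega K ⇑Q) = 1 := by
    rw [QuotientGroup.mk_mul, QuotientGroup.mk_inv, map_mul, map_inv, h, inv_mul_cancel]
  exact inv_mul_eq_one.mp (h86_conj_mk_eq_one h2 Q hQ hn v hv _ h1)

theorem h86_two_down {F₀ : Type v} [Field F₀] {F : Type u} [Field F] (h2 : (2 : F) = 0)
    (e : F₀ →+* F) : (2 : F₀) = 0 := by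
  apply e.injective
  rw [map_ofNat, map_zero]
  exact h2

/-- (R): base change detects membership in `Ω` (rank parity). -/
theorem h86_omega_iff [Nonempty ι] {F₀ : Type v} [Field F₀] [Fintype F₀] {F : Type u} [Field F]
    [Fintype F] (h2 : (2 : F) = 0) (e : F₀ →+* F) (Q₀ : QuadraticForm F₀ (ι → F₀))
    (Q : QuadraticForm F (ι → F))
    (hmap : ∀ v : ι → F₀, Q (fun i => e (v i)) = e (Q₀ v))
    (hQ₀ : (polarBilin Q₀).Nondegenerate) (hQ : (polarBilin Q).Nondegenerate)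
    (hn : 7 ≤ Fintype.card ι) (s₀ : ↥(isometryGroup F₀ ⇑Q₀)) :
    isoMapG e Q₀ Q hmap s₀ ∈ Omega F ⇑Q ↔ s₀ ∈ Omega F₀ ⇑Q₀ := by
  have h2₀ : (2 : F₀) = 0 := h86_two_down h2 e
  have hc : Fintype.card ι ≠ 4 := by omega
  have e1 := Cfsg.Agent.Lib.Helper44.mem_commutator_iff_even_rank Q h2 hQ (Or.inr hc)
    (isoMapG e Q₀ Q hmap s₀)
  have e2 := Cfsg.Agent.Lib.Helper44.mem_commutator_iff_even_rank Q₀ h2₀ hQ₀ (Or.inr hc) s₀
  show isoMapG e Q₀ Q hmap s₀ ∈ commutator ↥(isometryGroup F ⇑Q) ↔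
    s₀ ∈ commutator ↥(isometryGroup F₀ ⇑Q₀)
  rw [e1, e2, isoMapG_coe]
  have h3 : (((s₀ : Matrix.GeneralLinearGroup ι F₀) : Matrix ι ι F₀)).map e - 1 =
      (((s₀ : Matrix.GeneralLinearGroup ι F₀) : Matrix ι ι F₀) - 1).map e := by
    ext i j
    rw [Matrix.sub_apply, Matrix.map_apply, Matrix.map_apply, Matrix.sub_apply, map_sub,
      Matrix.one_apply, Matrix.one_apply]
    split_ifs <;> simp
  rw [h3, Cfsg.Agent.Lib.Helper82.rank_map_field]

theorem h86_cent_generic [Nonempty ι] {F₀ : Type v} [Field F₀] [Fintype F₀] {F : Type u}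
    [Field F] [Fintype F] (h2 : (2 : F) = 0) (e : F₀ →+* F) (Q₀ : QuadraticForm F₀ (ι → F₀))
    (Q : QuadraticForm F (ι → F))
    (hmap : ∀ v : ι → F₀, Q (fun i => e (v i)) = e (Q₀ v))
    (hQ₀ : (polarBilin Q₀).Nondegenerate) (hQ : (polarBilin Q).Nondegenerate)
    (hn : 7 ≤ Fintype.card ι) (v₀ : ι → F₀) (hv₀ : Q₀ v₀ ≠ 0)
    (σ : F ≃+* F) (he : ∀ x : F, σ x = x ↔ x ∈ Set.range e)
    (hσ : (SemidirectProduct.inr (σ : RingAut F) : SGL ι F) ∈ GO ⇑Q)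
    (φ : MulAut (POmega F ⇑Q)) (hφ : IsFieldAutPOmegaOf ⇑Q σ φ) :
    Nonempty (↥(Inn (POmega F ⇑Q) ⊓ Subgroup.centralizer {φ}) ≃* ↥(Inn (POmega F₀ ⇑Q₀))) := by
  have h2₀ : (2 : F₀) = 0 := h86_two_down h2 e
  have hv : Q (fun i => e (v₀ i)) ≠ 0 := by
    rw [hmap]
    intro h
    exact hv₀ (e.injective (by rw [h, map_zero]))
  let Λ₀ : ↥(Omega F₀ ⇑Q₀) →* ↥(Omega F ⇑Q) :=
    ((isoMapG e Q₀ Q hmap).comp (Omega F₀ ⇑Q₀).subtype).codRestrict (Omega F ⇑Q)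
      (fun s => (h86_omega_iff h2 e Q₀ Q hmap hQ₀ hQ hn _).mpr s.2)
  let Λ : ↥(Omega F₀ ⇑Q₀) →* MulAut (POmega F ⇑Q) :=
    (MulAut.conj).comp ((QuotientGroup.mk' (Subgroup.center (Omega F ⇑Q))).comp Λ₀)
  let Λ' : ↥(Omega F₀ ⇑Q₀) →* MulAut (POmega F₀ ⇑Q₀) :=
    (MulAut.conj).comp (QuotientGroup.mk' (Subgroup.center (Omega F₀ ⇑Q₀)))
  have hΛ₀mat : ∀ s : ↥(Omega F₀ ⇑Q₀),
      ((((Λ₀ s : ↥(Omega F ⇑Q)) : ↥(isometryGroup F ⇑Q)) : Matrix.GeneralLinearGroup ι F) :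
        Matrix ι ι F) =
      ((((s : ↥(isometryGroup F₀ ⇑Q₀)) : Matrix.GeneralLinearGroup ι F₀) :
        Matrix ι ι F₀)).map e := fun s => rfl
  have hΛinj : Function.Injective Λ := by
    rw [injective_iff_map_eq_one]
    intro s hs
    have h1 : Λ₀ s = 1 := h86_conj_mk_eq_one h2 Q hQ hn _ hv (Λ₀ s) hs
    have h4 := hΛ₀mat s
    rw [h1] at h4
    apply Subtype.ext
    apply Subtype.ext
    apply Units.ext
    ext i j
    apply e.injective
    have h5 := congrFun (congrFun h4 i) j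
    rw [Matrix.map_apply] at h5
    rw [← h5]
    show (1 : Matrix ι ι F) i j = e ((1 : Matrix ι ι F₀) i j)
    rw [Matrix.one_apply, Matrix.one_apply]
    split_ifs <;> simp
  have hΛrange : Λ.range = Inn (POmega F ⇑Q) ⊓ Subgroup.centralizer {φ} := by
    apply le_antisymm
    · rintro _ ⟨s₀, rfl⟩
      refine Subgroup.mem_inf.mpr ⟨⟨_, rfl⟩, ?_⟩
      rw [Subgroup.mem_centralizer_iff]
      intro y hy
      rw [Set.mem_singleton_iff.1 hy]
      have hfix : φ (QuotientGroup.mk (Λ₀ s₀)) = QuotientGroup.mk (Λ₀ s₀) := by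
        apply hφ
        rw [hΛ₀mat]
        ext i j
        simp only [Matrix.map_apply]
        exact ((he _).2 ⟨_, rfl⟩).symm
      ext x
      show φ ((QuotientGroup.mk (Λ₀ s₀) : POmega F ⇑Q) * x * (QuotientGroup.mk (Λ₀ s₀))⁻¹) =
        (QuotientGroup.mk (Λ₀ s₀) : POmega F ⇑Q) * φ x * (QuotientGroup.mk (Λ₀ s₀))⁻¹
      rw [map_mul, map_mul, map_inv, hfix]
    · rintro β hβ
      obtain ⟨⟨k, rfl⟩, hβ2⟩ := Subgroup.mem_inf.mp hβ
      obtain ⟨s, rfl⟩ := QuotientGroup.mk_surjective k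
      have hcomm : φ * MulAut.conj (QuotientGroup.mk s : POmega F ⇑Q) =
          MulAut.conj (QuotientGroup.mk s : POmega F ⇑Q) * φ :=
        (Subgroup.mem_centralizer_iff.1 hβ2) _ rfl
      have hφT := (field_iffS Q σ hσ φ).mp hφ
      obtain ⟨s', hs'⟩ : ∃ s' : ↥(Omega F ⇑Q), s' = actOmega ⇑Q (inrS Q σ hσ) s := ⟨_, rfl⟩
      have hφs : φ (QuotientGroup.mk s) = QuotientGroup.mk s' := by
        rw [hφT, Theta_mk, hs']
      have hconj : MulAut.conj (QuotientGroup.mk s' : POmega F ⇑Q) =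
          MulAut.conj (QuotientGroup.mk s) := by
        rw [← hφs]
        ext x
        have h6 := congrArg (fun f : MulAut (POmega F ⇑Q) => f (φ⁻¹ x)) hcomm
        simp only [MulAut.mul_apply, MulAut.conj_apply, map_mul, map_inv,
          MulAut.apply_inv_self] at h6
        rw [MulAut.conj_apply, MulAut.conj_apply]
        exact h6
      have hss : s' = s := h86_conj_mk_inj h2 Q hQ hn _ hv s' s hconj
      have hmat : ((((s : ↥(isometryGroup F ⇑Q)) : Matrix.GeneralLinearGroup ι F) :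
          Matrix ι ι F)).map σ =
          (((s : ↥(isometryGroup F ⇑Q)) : Matrix.GeneralLinearGroup ι F) : Matrix ι ι F) := by
        have h1 := actOmega_mat ⇑Q (inrS Q σ hσ) s
        rw [← hs', hss] at h1
        have hl : ((inrS Q σ hσ).1.left : Matrix.GeneralLinearGroup ι F) = 1 := rfl
        have hr : (inrS Q σ hσ).1.right = σ := rfl
        rw [hl, hr, inv_one, Units.val_one, Matrix.one_mul, Matrix.mul_one] at h1
        exact h1.symm
      have hfix : ∀ i j, ∃ a : F₀, e a =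
          (((s : ↥(isometryGroup F ⇑Q)) : Matrix.GeneralLinearGroup ι F) : Matrix ι ι F) i j := by
        intro i j
        have h1 := congrFun (congrFun hmat i) j
        rw [Matrix.map_apply] at h1
        exact (he _).1 h1
      choose M₀ hM₀ using hfix
      have hM : (Matrix.of M₀).map e =
          (((s : ↥(isometryGroup F ⇑Q)) : Matrix.GeneralLinearGroup ι F) : Matrix ι ι F) := by
        ext i j
        exact hM₀ i j
      have hdet : (Matrix.of M₀).det ≠ 0 := by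
        intro h0
        have h1 : ((Matrix.of M₀).map e).det = 0 := by
          rw [← RingHom.mapMatrix_apply, ← RingHom.map_det, h0, map_zero]
        rw [hM] at h1
        have h7 : IsUnit ((((s : ↥(isometryGroup F ⇑Q)) : Matrix.GeneralLinearGroup ι F) :
            Matrix ι ι F)).det :=
          (Matrix.isUnit_iff_isUnit_det _).mp (Units.isUnit _)
        exact h7.ne_zero h1
      obtain ⟨g₀, hg₀⟩ : ∃ g₀ : Matrix.GeneralLinearGroup ι F₀,
          (g₀ : Matrix ι ι F₀) = Matrix.of M₀ :=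
        ⟨Matrix.GeneralLinearGroup.mkOfDetNeZero (Matrix.of M₀) hdet, rfl⟩
      have hg₀mem : g₀ ∈ isometryGroup F₀ ⇑Q₀ := by
        rw [mem_isometryGroup_iff, hg₀]
        intro x
        have h8 := sim_downG e Q₀ Q hmap (Matrix.of M₀) 1 (fun w => by
          rw [hM, map_one, one_mul]
          exact (mem_isometryGroup_iff Q _).mp (s : ↥(isometryGroup F ⇑Q)).2 w) x
        rw [one_mul] at h8
        exact h8
      have hiso : isoMapG e Q₀ Q hmap ⟨g₀, hg₀mem⟩ = (s : ↥(isometryGroup F ⇑Q)) := by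
        apply Subtype.ext
        apply Units.ext
        rw [isoMapG_coe]
        show (g₀ : Matrix ι ι F₀).map e = _
        rw [hg₀, hM]
      have hΩ : (⟨g₀, hg₀mem⟩ : ↥(isometryGroup F₀ ⇑Q₀)) ∈ Omega F₀ ⇑Q₀ := by
        apply (h86_omega_iff h2 e Q₀ Q hmap hQ₀ hQ hn _).mp
        rw [hiso]
        exact s.2
      refine ⟨⟨⟨g₀, hg₀mem⟩, hΩ⟩, ?_⟩
      have h9 : Λ₀ ⟨⟨g₀, hg₀mem⟩, hΩ⟩ = s := Subtype.ext hiso
      show MulAut.conj (QuotientGroup.mk (Λ₀ ⟨⟨g₀, hg₀mem⟩, hΩ⟩) : POmega F ⇑Q) = _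
      rw [h9]
  have hΛ'inj : Function.Injective Λ' := by
    rw [injective_iff_map_eq_one]
    intro s hs
    exact h86_conj_mk_eq_one h2₀ Q₀ hQ₀ hn v₀ hv₀ s hs
  have hΛ'range : Λ'.range = Inn (POmega F₀ ⇑Q₀) := by
    ext β
    constructor
    · rintro ⟨s, rfl⟩
      exact ⟨QuotientGroup.mk s, rfl⟩
    · rintro ⟨k, rfl⟩
      obtain ⟨s, rfl⟩ := QuotientGroup.mk_surjective k
      exact ⟨s, rfl⟩
  have e1 := MulEquiv.subgroupCongr hΛrange.symm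
  have e2 := MonoidHom.ofInjective hΛinj
  have e3 := MonoidHom.ofInjective hΛ'inj
  have e4 := MulEquiv.subgroupCongr hΛ'range
  exact ⟨e1.trans (e2.symm.trans (e3.trans e4))⟩

end Gen

theorem h86_cent_even_aux {F₀ : Type v} [Field F₀] [Fintype F₀] {F : Type u} [Field F]
    [Fintype F] (h2 : (2 : F) = 0) {m : ℕ} (hm : 3 ≤ m) (e : F₀ →+* F) (a₀ b₀ : F₀)
    (hab : ∀ z₁ z₂ : F, z₁ ^ 2 + e a₀ * z₁ * z₂ + e b₀ * z₂ ^ 2 = 0 → z₁ = 0 ∧ z₂ = 0)
    (σ : F ≃+* F) (he : ∀ x : F, σ x = x ↔ x ∈ Set.range e)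
    (Q' : ((Fin m ⊕ Fin m) ⊕ Fin 2 → F) → F) (hQ' : ⇑(QMinus m F (e a₀) (e b₀)) = Q')
    (Q₀' : ((Fin m ⊕ Fin m) ⊕ Fin 2 → F₀) → F₀) (hQ₀' : ⇑(QMinus m F₀ a₀ b₀) = Q₀')
    (φ : MulAut (Cfsg.POmega F Q')) (hφ : Cfsg.IsFieldAutPOmegaOf Q' σ φ) :
    Nonempty (↥(Cfsg.Inn (Cfsg.POmega F Q') ⊓ Subgroup.centralizer {φ}) ≃*
      ↥(Cfsg.Inn (Cfsg.POmega F₀ Q₀'))) := by
  subst hQ' hQ₀'
  have hab₀ : ∀ z₁ z₂ : F₀, z₁ ^ 2 + a₀ * z₁ * z₂ + b₀ * z₂ ^ 2 = 0 → z₁ = 0 ∧ z₂ = 0 := by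
    intro z₁ z₂ h
    have h1 := hab (e z₁) (e z₂) (by
      have := congrArg e h
      simpa only [map_add, map_mul, map_pow, map_zero] using this)
    exact ⟨e.injective (by rw [h1.1, map_zero]), e.injective (by rw [h1.2, map_zero])⟩
  obtain ⟨Q, hQc, hQ, hn, -⟩ := Cfsg.Agent.Lib.Helper51.OAF.minus_data hm (e a₀) (e b₀) hab
  obtain ⟨Q₀, hQ₀c, hQ₀, -, -⟩ := Cfsg.Agent.Lib.Helper51.OAF.minus_data hm a₀ b₀ hab₀
  have hQe : Q = QMinus m F (e a₀) (e b₀) :=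
    DFunLike.coe_injective (hQc.trans (coe_QMinus m F (e a₀) (e b₀)).symm)
  have hQ₀e : Q₀ = QMinus m F₀ a₀ b₀ :=
    DFunLike.coe_injective (hQ₀c.trans (coe_QMinus m F₀ a₀ b₀).symm)
  subst hQe hQ₀e
  have hv₀ : QMinus m F₀ a₀ b₀ (Pi.single (Sum.inr 0) 1) ≠ 0 := by
    rw [QMinus_apply]
    simp
  exact h86_cent_generic h2 e (QMinus m F₀ a₀ b₀) (QMinus m F (e a₀) (e b₀))
    (QMinus_map e m a₀ b₀) hQ₀ hQ hn (Pi.single (Sum.inr 0) 1) hv₀ σ he
    (inr_mem_minus m (e a₀) (e b₀) σ ((he _).2 ⟨a₀, rfl⟩) ((he _).2 ⟨b₀, rfl⟩)) φ hφ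

theorem cent_even {F₀ : Type v} [Field F₀] [Fintype F₀] {F : Type u} [Field F] [Fintype F]
    (h2 : (2 : F) = 0) {m : ℕ} (hm : 3 ≤ m) (e : F₀ →+* F) (a₀ b₀ : F₀)
    (hab : ∀ z₁ z₂ : F, z₁ ^ 2 + e a₀ * z₁ * z₂ + e b₀ * z₂ ^ 2 = 0 → z₁ = 0 ∧ z₂ = 0)
    (σ : F ≃+* F) (he : ∀ x : F, σ x = x ↔ x ∈ Set.range e)
    (φ : MulAut (Cfsg.POmega F (Cfsg.quadFormMinus m F (e a₀) (e b₀))))
    (hφ : Cfsg.IsFieldAutPOmegaOf (Cfsg.quadFormMinus m F (e a₀) (e b₀)) σ φ) :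
    Nonempty (↥(Cfsg.Inn (Cfsg.POmega F (Cfsg.quadFormMinus m F (e a₀) (e b₀))) ⊓
        Subgroup.centralizer {φ}) ≃*
      ↥(Cfsg.Inn (Cfsg.POmega F₀ (Cfsg.quadFormMinus m F₀ a₀ b₀)))) :=
  h86_cent_even_aux h2 hm e a₀ b₀ hab σ he _ (coe_QMinus m F (e a₀) (e b₀)) _
    (coe_QMinus m F₀ a₀ b₀) φ hφ

end Cfsg.Agent.Lib.Helper86.MFCENTE
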