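import Mathlib
import Cfsg.Prelude.Def_GeometricClasses
import Cfsg.Prelude.Def_LieClassical
import Cfsg.Agent.Lib.Helper71.SPGTIF
import Cfsg.Agent.Lib.Helper4.Burnside
import Cfsg.Agent.Lib.Helper46.OT5b
import Cfsg.Agent.Lib.Helper10.OT5a

/-! Project OTIF (helper86, for S5673 / helper65): the tensor-induced branch for groups of
isometries of a non-degenerate symmetric bilinear form in odd dimension over a field of odd
order (orthogonal twin of helper71's `SPGTIF.TIF`).  Leaf pieces `OT5a` (helper10) and `OT5b`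
(helper46) by the team. -/

set_option autoImplicit false
set_option linter.unusedVariables false
set_option linter.unusedSectionVars false

namespace Cfsg.Agent.Lib.Helper86.OTIF

open Matrix Cfsg.Geo Cfsg.Agent.Lib.Helper71.Asch Cfsg.Agent.Lib.Helper71.SPGTIF

variable {n : ℕ} {F : Type*} [Field F] [Fintype F]

/-! ## The Gram matrix of a symmetric form in rectangular coordinates -/

/-- OTG: the Gram matrix of a symmetric form in rectangular coordinates. -/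
theorem OTG (hn : 1 ≤ n) (f : (Fin n → F) → (Fin n → F) → F) (hf : IsSymmetricForm f) {I : Type}
    [Fintype I] [DecidableEq I] (P : Matrix (Fin n) I F) (Q : Matrix I (Fin n) F)
    (hPQ : P * Q = 1) (hQP : Q * P = 1) :
    ∃ G : Matrix I I F, G ≠ 0 ∧ Gᵀ = G ∧
      (∀ x y : I → F, f (P *ᵥ x) (P *ᵥ y) = ∑ a, ∑ b, x a * G a b * y b) ∧
      (∀ (h : Matrix (Fin n) (Fin n) F) (g : Matrix I I F),
        (∀ u v, f (h *ᵥ u) (h *ᵥ v) = f u v) → Q * h * P = g → gᵀ * G * g = G) := by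
  have hform : ∀ x y : I → F, f (P *ᵥ x) (P *ᵥ y) =
      ∑ a, ∑ b, x a * f (P *ᵥ Pi.single a 1) (P *ᵥ Pi.single b 1) * y b := by
    intro x y
    rw [Cfsg.Agent.Lib.Helper68.TIFTG.tg_mulVec_eq P x,
      Cfsg.Agent.Lib.Helper68.TIFTG.tg_sum_left f hf.bilinear]
    refine Finset.sum_congr rfl fun a _ => ?_
    rw [Cfsg.Agent.Lib.Helper68.TIFTG.tg_mulVec_eq P y,
      Cfsg.Agent.Lib.Helper68.TIFTG.tg_sum_right f hf.bilinear, Finset.mul_sum]
    refine Finset.sum_congr rfl fun b _ => ?_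
    ring
  refine ⟨Matrix.of fun a b => f (P *ᵥ Pi.single a 1) (P *ᵥ Pi.single b 1), ?_, ?_, ?_, ?_⟩
  · intro hG
    have hv : (fun _ : Fin n => (1 : F)) ≠ 0 := by
      intro h0
      have := congrFun h0 ⟨0, hn⟩
      simp at this
    obtain ⟨w, hw⟩ := (hf.nondegenerate _ hv).2
    apply hw
    have h1 : ∀ u : Fin n → F, P *ᵥ (Q *ᵥ u) = u := by
      intro u
      rw [Matrix.mulVec_mulVec, hPQ, Matrix.one_mulVec]
    rw [← h1 (fun _ : Fin n => (1 : F)), ← h1 w, hform]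
    refine Finset.sum_eq_zero fun a _ => Finset.sum_eq_zero fun b _ => ?_
    have h2 := congrFun (congrFun hG a) b
    rw [Matrix.of_apply, Matrix.zero_apply] at h2
    rw [h2, mul_zero, zero_mul]
  · ext a b
    rw [Matrix.transpose_apply, Matrix.of_apply, Matrix.of_apply]
    exact hf.symm _ _
  · intro x y
    rw [hform]
    rfl
  · intro h g hh hg
    ext a b
    have h1 : ∀ u : I → F, P *ᵥ (g *ᵥ u) = h *ᵥ (P *ᵥ u) := by
      intro u
      rw [← hg, Matrix.mulVec_mulVec, Matrix.mulVec_mulVec]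
      congr 1
      rw [← Matrix.mul_assoc, ← Matrix.mul_assoc, hPQ, Matrix.one_mul]
    have h2 : f (P *ᵥ (g *ᵥ Pi.single a 1)) (P *ᵥ (g *ᵥ Pi.single b 1)) =
        f (P *ᵥ Pi.single a 1) (P *ᵥ Pi.single b 1) := by
      rw [h1, h1, hh]
    rw [hform] at h2
    rw [Matrix.of_apply, ← h2, Matrix.mul_apply]
    simp only [Matrix.mul_apply, Matrix.transpose_apply, Matrix.of_apply,
      Matrix.mulVec_single_one, Matrix.col_apply, Finset.sum_mul]
    exact Finset.sum_comm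

/-! ## Normalisation to a single symmetric factor form -/

/-- OT4: normalisation of the (symmetric) factor forms to a single symmetric form; the tensor
power form structure and the tensor-wreath subgroup. -/
theorem OT4 (f : (Fin n → F) → (Fin n → F) → F)
    (H : Subgroup (GL (Fin n) F)) {m k : ℕ} (hk : 2 ≤ k)
    (P : Matrix (Fin n) (Fin k → Fin m) F) (Q : Matrix (Fin k → Fin m) (Fin n) F)
    (hPQ : P * Q = 1) (hQP : Q * P = 1) (c : F) (hc : c ≠ 0)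
    (Gs : Fin k → Matrix (Fin m) (Fin m) F) (hdet : ∀ i, (Gs i).det ≠ 0)
    (hsymm : ∀ i, (Gs i)ᵀ = Gs i)
    (hconj : ∀ i j, ∃ (μ : F) (B : GL (Fin m) F), μ ≠ 0 ∧ B.1ᵀ * Gs j * B.1 = μ • Gs i)
    (hform : ∀ x y : (Fin k → Fin m) → F,
      f (P *ᵥ x) (P *ᵥ y) = ∑ a, ∑ b, x a * (c * ∏ i, Gs i (a i) (b i)) * y b)
    (hH : ∀ h ∈ H, ∃ g : GL (Fin k → Fin m) F, g ∈ tensorWreathStandard m k F ∧
      h.1 = P * g.1 * Q) :
    ∃ (e : Fin n ≃ (Fin k → Fin m)) (P' : GL (Fin n) F) (f₁ : (Fin m → F) → (Fin m → F) → F),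
      IsSymmetricForm f₁ ∧ IsTensorPowerFormStructure id f f₁ e P' ∧
      H ≤ tensorWreathSubgroup m k e P' := by
  classical
  have hk0 : 0 < k := by omega
  obtain ⟨i₀⟩ : Nonempty (Fin k) := ⟨⟨0, hk0⟩⟩
  have hch := fun i => hconj i₀ i
  choose μ B hμ hB using hch
  obtain ⟨G₀, hG₀⟩ : ∃ G₀ : Matrix (Fin m) (Fin m) F, G₀ = Gs i₀ := ⟨_, rfl⟩
  have hG₀symm : G₀ᵀ = G₀ := by rw [hG₀]; exact hsymm i₀
  have hG₀det : G₀.det ≠ 0 := by rw [hG₀]; exact hdet i₀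
  have hB' : ∀ i, ((B i : GL (Fin m) F) : Matrix (Fin m) (Fin m) F)ᵀ * Gs i * (B i).1 =
      μ i • G₀ := by
    intro i
    rw [hG₀]
    exact hB i
  -- the factor form
  have hsy : ∀ v w : Fin m → F, v ⬝ᵥ G₀ *ᵥ w = w ⬝ᵥ G₀ *ᵥ v := by
    intro v w
    rw [Matrix.dotProduct_mulVec, ← Matrix.mulVec_transpose, hG₀symm, dotProduct_comm]
  have hf₁ : IsSymmetricForm (fun u v : Fin m → F => u ⬝ᵥ G₀ *ᵥ v) := by
    refine ⟨⟨?_, ?_, ?_, ?_⟩, ?_, ?_⟩
    · intro x y v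
      exact add_dotProduct x y _
    · intro c x v
      exact smul_dotProduct c x _
    · intro v x y
      show v ⬝ᵥ G₀ *ᵥ (x + y) = _
      rw [Matrix.mulVec_add, dotProduct_add]
    · intro c v x
      show v ⬝ᵥ G₀ *ᵥ (c • x) = _
      rw [Matrix.mulVec_smul, dotProduct_smul, smul_eq_mul]
    · intro v w
      exact hsy v w
    · intro v hv
      have hne : G₀ *ᵥ v ≠ 0 := fun h0 => hv (Matrix.eq_zero_of_mulVec_eq_zero hG₀det h0)
      obtain ⟨a, ha⟩ := Function.ne_iff.mp hne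
      have h1 : (Pi.single a (1 : F) : Fin m → F) ⬝ᵥ G₀ *ᵥ v ≠ 0 := by
        rw [single_dotProduct, one_mul]
        exact ha
      refine ⟨⟨Pi.single a 1, h1⟩, ⟨Pi.single a 1, ?_⟩⟩
      show v ⬝ᵥ G₀ *ᵥ (Pi.single a 1) ≠ 0
      rw [hsy]
      exact h1
  have hgram : ∀ a b, gramMatrix (fun u v : Fin m → F => u ⬝ᵥ G₀ *ᵥ v) a b = G₀ a b := by
    intro a b
    show (Pi.single a (1 : F) : Fin m → F) ⬝ᵥ G₀ *ᵥ (Pi.single b 1) = G₀ a b
    rw [single_dotProduct, one_mul]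
    simp [Matrix.mulVec, dotProduct, Pi.single_apply]
  -- the normalising pure tensor
  obtain ⟨T, hT⟩ : ∃ T : Matrix (Fin k → Fin m) (Fin k → Fin m) F,
      T = pt (fun i => (B i).1) := ⟨_, rfl⟩
  obtain ⟨Ti, hTi⟩ : ∃ Ti : Matrix (Fin k → Fin m) (Fin k → Fin m) F,
      Ti = pt (fun i => ((B i)⁻¹ : GL (Fin m) F).1) := ⟨_, rfl⟩
  have hTTi : T * Ti = 1 := by
    rw [hT, hTi, pt_mul]
    have h1 : (fun i => (B i).1 * ((B i)⁻¹ : GL (Fin m) F).1) =
        fun _ : Fin k => (1 : Matrix (Fin m) (Fin m) F) := by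
      funext i
      rw [← Units.val_mul, mul_inv_cancel, Units.val_one]
    rw [h1, pt_one]
  have hTiT : Ti * T = 1 := by
    rw [hT, hTi, pt_mul]
    have h1 : (fun i => ((B i)⁻¹ : GL (Fin m) F).1 * (B i).1) =
        fun _ : Fin k => (1 : Matrix (Fin m) (Fin m) F) := by
      funext i
      rw [← Units.val_mul, inv_mul_cancel, Units.val_one]
    rw [h1, pt_one]
  have hcong : Tᵀ * pt Gs * T = (∏ i, μ i) • pt (fun _ : Fin k => G₀) := by
    rw [hT, pt_transpose, pt_mul, pt_mul, ← pt_smul]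
    congr 1
    funext i
    exact hB' i
  have hP₂Q₂ : (P * T) * (Ti * Q) = 1 := by
    rw [Matrix.mul_assoc, ← Matrix.mul_assoc T, hTTi, Matrix.one_mul, hPQ]
  have hQ₂P₂ : (Ti * Q) * (P * T) = 1 := by
    rw [Matrix.mul_assoc, ← Matrix.mul_assoc Q, hQP, Matrix.one_mul, hTiT]
  obtain ⟨e, P', hP'x, hP'mem⟩ :=
    Cfsg.Agent.Lib.Helper77.TIFT4.tift4_wreath (P * T) (Ti * Q) hP₂Q₂ hQ₂P₂
  have hstruct : IsTensorPowerFormStructure id f (fun u v : Fin m → F => u ⬝ᵥ G₀ *ᵥ v) e P' := by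
    unfold IsTensorPowerFormStructure
    refine ⟨c * ∏ i, μ i, mul_ne_zero hc (Finset.prod_ne_zero_iff.mpr fun i _ => hμ i), ?_⟩
    intro x y
    rw [hP'x, hP'x, ← Matrix.mulVec_mulVec, ← Matrix.mulVec_mulVec, hform]
    have h1 : ∀ x' y' : (Fin k → Fin m) → F,
        ∑ a, ∑ b, x' a * (c * ∏ i, Gs i (a i) (b i)) * y' b = c * (x' ⬝ᵥ pt Gs *ᵥ y') := by
      intro x' y'
      rw [← Cfsg.Agent.Lib.Helper77.TIFT4.tift4_sum_eq, Finset.mul_sum]
      refine Finset.sum_congr rfl fun a _ => ?_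
      rw [Finset.mul_sum]
      refine Finset.sum_congr rfl fun b _ => ?_
      rw [pt_apply]
      ring
    have h2 : ∑ a, ∑ b, x a * (∏ i, gramMatrix (fun u v : Fin m → F => u ⬝ᵥ G₀ *ᵥ v)
        (a i) (b i)) * id (y b) = x ⬝ᵥ pt (fun _ : Fin k => G₀) *ᵥ y := by
      rw [← Cfsg.Agent.Lib.Helper77.TIFT4.tift4_sum_eq]
      refine Finset.sum_congr rfl fun a _ => Finset.sum_congr rfl fun b _ => ?_
      rw [pt_apply]
      simp only [hgram, id]
    rw [h1, h2, Cfsg.Agent.Lib.Helper77.TIFT4.tift4_conj, hcong, Matrix.smul_mulVec,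
      dotProduct_smul, smul_eq_mul, mul_assoc]
  refine ⟨e, P', fun u v => u ⬝ᵥ G₀ *ᵥ v, hf₁, hstruct, ?_⟩
  intro h hh
  obtain ⟨g, hg, hhg⟩ := hH h hh
  obtain ⟨tT, htT1, htT2⟩ : ∃ tT : GL (Fin k → Fin m) F, tT.1 = T ∧
      (tT⁻¹ : GL (Fin k → Fin m) F).1 = Ti := ⟨⟨T, Ti, hTTi, hTiT⟩, rfl, rfl⟩
  have hpure : IsPureTensor m k tT := by
    unfold IsPureTensor
    refine ⟨B, fun x y => ?_⟩
    rw [htT1, hT, pt_apply]
  have htT : tT ∈ tensorWreathStandard m k F := Subgroup.subset_closure (Or.inl hpure)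
  have hg' : tT⁻¹ * g * tT ∈ tensorWreathStandard m k F :=
    mul_mem (mul_mem (inv_mem htT) hg) htT
  apply hP'mem h (tT⁻¹ * g * tT) hg'
  rw [hhg, Units.val_mul, Units.val_mul, htT1, htT2]
  calc P * g.1 * Q = P * (T * Ti) * g.1 * (T * Ti) * Q := by
        rw [hTTi, Matrix.mul_one, Matrix.mul_one]
    _ = P * T * (Ti * g.1 * T) * (Ti * Q) := by simp only [Matrix.mul_assoc]

/-! ## The exclusion of `(q, d) = (3, 3)` -/

/-- the group of similitudes of the matrix `G` -/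
def ot5_GO (G : Matrix (Fin 3) (Fin 3) F) : Subgroup (GL (Fin 3) F) where
  carrier := {A | ∃ μ : F, μ ≠ 0 ∧ A.1ᵀ * G * A.1 = μ • G}
  mul_mem' := by
    rintro A B ⟨μ, hμ, hA⟩ ⟨ν, hν, hB⟩
    refine ⟨μ * ν, mul_ne_zero hμ hν, ?_⟩
    rw [Units.val_mul, Matrix.transpose_mul]
    calc B.1ᵀ * A.1ᵀ * G * (A.1 * B.1) = B.1ᵀ * (A.1ᵀ * G * A.1) * B.1 := by
          simp only [Matrix.mul_assoc]
      _ = μ • (B.1ᵀ * G * B.1) := by
          rw [hA, Matrix.mul_smul, Matrix.smul_mul]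
      _ = (μ * ν) • G := by rw [hB, smul_smul]
  one_mem' := ⟨1, one_ne_zero, by simp⟩
  inv_mem' := by
    rintro A ⟨μ, hμ, hA⟩
    refine ⟨μ⁻¹, inv_ne_zero hμ, ?_⟩
    have h1 : G = μ⁻¹ • (A.1ᵀ * G * A.1) := by
      rw [hA, smul_smul, inv_mul_cancel₀ hμ, one_smul]
    have h2 : (A⁻¹ : GL (Fin 3) F).1ᵀ * A.1ᵀ = 1 := by
      rw [← Matrix.transpose_mul, ← Units.val_mul, mul_inv_cancel, Units.val_one,
        Matrix.transpose_one]
    have h3 : A.1 * (A⁻¹ : GL (Fin 3) F).1 = 1 := by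
      rw [← Units.val_mul, mul_inv_cancel, Units.val_one]
    calc (A⁻¹ : GL (Fin 3) F).1ᵀ * G * (A⁻¹ : GL (Fin 3) F).1
        = (A⁻¹ : GL (Fin 3) F).1ᵀ * (μ⁻¹ • (A.1ᵀ * G * A.1)) * (A⁻¹ : GL (Fin 3) F).1 := by
          rw [← h1]
      _ = μ⁻¹ • (((A⁻¹ : GL (Fin 3) F).1ᵀ * A.1ᵀ) * G * (A.1 * (A⁻¹ : GL (Fin 3) F).1)) := by
          simp only [Matrix.mul_smul, Matrix.smul_mul, Matrix.mul_assoc]
      _ = μ⁻¹ • G := by rw [h2, h3, Matrix.one_mul, Matrix.mul_one]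

theorem ot5_prod {m k : ℕ} (P : Matrix (Fin n) (Fin k → Fin m) F)
    (Q : Matrix (Fin k → Fin m) (Fin n) F) (hQP : Q * P = 1)
    (cs ds : Fin k → Matrix (Fin m) (Fin m) F) :
    (P * pt cs * Q) * (P * pt ds * Q) = P * pt (fun i => cs i * ds i) * Q := by
  calc (P * pt cs * Q) * (P * pt ds * Q) = P * (pt cs * (Q * P) * pt ds) * Q := by
        simp only [Matrix.mul_assoc]
    _ = P * pt (fun i => cs i * ds i) * Q := by rw [hQP, Matrix.mul_one, pt_mul]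

/-- the homomorphism `(A_i) ↦ P (⊗ A_i) Q` -/
def ot5_Phi {m k : ℕ} (P : Matrix (Fin n) (Fin k → Fin m) F)
    (Q : Matrix (Fin k → Fin m) (Fin n) F) (hPQ : P * Q = 1) (hQP : Q * P = 1) :
    (Fin k → GL (Fin m) F) →* GL (Fin n) F where
  toFun As := ⟨P * pt (fun i => (As i).1) * Q,
    P * pt (fun i => ((As i)⁻¹ : GL (Fin m) F).1) * Q,
    by rw [ot5_prod P Q hQP]; simp [pt_one, hPQ],
    by rw [ot5_prod P Q hQP]; simp [pt_one, hPQ]⟩
  map_one' := by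
    apply Units.ext
    simp [pt_one, hPQ]
  map_mul' As Bs := by
    apply Units.ext
    simp only [Units.val_mul, Pi.mul_apply]
    rw [ot5_prod P Q hQP]

theorem ot5_Phi_val {m k : ℕ} (P : Matrix (Fin n) (Fin k → Fin m) F)
    (Q : Matrix (Fin k → Fin m) (Fin n) F) (hPQ : P * Q = 1) (hQP : Q * P = 1)
    (As : Fin k → GL (Fin m) F) :
    (ot5_Phi P Q hPQ hQP As).1 = P * pt (fun i => (As i).1) * Q := rfl

/-- OT5: over the field with three elements the factors cannot have dimension 3 (`L` is perfect,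
and the similitude group of a ternary symmetric form over `F_3` is solvable). -/
theorem OT5 (hq3 : Fintype.card F = 3) (L : Subgroup (GL (Fin n) F)) (hc : ⁅L, L⁆ = L)
    (k : ℕ) (Ps : Fin k → Subgroup (GL (Fin n) F)) (hk : 2 ≤ k)
    (hns : ∀ i, ¬ Ps i ≤ scalars (Fin n) F)
    (hsup : L = ⨆ i, Ps i)
    (P : Matrix (Fin n) (Fin k → Fin 3) F) (Q : Matrix (Fin k → Fin 3) (Fin n) F)
    (hPQ : P * Q = 1) (hQP : Q * P = 1)
    (Gs : Fin k → Matrix (Fin 3) (Fin 3) F) (hdet : ∀ i, (Gs i).det ≠ 0)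
    (hsymm : ∀ i, (Gs i)ᵀ = Gs i)
    (hPs : ∀ i, ∀ x ∈ Ps i, ∃ A : GL (Fin 3) F, x.1 = P * iota i A.1 * Q ∧
      ∃ μ : F, μ ≠ 0 ∧ A.1ᵀ * Gs i * A.1 = μ • Gs i) : False := by
  classical
  obtain ⟨M, hMdef⟩ : ∃ M : Subgroup (Fin k → GL (Fin 3) F),
      M = Subgroup.pi Set.univ (fun i => ot5_GO (Gs i)) := ⟨_, rfl⟩
  have hMmem : ∀ x : Fin k → GL (Fin 3) F, x ∈ M ↔ ∀ i, x i ∈ ot5_GO (Gs i) := by
    intro x
    rw [hMdef, Subgroup.mem_pi]
    exact ⟨fun h i => h i (Set.mem_univ i), fun h i _ => h i⟩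
  have hM13 : ∀ x ∈ M, x ^ 13 = 1 → x = 1 := by
    intro x hx h13
    funext i
    obtain ⟨μ, hμ, hA⟩ := (hMmem x).1 hx i
    have h13i : (x i) ^ 13 = 1 := by
      have h := congrFun h13 i
      simpa using h
    exact Cfsg.Agent.Lib.Helper10.OT5a.OT5a hq3 (Gs i) (hdet i) (hsymm i) (x i) μ hμ hA h13i
  have hsolv : Group.IsSolvable ↥M := Cfsg.Agent.Lib.Helper46.OT5b.OT5b hq3 M hM13
  obtain ⟨Ψ, hΨ⟩ : ∃ Ψ : ↥M →* GL (Fin n) F, Ψ = (ot5_Phi P Q hPQ hQP).comp M.subtype :=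
    ⟨_, rfl⟩
  have hrange : L ≤ Ψ.range := by
    rw [hsup]
    apply iSup_le
    intro i x hx
    obtain ⟨A, hA, μ, hμ, hAG⟩ := hPs i x hx
    have hmem : Function.update (fun _ => (1 : GL (Fin 3) F)) i A ∈ M := by
      rw [hMmem]
      intro j
      by_cases hji : j = i
      · subst hji
        rw [Function.update_self]
        exact ⟨μ, hμ, hAG⟩
      · rw [Function.update_of_ne hji]
        exact Subgroup.one_mem _
    refine ⟨⟨_, hmem⟩, ?_⟩
    apply Units.ext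
    have e : (fun j' => ((Function.update (fun _ => (1 : GL (Fin 3) F)) i A j' : GL (Fin 3) F) :
        Matrix (Fin 3) (Fin 3) F)) =
        Function.update (fun _ => (1 : Matrix (Fin 3) (Fin 3) F)) i A.1 := by
      funext j'
      by_cases hji : j' = i
      · subst hji
        simp
      · simp [Function.update_of_ne hji]
    rw [hΨ]
    show (ot5_Phi P Q hPQ hQP (Function.update (fun _ => (1 : GL (Fin 3) F)) i A)).1 = x.1
    rw [ot5_Phi_val, hA, iota_eq_pt, e]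
  have hstep : ∀ j : ℕ, L ≤ (derivedSeries ↥M j).map Ψ := by
    intro j
    induction j with
    | zero =>
      rw [derivedSeries_zero, ← MonoidHom.range_eq_map]
      exact hrange
    | succ j ih =>
      rw [derivedSeries_succ, Subgroup.map_commutator]
      calc L = ⁅L, L⁆ := hc.symm
        _ ≤ _ := Subgroup.commutator_mono ih ih
  obtain ⟨j, hj⟩ := (Group.isSolvable_def ↥M).1 hsolv
  have hbot : L ≤ ⊥ := by
    have h := hstep j
    rw [hj, Subgroup.map_bot] at h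
    exact h
  have h0 : Ps ⟨0, by omega⟩ ≤ L := by
    rw [hsup]
    exact le_iSup Ps _
  exact hns ⟨0, by omega⟩ (h0.trans (hbot.trans bot_le))

/-! ## Assembly -/

/-- OTIF: the tensor-induced branch for a symmetric form in odd dimension. -/
theorem OTIF (hn : 3 ≤ n) (hodd : Odd n) (h2 : (2 : F) ≠ 0)
    (f : (Fin n → F) → (Fin n → F) → F) (hf : IsSymmetricForm f)
    (H L : Subgroup (GL (Fin n) F)) (hfix : FixesForm (matrixSet H) f) (hL : IsMinNS H L)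
    (hLa : ActsAbsolutelyIrreducibly (matrixSet L)) (hc : ⁅L, L⁆ = L)
    (k : ℕ) (Ps : Fin k → Subgroup (GL (Fin n) F)) (hk : 2 ≤ k)
    (hns : ∀ i, ¬ Ps i ≤ scalars (Fin n) F)
    (hcomm : ∀ i j, i ≠ j → ∀ x ∈ Ps i, ∀ y ∈ Ps j, x * y = y * x)
    (hsup : L = ⨆ i, Ps i)
    (hperm : ∀ h ∈ H, ∃ σ : Equiv.Perm (Fin k), ∀ i,
      (Ps i).map (MulAut.conj h).toMonoidHom = Ps (σ i))
    (htrans : ∀ i j, ∃ h ∈ H, (Ps i).map (MulAut.conj h).toMonoidHom = Ps j) :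
    ∃ (d t : ℕ) (e : Fin n ≃ (Fin t → Fin d)) (P : GL (Fin n) F)
      (f₁ : (Fin d → F) → (Fin d → F) → F), 3 ≤ d ∧ 2 ≤ t ∧
      ¬ (Fintype.card F = 3 ∧ d = 3) ∧ IsSymmetricForm f₁ ∧
      IsTensorPowerFormStructure id f f₁ e P ∧ H ≤ tensorWreathSubgroup d t e P := by
  classical
  obtain ⟨m, P, Q, hm, hPQ, hQP, hsP⟩ :=
    T1a hn H L hLa k Ps hk hns hcomm hsup hperm htrans
  have hR := fun i => T1b P Q hPQ hQP i (Ps i) (hsP i)
  choose R hspan hR1 hR2 using hR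
  have hinj : Function.Injective Ps := T1d hm P Q hPQ hQP Ps hcomm hsP
  have hshape : ∀ h ∈ H, ∃ σ : Equiv.Perm (Fin k),
      (∀ i, (Ps i).map (MulAut.conj h).toMonoidHom = Ps (σ i)) ∧
      ∃ (g : GL (Fin k → Fin m) F) (cs : Fin k → GL (Fin m) F), g ∈ tensorWreathStandard m k F ∧
        h.1 = P * g.1 * Q ∧ Q * h.1 * P = pt (fun i => (cs i).1) * permM m σ := by
    intro h hh
    obtain ⟨σ, hσ⟩ := hperm h hh
    obtain ⟨g, cs, hg, hhg, hgs⟩ := T1c hm hk P Q hPQ hQP Ps hsP h σ hσ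
    refine ⟨σ, hσ, g, cs, hg, hhg, ?_⟩
    rw [← hgs, hhg]
    calc Q * (P * g.1 * Q) * P = (Q * P) * g.1 * (Q * P) := by simp only [Matrix.mul_assoc]
      _ = g.1 := by rw [hQP, Matrix.one_mul, Matrix.mul_one]
  have hHg : ∀ h ∈ H, ∃ g : GL (Fin k → Fin m) F, g ∈ tensorWreathStandard m k F ∧
      h.1 = P * g.1 * Q := by
    intro h hh
    obtain ⟨σ, -, g, cs, hg, hhg, -⟩ := hshape h hh
    exact ⟨g, hg, hhg⟩
  have hHt : ∀ i j, ∃ h ∈ H, ∃ (σ : Equiv.Perm (Fin k)) (cs : Fin k → GL (Fin m) F), σ i = j ∧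
      Q * h.1 * P = pt (fun i => (cs i).1) * permM m σ := by
    intro i j
    obtain ⟨h, hh, hij⟩ := htrans i j
    obtain ⟨σ, hσ, g, cs, -, -, hdec⟩ := hshape h hh
    refine ⟨h, hh, σ, cs, hinj ?_, hdec⟩
    rw [← hσ i, hij]
  obtain ⟨G, hG0, hGsymm, hGform, hGinv⟩ := OTG (by omega) f hf P Q hPQ hQP
  have hPsL : ∀ i, Ps i ≤ L := fun i => by rw [hsup]; exact le_iSup Ps i
  have hfixx : ∀ x ∈ H, ∀ u v, f (x.1 *ᵥ u) (x.1 *ᵥ v) = f u v :=
    fun x hx u v => hfix _ ⟨x, hx, rfl⟩ u v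
  have hinv : ∀ i, ∀ A ∈ R i, (iota i A.1)ᵀ * G * iota i A.1 = G := by
    intro i A hA
    obtain ⟨x, hx, hxA⟩ := hR1 i A hA
    apply hGinv x.1 _ (hfixx x (hL.le (hPsL i hx)))
    rw [hxA]
    calc Q * (P * iota i A.1 * Q) * P = (Q * P) * iota i A.1 * (Q * P) := by
          simp only [Matrix.mul_assoc]
      _ = iota i A.1 := by rw [hQP, Matrix.one_mul, Matrix.mul_one]
  obtain ⟨c, Gs, hc0, hdet, hsym, hGprod⟩ := T2 G hG0 R hspan hinv
  have hconj : ∀ i j, ∃ (μ : F) (B : GL (Fin m) F), μ ≠ 0 ∧ B.1ᵀ * Gs j * B.1 = μ • Gs i := by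
    intro i j
    obtain ⟨h, hh, σ, cs, hσ, hdec⟩ := hHt i j
    have hinv' := hGinv h.1 _ (hfixx h hh) hdec
    obtain ⟨μ, hμ, hμe⟩ := T3 c hc0 Gs hdet G hGprod cs σ hinv' i
    rw [hσ] at hμe
    exact ⟨μ, cs j, hμ, hμe⟩
  have hform : ∀ x y : (Fin k → Fin m) → F,
      f (P *ᵥ x) (P *ᵥ y) = ∑ a, ∑ b, x a * (c * ∏ i, Gs i (a i) (b i)) * y b := by
    intro x y
    rw [hGform]
    refine Finset.sum_congr rfl fun a _ => Finset.sum_congr rfl fun b _ => ?_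
    rw [hGprod]
  -- the dimension is `m ^ k`, so `m` is odd
  obtain ⟨e₀, -, -, -⟩ := Cfsg.Agent.Lib.Helper77.TIFT4.tift4_wreath P Q hPQ hQP
  have hnmk : n = m ^ k := by
    have h := Fintype.card_congr e₀
    simpa using h
  have hmodd : Odd m := by
    rw [hnmk] at hodd
    exact (Nat.odd_pow_iff (by omega)).1 hodd
  have h3m : 3 ≤ m := by
    rcases hmodd with ⟨j, hj⟩
    omega
  have hsymm : ∀ i, (Gs i)ᵀ = Gs i := by
    intro i
    rcases hsym i with h | h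
    · exact h
    · exfalso
      apply hdet i
      have h1 : (Gs i).det = (-(Gs i)).det := by rw [← h, Matrix.det_transpose]
      rw [Matrix.det_neg, Fintype.card_fin, Odd.neg_one_pow hmodd] at h1
      have h3 : (2 : F) * (Gs i).det = 0 := by linear_combination h1
      rcases mul_eq_zero.1 h3 with h4 | h4
      · exact absurd h4 h2
      · exact h4
  have hex : ¬ (Fintype.card F = 3 ∧ m = 3) := by
    rintro ⟨hq3, rfl⟩
    refine OT5 hq3 L hc k Ps hk hns hsup P Q hPQ hQP Gs hdet hsymm ?_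
    intro i x hx
    obtain ⟨A, hA, hxA⟩ := hR2 i x hx
    refine ⟨A, hxA, ?_⟩
    have hi := hinv i A hA
    have hpt : pt (fun j => ((Function.update (fun _ => (1 : GL (Fin 3) F)) i A j :
        GL (Fin 3) F) : Matrix (Fin 3) (Fin 3) F)) = iota i A.1 := by
      rw [iota_eq_pt]
      congr 1
      funext j
      by_cases hji : j = i
      · subst hji
        simp
      · simp [Function.update_of_ne hji]
    have hperm1 : (permM 3 (1 : Equiv.Perm (Fin k)) :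
        Matrix (Fin k → Fin 3) (Fin k → Fin 3) F) = 1 := by
      ext x y
      simp [permM, Matrix.one_apply, eq_comm]
    have h3 := T3 c hc0 Gs hdet G hGprod (Function.update (fun _ => (1 : GL (Fin 3) F)) i A) 1
      (by rw [hpt, hperm1, Matrix.mul_one]; exact hi) i
    simpa using h3
  obtain ⟨e, P', f₁, hf₁, htp, hHW⟩ :=
    OT4 f H hk P Q hPQ hQP c hc0 Gs hdet hsymm hconj hform hHg
  exact ⟨m, k, e, P', f₁, h3m, hk, hex, hf₁, htp, hHW⟩

end Cfsg.Agent.Lib.Helper86.OTIF
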