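import Mathlib
import Cfsg.Agent.Lib.Helper80.PrimSolDefs

/-!
S5876 piece FPFB: independence of the fixed spaces of pairwise incomparable subgroups of an abelian
linear group, each maximal with a nonzero fixed space.
-/

set_option autoImplicit false
open Cfsg

namespace Cfsg.Agent.Lib.Helper86

open Matrix Cfsg.Agent.Lib.Helper80

/-- PIECE FPFB -/
theorem iSupIndep_fixSp {F : Type*} [Field F] {n : ℕ} (A : Subgroup (GL (Fin n) F))
    (hAab : ∀ a ∈ A, ∀ b ∈ A, a * b = b * a) {ι : Type*} [Finite ι]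
    (B : ι → Subgroup (GL (Fin n) F)) (hBA : ∀ i, B i ≤ A)
    (hmax : ∀ i, ∀ b ∈ A, b ∉ B i → ∀ v, v ∈ fixSp (B i) →
      ((b : GL (Fin n) F) : Matrix (Fin n) (Fin n) F) *ᵥ v = v → v = 0)
    (hne : ∀ i j, i ≠ j → ¬ B i ≤ B j) :
    iSupIndep (fun i => fixSp (B i)) := by
  classical
  rw [iSupIndep_iff_finsetSum_eq_zero_imp_eq_zero]
  have key : ∀ (k : ℕ) (s : Finset ι), s.card = k → ∀ (v : ι → Fin n → F),
      (∀ i ∈ s, v i ∈ fixSp (B i)) → ∑ i ∈ s, v i = 0 → ∀ i ∈ s, v i = 0 := by
    intro k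
    induction k using Nat.strong_induction_on with
    | _ k ih =>
      intro s hs v hv hsum i hi
      by_contra hvi
      have hex : ∃ j ∈ s, j ≠ i ∧ v j ≠ 0 := by
        by_contra hno
        push Not at hno
        have h1 : ∑ k ∈ s, v k = v i := by
          rw [← Finset.add_sum_erase s v hi, Finset.sum_eq_zero, add_zero]
          intro j hj
          exact hno j (Finset.mem_of_mem_erase hj) (Finset.ne_of_mem_erase hj)
        rw [h1] at hsum
        exact hvi hsum
      obtain ⟨j, hj, hji, hvj⟩ := hex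
      obtain ⟨b, hbi, hbj⟩ := SetLike.not_le_iff_exists.mp (hne i j (Ne.symm hji))
      obtain ⟨w, hw⟩ : ∃ w : ι → Fin n → F, ∀ k,
          w k = ((b : GL (Fin n) F) : Matrix (Fin n) (Fin n) F) *ᵥ v k - v k := ⟨_, fun _ => rfl⟩
      have hwmem : ∀ k ∈ s.erase i, w k ∈ fixSp (B k) := by
        intro k hk
        have hvk := hv k (Finset.mem_of_mem_erase hk)
        rw [mem_fixSp] at hvk ⊢
        intro c hc
        have hcomm : ((c : GL (Fin n) F) : Matrix (Fin n) (Fin n) F) *
            ((b : GL (Fin n) F) : Matrix (Fin n) (Fin n) F) =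
            ((b : GL (Fin n) F) : Matrix (Fin n) (Fin n) F) *
            ((c : GL (Fin n) F) : Matrix (Fin n) (Fin n) F) := by
          rw [← Units.val_mul, ← Units.val_mul, hAab c (hBA k hc) b (hBA i hbi)]
        rw [hw, Matrix.mulVec_sub, Matrix.mulVec_mulVec, hcomm, ← Matrix.mulVec_mulVec, hvk c hc]
      have hwsum : ∑ k ∈ s.erase i, w k = 0 := by
        have hwi : w i = 0 := by
          rw [hw, (mem_fixSp.mp (hv i hi)) b hbi, sub_self]
        have h2 : ∑ k ∈ s, w k = 0 := by
          simp_rw [hw]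
          rw [Finset.sum_sub_distrib, ← Matrix.mulVec_sum, hsum, Matrix.mulVec_zero, sub_zero]
        rw [← Finset.add_sum_erase s w hi, hwi, zero_add] at h2
        exact h2
      have hcard : (s.erase i).card < k := by
        rw [Finset.card_erase_of_mem hi, hs]
        have := Finset.card_pos.mpr ⟨i, hi⟩
        omega
      have hwj := ih (s.erase i).card hcard (s.erase i) rfl w hwmem hwsum j
        (Finset.mem_erase.mpr ⟨hji, hj⟩)
      rw [hw] at hwj
      exact hvj (hmax j b (hBA i hbi) hbj (v j) (hv j hj) (sub_eq_zero.mp hwj))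
  intro s v hv hsum
  exact key s.card s rfl v hv hsum

end Cfsg.Agent.Lib.Helper86
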