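import Mathlib
import Cfsg.Prelude.Def_GeometricClasses
import Cfsg.Prelude.Def_LieClassical
import Cfsg.Agent.Lib.Helper18.Symp
import Cfsg.Agent.Lib.Helper97.SpGen

/-! Project SPP (helper71), piece NS2: the symplectic group `Cfsg.spGL m F` is contained in no
stabiliser of a direct-sum decomposition.  Proof: `Sp` is transitive on non-zero vectors (one or
two symplectic transvections), while a sum `x + y` of non-zero vectors of two different blocks
lies in no block. -/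

set_option autoImplicit false

namespace Cfsg.Agent.Lib.Helper86.SPPNS2

open Matrix Cfsg.Geo
open scoped Kronecker

variable {n : ℕ} {F : Type*} [Field F] [Fintype F]

/-- A symplectic transvection as an element of `Cfsg.spGL`. -/
theorem NS2_transv_exists (m : ℕ) (w : Fin m ⊕ Fin m → F) (c : F) :
    ∃ t : GL (Fin m ⊕ Fin m) F, t ∈ Cfsg.spGL m F ∧
      ∀ x : Fin m ⊕ Fin m → F, (t : Matrix (Fin m ⊕ Fin m) (Fin m ⊕ Fin m) F) *ᵥ x =
        x + (c * Cfsg.Agent.Lib.Helper18.sympB m x w) • w := by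
  have hmem := Cfsg.Agent.Lib.Helper18.sympTransvection_mem (F := F) m w c
  have hdet : IsUnit
      (Cfsg.sympTransvection m w c : Matrix (Fin m ⊕ Fin m) (Fin m ⊕ Fin m) F).det :=
    SymplecticGroup.symplectic_det hmem
  obtain ⟨t, ht⟩ := (Matrix.isUnit_iff_isUnit_det _).mpr hdet
  refine ⟨t, ?_, ?_⟩
  · rw [Cfsg.Agent.Lib.Helper97.mem_spGL_iff]
    intro u v
    rw [ht]
    have h := Cfsg.Agent.Lib.Helper18.symplectic_isometry m _ hmem u v
    rw [Cfsg.Agent.Lib.Helper18.sympB_eq_sympForm, Cfsg.Agent.Lib.Helper18.sympB_eq_sympForm,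
      Matrix.toLin'_apply, Matrix.toLin'_apply] at h
    exact h
  · intro x
    rw [ht, ← Matrix.toLin'_apply, Cfsg.Agent.Lib.Helper18.toLin'_sympTransvection,
      Cfsg.Agent.Lib.Helper18.transv_apply]

/-- One transvection moves `x` to `z` when they are not perpendicular. -/
theorem NS2_move_one (m : ℕ) (x z : Fin m ⊕ Fin m → F)
    (h : Cfsg.Agent.Lib.Helper18.sympB m x z ≠ 0) :
    ∃ g : GL (Fin m ⊕ Fin m) F, g ∈ Cfsg.spGL m F ∧
      (g : Matrix (Fin m ⊕ Fin m) (Fin m ⊕ Fin m) F) *ᵥ x = z := by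
  obtain ⟨t, ht, htx⟩ := NS2_transv_exists m (z - x) (Cfsg.Agent.Lib.Helper18.sympB m x z)⁻¹
  refine ⟨t, ht, ?_⟩
  rw [htx x]
  have h1 : Cfsg.Agent.Lib.Helper18.sympB m x x = 0 :=
    (Cfsg.Agent.Lib.Helper18.sympB_isAlt (F := F) m).self_eq_zero x
  rw [map_sub, h1, sub_zero, inv_mul_cancel₀ h, one_smul]
  abel

/-- `Sp` is transitive on non-zero vectors. -/
theorem NS2_move (m : ℕ) (x z : Fin m ⊕ Fin m → F) (hx : x ≠ 0) (hz : z ≠ 0) :
    ∃ g : GL (Fin m ⊕ Fin m) F, g ∈ Cfsg.spGL m F ∧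
      (g : Matrix (Fin m ⊕ Fin m) (Fin m ⊕ Fin m) F) *ᵥ x = z := by
  by_cases h0 : Cfsg.Agent.Lib.Helper18.sympB m x z = 0
  · have hnd := Cfsg.Agent.Lib.Helper18.sympB_nondegenerate (F := F) m
    have h1 : ∃ w1, Cfsg.Agent.Lib.Helper18.sympB m x w1 ≠ 0 := by
      by_contra hcon
      push Not at hcon
      exact hx (hnd.1 x hcon)
    have h2 : ∃ w2, Cfsg.Agent.Lib.Helper18.sympB m w2 z ≠ 0 := by
      by_contra hcon
      push Not at hcon
      exact hz (hnd.2 z hcon)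
    obtain ⟨w1, hw1⟩ := h1
    obtain ⟨w2, hw2⟩ := h2
    have hex : ∃ w, Cfsg.Agent.Lib.Helper18.sympB m x w ≠ 0 ∧
        Cfsg.Agent.Lib.Helper18.sympB m w z ≠ 0 := by
      by_cases ha : Cfsg.Agent.Lib.Helper18.sympB m w1 z = 0
      · by_cases hb : Cfsg.Agent.Lib.Helper18.sympB m x w2 = 0
        · refine ⟨w1 + w2, ?_, ?_⟩
          · rw [map_add, hb, add_zero]
            exact hw1
          · rw [map_add, LinearMap.add_apply, ha, zero_add]
            exact hw2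
        · exact ⟨w2, hb, hw2⟩
      · exact ⟨w1, hw1, ha⟩
    obtain ⟨w, hxw, hwz⟩ := hex
    obtain ⟨g1, hg1, hg1x⟩ := NS2_move_one m x w hxw
    obtain ⟨g2, hg2, hg2w⟩ := NS2_move_one m w z hwz
    refine ⟨g2 * g1, (Cfsg.spGL m F).mul_mem hg2 hg1, ?_⟩
    rw [Units.val_mul, ← Matrix.mulVec_mulVec, hg1x, hg2w]
  · exact NS2_move_one m x z h0

/-- NS2 -/
theorem NS2 (m : ℕ) (hm : 2 ≤ m) {t k : ℕ} (D : Fin t → Submodule F (Fin m ⊕ Fin m → F))
    (hD : IsMDecomposition k D) : ¬ Cfsg.spGL m F ≤ decompositionStabilizer D := by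
  intro hle
  have ht := hD.two_le
  have hne : ∀ i, ∃ x ∈ D i, x ≠ 0 := by
    intro i
    have h1 : D i ≠ ⊥ := by
      intro h
      have h2 := hD.finrank_eq i
      rw [h, finrank_bot] at h2
      have h3 := hD.pos
      omega
    exact (Submodule.ne_bot_iff _).mp h1
  have h01 : (⟨0, by omega⟩ : Fin t) ≠ ⟨1, by omega⟩ := by
    intro h
    have := congrArg Fin.val h
    simp at this
  obtain ⟨x, hx, hx0⟩ := hne ⟨0, by omega⟩
  obtain ⟨y, hy, hy0⟩ := hne ⟨1, by omega⟩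
  have hdisj : ∀ (i : Fin t) (v : Fin m ⊕ Fin m → F), v ∈ D i →
      v ∈ (⨆ (l : Fin t) (_ : l ≠ i), D l) → v = 0 := by
    intro i v hvi hv
    exact Submodule.disjoint_def.mp (hD.indep i) v hvi hv
  have hxy : ∀ i, x + y ∉ D i := by
    intro i hi
    by_cases h : i = ⟨0, by omega⟩
    · -- then `y` lies in block `0` and in block `1`
      apply hy0
      refine hdisj ⟨1, by omega⟩ y hy ?_
      have h1 : y ∈ D ⟨0, by omega⟩ := by
        have h2 : y = (x + y) - x := by abel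
        rw [h2]
        exact Submodule.sub_mem _ (h ▸ hi) hx
      exact Submodule.mem_iSup_of_mem ⟨0, by omega⟩ (Submodule.mem_iSup_of_mem h01 h1)
    · apply hx0
      refine hdisj ⟨0, by omega⟩ x hx ?_
      have h2 : x = (x + y) - y := by abel
      rw [h2]
      refine Submodule.sub_mem _ ?_ ?_
      · exact Submodule.mem_iSup_of_mem i (Submodule.mem_iSup_of_mem h hi)
      · exact Submodule.mem_iSup_of_mem ⟨1, by omega⟩
          (Submodule.mem_iSup_of_mem (Ne.symm h01) hy)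
  have hxy0 : x + y ≠ 0 := by
    intro h
    apply hxy ⟨0, by omega⟩
    rw [h]
    exact Submodule.zero_mem _
  obtain ⟨g, hg, hgx⟩ := NS2_move m x (x + y) hx0 hxy0
  obtain ⟨σ, hσ⟩ := hle hg
  have h1 : Matrix.toLin' (g : Matrix (Fin m ⊕ Fin m) (Fin m ⊕ Fin m) F) x ∈
      (D ⟨0, by omega⟩).map (Matrix.toLin' (g : Matrix (Fin m ⊕ Fin m) (Fin m ⊕ Fin m) F)) :=
    Submodule.mem_map_of_mem hx
  rw [hσ, Matrix.toLin'_apply, hgx] at h1
  exact hxy _ h1

end Cfsg.Agent.Lib.Helper86.SPPNS2
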