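import Mathlib
import Cfsg.Agent.Lib.Helper22.BFDefs

/-!
# S4503 project (helper22), piece CASEB

Rank one of the `E`-averages plus three pairwise non-conjugate powers plus negativity of the
mixed sums for all non-conjugate pairs is contradictory.
-/

set_option autoImplicit false

namespace Cfsg.Agent.Lib.Helper86.BFT

open Cfsg Cfsg.Agent.Lib.Helper22.BFD
open scoped ComplexConjugate

universe u

variable {G : Type u} [Group G] [Fintype G]

/-- PIECE CASEB -/
theorem case_b (p : ℕ) [Fact p.Prime] (z : G) (hz : orderOf z = p) (χ : G → ℂ)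
    (hrk : Rk1 p z χ) (a b c : ZMod p) (ha : a ≠ 0) (hb : b ≠ 0) (hc : c ≠ 0)
    (hab : ¬ IsConj (z ^ a.val) (z ^ b.val)) (hbc : ¬ IsConj (z ^ b.val) (z ^ c.val))
    (hac : ¬ IsConj (z ^ a.val) (z ^ c.val))
    (hneg : ∀ a' b' : ZMod p, a' ≠ 0 → b' ≠ 0 → ¬ IsConj (z ^ a'.val) (z ^ b'.val) →
      ∃ F : ℝ, 0 < F ∧
        ∑ y ∈ Kf p z, χ (z ^ a'.val * y) * conj (χ (z ^ b'.val * y)) = -(F : ℂ)) : False := by
  classical
  have hp : p.Prime := Fact.out
  obtain ⟨γ, Θ, hrk⟩ := hrk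
  have hzp : z ^ p = 1 := by rw [← hz]; exact pow_orderOf_eq_one z
  have hz1 : z ≠ 1 := by
    intro h
    rw [h, orderOf_one] at hz
    exact hp.one_lt.ne hz
  have hpow : ∀ k s : ZMod p, z ^ (k * s).val = (z ^ k.val) ^ s.val := by
    intro k s
    rw [← pow_mul, ZMod.val_mul]
    exact (pow_eq_pow_mod _ hzp).symm
  have hk0 : ∀ k ∈ Ef p z, k ≠ 0 := by
    intro k hk h0
    have h1 : IsConj (z ^ k.val) z := (Finset.mem_filter.mp hk).2
    rw [h0, ZMod.val_zero, pow_zero] at h1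
    exact hz1 (isConj_one_right.mp h1)
  have hconj : ∀ k ∈ Ef p z, ∀ s : ZMod p, IsConj (z ^ (k * s).val) (z ^ s.val) := by
    intro k hk s
    rw [hpow]
    exact ((Finset.mem_filter.mp hk).2).pow s.val
  have h1E : (1 : ZMod p) ∈ Ef p z := by
    refine Finset.mem_filter.mpr ⟨Finset.mem_univ _, ?_⟩
    have : Fact (1 < p) := ⟨hp.one_lt⟩
    rw [ZMod.val_one, pow_one]
  set Q : ℂ := ∑ y ∈ Kf p z, Θ y * conj (Θ y) with hQ
  have hpair : ∀ s t : ZMod p, s ≠ 0 → t ≠ 0 → ¬ IsConj (z ^ s.val) (z ^ t.val) →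
      ∃ F : ℝ, 0 < F ∧ γ s * conj (γ t) * Q = -(F : ℂ) := by
    intro s t hs ht hst
    have hF : ∀ k k' : ZMod p, ∃ F : ℝ, k ∈ Ef p z → k' ∈ Ef p z → (0 < F ∧
        ∑ y ∈ Kf p z, χ (z ^ (k * s).val * y) * conj (χ (z ^ (k' * t).val * y))
          = -(F : ℂ)) := by
      intro k k'
      by_cases hk : k ∈ Ef p z
      · by_cases hk' : k' ∈ Ef p z
        · obtain ⟨F, hF⟩ := hneg (k * s) (k' * t) (mul_ne_zero (hk0 k hk) hs)
            (mul_ne_zero (hk0 k' hk') ht) (by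
              intro h
              exact hst (((hconj k hk s).symm.trans h).trans (hconj k' hk' t)))
          exact ⟨F, fun _ _ => hF⟩
        · exact ⟨0, fun _ h => absurd h hk'⟩
      · exact ⟨0, fun h => absurd h hk⟩
    choose F hF using hF
    refine ⟨∑ k ∈ Ef p z, ∑ k' ∈ Ef p z, F k k', ?_, ?_⟩
    · apply Finset.sum_pos
      · intro k hk
        apply Finset.sum_pos
        · intro k' hk'
          exact (hF k k' hk hk').1
        · exact ⟨1, h1E⟩
      · exact ⟨1, h1E⟩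
    · have e1 : ∑ y ∈ Kf p z, (∑ k ∈ Ef p z, χ (z ^ (k * s).val * y)) *
          conj (∑ k ∈ Ef p z, χ (z ^ (k * t).val * y)) = γ s * conj (γ t) * Q := by
        rw [hQ, Finset.mul_sum]
        apply Finset.sum_congr rfl
        intro y hy
        rw [hrk s hs y hy, hrk t ht y hy, map_mul]
        ring
      have e2 : ∀ y ∈ Kf p z, (∑ k ∈ Ef p z, χ (z ^ (k * s).val * y)) *
          conj (∑ k ∈ Ef p z, χ (z ^ (k * t).val * y)) =
          ∑ k ∈ Ef p z, ∑ k' ∈ Ef p z,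
            χ (z ^ (k * s).val * y) * conj (χ (z ^ (k' * t).val * y)) := by
        intro y hy
        rw [map_sum, Finset.sum_mul_sum]
      have e3 : ∑ y ∈ Kf p z, ∑ k ∈ Ef p z, ∑ k' ∈ Ef p z,
            χ (z ^ (k * s).val * y) * conj (χ (z ^ (k' * t).val * y)) =
          ∑ k ∈ Ef p z, ∑ k' ∈ Ef p z, -((F k k' : ℝ) : ℂ) := by
        rw [Finset.sum_comm]
        apply Finset.sum_congr rfl
        intro k hk
        rw [Finset.sum_comm]
        apply Finset.sum_congr rfl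
        intro k' hk'
        exact (hF k k' hk hk').2
      rw [← e1, Finset.sum_congr rfl e2, e3]
      push_cast
      simp only [Finset.sum_neg_distrib]
  obtain ⟨F₁, hF₁, e1⟩ := hpair a b ha hb hab
  obtain ⟨F₂, hF₂, e2⟩ := hpair b c hb hc hbc
  obtain ⟨F₃, hF₃, e3⟩ := hpair a c ha hc hac
  have hQr : Q = ((∑ y ∈ Kf p z, Complex.normSq (Θ y) : ℝ) : ℂ) := by
    rw [hQ]
    push_cast
    apply Finset.sum_congr rfl
    intro y _
    exact Complex.mul_conj (Θ y)
  have hq0 : 0 ≤ ∑ y ∈ Kf p z, Complex.normSq (Θ y) :=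
    Finset.sum_nonneg (fun y _ => Complex.normSq_nonneg _)
  have hn : γ b * conj (γ b) = ((Complex.normSq (γ b) : ℝ) : ℂ) := Complex.mul_conj (γ b)
  have hn0 := Complex.normSq_nonneg (γ b)
  have key : ((F₁ * F₂ : ℝ) : ℂ) =
      ((-(F₃ * Complex.normSq (γ b) * ∑ y ∈ Kf p z, Complex.normSq (Θ y)) : ℝ) : ℂ) := by
    rw [Complex.ofReal_neg, Complex.ofReal_mul, Complex.ofReal_mul, Complex.ofReal_mul,
      ← hQr, ← hn]
    have h1 : (F₁ : ℂ) * F₂ = (γ a * conj (γ b) * Q) * (γ b * conj (γ c) * Q) := by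
      rw [e1, e2]; ring
    have h2 : -((F₃ : ℂ) * (γ b * conj (γ b)) * Q) =
        (γ a * conj (γ c) * Q) * (γ b * conj (γ b)) * Q := by
      rw [e3]; ring
    rw [h1, h2]
    ring
  have key' := Complex.ofReal_injective key
  nlinarith [mul_pos hF₁ hF₂, mul_nonneg (mul_nonneg hF₃.le hn0) hq0]

end Cfsg.Agent.Lib.Helper86.BFT
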