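import Mathlib
import Cfsg.Agent.Lib.Helper46.BSW0

/-!
# Piece D2 of the S0508 project: the cyclic subgroup of index 2 of a dihedral group
-/

namespace Cfsg.Agent.Lib.Helper86.BSW2D2

open DihedralGroup

/-- The abstract property we transport. -/
def DihGood (H : Type*) [Group H] (z : H) : Prop :=
  ∃ A : Subgroup H, IsCyclic A ∧ A.index = 2 ∧ z ∈ A ∧
    (∀ a ∈ A, a * a = 1 → a = 1 ∨ a = z) ∧
    (∀ s, s ∉ A → orderOf s = 2 ∧ ∀ a ∈ A, s * a * s⁻¹ = a⁻¹) ∧
    (∀ B : Subgroup H, IsCyclic B → B.index = 2 → z ∈ B → B = A)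

theorem zmod_two_tors {n : ℕ} [NeZero n] {i j : ZMod n} (hi : i + i = 0) (hj : j + j = 0)
    (hi0 : i ≠ 0) (hj0 : j ≠ 0) : i = j := by
  have key : ∀ k : ZMod n, k + k = 0 → k ≠ 0 → 2 * k.val = n := by
    intro k hk hk0
    have h1 : ((k.val + k.val : ℕ) : ZMod n) = 0 := by
      push_cast
      rw [ZMod.natCast_zmod_val]; exact hk
    rw [ZMod.natCast_eq_zero_iff] at h1
    have h2 : k.val < n := ZMod.val_lt k
    have h3 : 0 < k.val := by
      rcases Nat.eq_zero_or_pos k.val with h | h
      · exact absurd ((ZMod.val_eq_zero k).mp h) hk0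
      · exact h
    obtain ⟨c, hc⟩ := h1
    have hc1 : c = 1 := by
      have hlt : n * c < n * 2 := by omega
      have hpos : n * 0 < n * c := by omega
      have := Nat.lt_of_mul_lt_mul_left hlt
      have := Nat.lt_of_mul_lt_mul_left hpos
      omega
    subst hc1
    omega
  apply ZMod.val_injective
  have := key i hi hi0
  have := key j hj hj0
  omega

theorem mem_zpowers_of_order_two {H : Type*} [Group H] {z : H} (hz : orderOf z = 2) (a : H) :
    a ∈ Subgroup.zpowers z ↔ a = 1 ∨ a = z := by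
  constructor
  · rintro ⟨k, rfl⟩
    show z ^ k = 1 ∨ z ^ k = z
    rw [← zpow_mod_orderOf, hz, Nat.cast_ofNat]
    have h2 : k % 2 = 0 ∨ k % 2 = 1 := by omega
    rcases h2 with h | h
    · left; rw [h]; simp
    · right; rw [h]; simp
  · rintro (rfl | rfl)
    · exact one_mem _
    · exact Subgroup.mem_zpowers _

theorem dih_good_two (z : DihedralGroup 2) (hz : orderOf z = 2) : DihGood (DihedralGroup 2) z := by
  have hcardA : Nat.card (Subgroup.zpowers z) = 2 := by rw [Nat.card_zpowers, hz]
  have hsq : ∀ s : DihedralGroup 2, s * s = 1 := by decide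
  have hcomm : ∀ s a : DihedralGroup 2, s * a * s⁻¹ = a⁻¹ := by decide
  refine ⟨Subgroup.zpowers z, inferInstance, ?_, Subgroup.mem_zpowers z, ?_, ?_, ?_⟩
  · have h := (Subgroup.zpowers z).card_mul_index
    rw [hcardA, DihedralGroup.nat_card] at h
    omega
  · intro a ha _
    exact (mem_zpowers_of_order_two hz a).mp ha
  · intro s hs
    refine ⟨?_, fun a _ => hcomm s a⟩
    have hs1 : s ≠ 1 := fun h => hs (h ▸ one_mem _)
    exact orderOf_eq_prime (by rw [pow_two]; exact hsq s) hs1
  · intro B _ hB hzB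
    have hcardB : Nat.card B = 2 := by
      have h := B.card_mul_index
      rw [hB, DihedralGroup.nat_card] at h
      omega
    symm
    apply Subgroup.eq_of_le_of_card_ge
    · rw [Subgroup.zpowers_le]; exact hzB
    · rw [hcardA, hcardB]

theorem dih_good_ge3 {n : ℕ} (hn : 3 ≤ n) (z : DihedralGroup n) (hz : orderOf z = 2)
    (hzc : ∀ x, x * z = z * x) : DihGood (DihedralGroup n) z := by
  have : NeZero n := ⟨by omega⟩
  have hmemA : ∀ x : DihedralGroup n, x ∈ Subgroup.zpowers (r 1 : DihedralGroup n) ↔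
      ∃ i, x = r i := by
    intro x
    constructor
    · rintro ⟨k, rfl⟩
      exact ⟨_, r_one_zpow k⟩
    · rintro ⟨i, rfl⟩
      refine ⟨(i.val : ℤ), ?_⟩
      show (r 1 : DihedralGroup n) ^ (i.val : ℤ) = r i
      rw [r_one_zpow]
      simp
  have hcardA : Nat.card (Subgroup.zpowers (r 1 : DihedralGroup n)) = n := by
    rw [Nat.card_zpowers, orderOf_r_one]
  have h2ne : (2 : ZMod n) ≠ 0 := by
    intro h
    have h' : ((2 : ℕ) : ZMod n) = 0 := by exact_mod_cast h
    rw [ZMod.natCast_eq_zero_iff] at h'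
    have := Nat.le_of_dvd (by norm_num) h'
    omega
  -- z is a rotation
  obtain ⟨j, rfl⟩ : ∃ j, z = r j := by
    rcases z with j | j
    · exact ⟨j, rfl⟩
    · exfalso
      have h := hzc (r 1)
      rw [r_mul_sr, sr_mul_r] at h
      have h' : j - 1 = j + 1 := by injection h
      apply h2ne
      have : (2 : ZMod n) = (j + 1) - (j - 1) := by ring
      rw [this, h']; ring
  have hj0 : j ≠ 0 := by
    rintro rfl
    rw [r_zero, orderOf_one] at hz
    omega
  have hjj : j + j = 0 := by
    have h := pow_orderOf_eq_one (r j : DihedralGroup n)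
    rw [hz, pow_two, r_mul_r, one_def] at h
    injection h
  refine ⟨Subgroup.zpowers (r 1 : DihedralGroup n), inferInstance, ?_, (hmemA _).mpr ⟨j, rfl⟩,
    ?_, ?_, ?_⟩
  · have h := (Subgroup.zpowers (r 1 : DihedralGroup n)).card_mul_index
    rw [hcardA, DihedralGroup.nat_card] at h
    have hpos : 0 < n := by omega
    have : n * (Subgroup.zpowers (r 1 : DihedralGroup n)).index = n * 2 := by rw [h]; ring
    exact Nat.eq_of_mul_eq_mul_left hpos this
  · intro a ha haa
    obtain ⟨i, rfl⟩ := (hmemA a).mp ha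
    rw [r_mul_r, one_def] at haa
    have hii : i + i = 0 := by injection haa
    by_cases hi0 : i = 0
    · left; rw [hi0, r_zero]
    · right; rw [zmod_two_tors hii hjj hi0 hj0]
  · intro s hs
    rcases s with i | i
    · exact absurd ((hmemA _).mpr ⟨i, rfl⟩) hs
    · refine ⟨orderOf_sr i, ?_⟩
      intro a ha
      obtain ⟨k, rfl⟩ := (hmemA a).mp ha
      rw [inv_sr, sr_mul_r, sr_mul_sr, inv_r]
      congr 1
      ring
  · intro B hBc hB hzB
    have hcardB : Nat.card B = n := by
      have h := B.card_mul_index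
      rw [hB, DihedralGroup.nat_card] at h
      omega
    obtain ⟨b, hb⟩ := hBc.exists_generator
    have hordb : orderOf b = n := by
      rw [orderOf_eq_card_of_forall_mem_zpowers hb, hcardB]
    have hordb' : orderOf (b : DihedralGroup n) = n := by
      rw [Subgroup.orderOf_coe, hordb]
    have hbA : (b : DihedralGroup n) ∈ Subgroup.zpowers (r 1 : DihedralGroup n) := by
      rw [hmemA]
      rcases hbv : (b : DihedralGroup n) with k | k
      · exact ⟨k, rfl⟩
      · exfalso
        rw [hbv, orderOf_sr] at hordb'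
        omega
    apply Subgroup.eq_of_le_of_card_ge
    · intro x hx
      obtain ⟨m, hm⟩ := hb ⟨x, hx⟩
      have hx' : x = (b : DihedralGroup n) ^ m := by
        have := congrArg (Subtype.val) hm
        simpa using this.symm
      rw [hx']
      exact Subgroup.zpow_mem _ hbA m
    · rw [hcardA, hcardB]

theorem dih_transport {D G : Type*} [Group D] [Group G] (f : D →* G)
    (hf : Function.Injective f) (z : D) (h : DihGood D z) :
    ∃ A : Subgroup G, A ≤ f.range ∧ IsCyclic A ∧ A.relIndex f.range = 2 ∧ f z ∈ A ∧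
      (∀ a ∈ A, a * a = 1 → a = 1 ∨ a = f z) ∧
      (∀ s ∈ f.range, s ∉ A → orderOf s = 2 ∧ ∀ a ∈ A, s * a * s⁻¹ = a⁻¹) ∧
      (∀ B : Subgroup G, B ≤ f.range → IsCyclic B → B.relIndex f.range = 2 → f z ∈ B →
        B = A) := by
  obtain ⟨A, hAc, hAi, hzA, hA2, hAinv, hAu⟩ := h
  have hrange : f.range = (⊤ : Subgroup D).map f := (MonoidHom.range_eq_map f)
  refine ⟨A.map f, ?_, ?_, ?_, Subgroup.mem_map_of_mem f hzA, ?_, ?_, ?_⟩
  · rw [hrange]; exact Subgroup.map_mono le_top
  · exact (A.equivMapOfInjective f hf).isCyclic.mp hAc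
  · rw [hrange, Subgroup.relIndex_map_map_of_injective _ _ hf, Subgroup.relIndex_top_right, hAi]
  · rintro _ ⟨a, ha, rfl⟩ haa
    rw [← map_mul, ← map_one f] at haa
    rcases hA2 a ha (hf haa) with h | h
    · left; rw [h, map_one]
    · right; rw [h]
  · rintro _ ⟨s, rfl⟩ hs
    have hsA : s ∉ A := fun h => hs (Subgroup.mem_map_of_mem f h)
    obtain ⟨h1, h2⟩ := hAinv s hsA
    refine ⟨by rw [orderOf_injective f hf, h1], ?_⟩
    rintro _ ⟨a, ha, rfl⟩
    rw [← map_inv, ← map_mul, ← map_mul, h2 a ha, map_inv]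
  · intro B hBr hBc hBi hzB
    have hBmap : (B.comap f).map f = B := Subgroup.map_comap_eq_self hBr
    have hcyc : IsCyclic (B.comap f) := by
      have e := (B.comap f).equivMapOfInjective f hf
      rw [hBmap] at e
      exact e.isCyclic.mpr hBc
    have hidx : (B.comap f).index = 2 := by
      rw [← hBi, ← hBmap, hrange, Subgroup.relIndex_map_map_of_injective _ _ hf,
        Subgroup.relIndex_top_right, hBmap]
    have := hAu (B.comap f) hcyc hidx hzB
    rw [← hBmap, this]

end Cfsg.Agent.Lib.Helper86.BSW2D2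

namespace Cfsg.Agent.Lib.Helper46.BSW

open Cfsg Cfsg.Agent.Lib.Helper86.BSW2D2

universe u

variable {G : Type u} [Group G]

/-! ### Piece D2 : the cyclic subgroup of index 2 of a dihedral 2-group -/
set_option linter.unusedVariables false in
theorem dih_cyclic_sub (S : Subgroup G) [Finite S] (hS2 : IsPGroup 2 S) (n : ℕ) (hn : 2 ≤ n)
    (hS : Nonempty (S ≃* DihedralGroup n)) (t : G) (ht : orderOf t = 2) (htS : t ∈ S)
    (htZ : ∀ s ∈ S, s * t = t * s) :
    ∃ A : Subgroup G, A ≤ S ∧ IsCyclic A ∧ A.relIndex S = 2 ∧ t ∈ A ∧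
      (∀ a ∈ A, a * a = 1 → a = 1 ∨ a = t) ∧
      (∀ s ∈ S, s ∉ A → orderOf s = 2 ∧ ∀ a ∈ A, s * a * s⁻¹ = a⁻¹) ∧
      (∀ B : Subgroup G, B ≤ S → IsCyclic B → B.relIndex S = 2 → t ∈ B → B = A) := by
  obtain ⟨φ⟩ := hS
  set f : DihedralGroup n →* G := S.subtype.comp φ.symm.toMonoidHom with hfdef
  have hf : Function.Injective f := by
    intro x y hxy
    apply φ.symm.injective
    apply Subtype.ext
    exact hxy
  have hrange : f.range = S := by
    ext x
    constructor
    · rintro ⟨d, rfl⟩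
      exact (φ.symm d).2
    · intro hx
      exact ⟨φ ⟨x, hx⟩, by simp [hfdef]⟩
  set z : DihedralGroup n := φ ⟨t, htS⟩ with hzdef
  have hfz : f z = t := by simp [hfdef, hzdef]
  have hz : orderOf z = 2 := by
    rw [← ht, ← hfz, orderOf_injective f hf]
  have hzc : ∀ x, x * z = z * x := by
    intro x
    apply hf
    rw [map_mul, map_mul, hfz]
    exact htZ (f x) (hrange ▸ ⟨x, rfl⟩)
  have hgood : DihGood (DihedralGroup n) z := by
    rcases Nat.lt_or_ge n 3 with h | h
    · have hn2 : n = 2 := by omega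
      subst hn2
      exact dih_good_two z hz
    · exact dih_good_ge3 h z hz hzc
  have := dih_transport f hf z hgood
  rw [hrange, hfz] at this
  exact this

end Cfsg.Agent.Lib.Helper46.BSW
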