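import Mathlib
import Cfsg.Prelude.Def_Characters
import Cfsg.Agent.Lib.Helper4.CharDecomp
import Cfsg.Agent.Lib.Helper4.CharClosure
import Cfsg.Agent.Lib.Helper83.LinearCount
import Cfsg.Agent.Lib.Helper83.Glaub1
import Cfsg.Agent.Lib.Helper20.LinChar

/-!
# Multiplicities of a character vanishing off a commutative factor (helper86)

* `sq_sum_bound`: for naturals `b i` indexed by a type with `p` elements and sum `n`,
  `n ^ 2 + r * (p - r) ≤ p * ∑ b i ^ 2` with `r = n % p`.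
* `mult_dvd`: a character of `C × T` (`C` commutative) vanishing at all `(c, t)` with `t ≠ 1`
  has all multiplicities on `C` divisible by `card T`.
-/

set_option autoImplicit false

namespace Cfsg.Agent.Lib.Helper86.DZ

open Cfsg
open scoped ComplexConjugate

theorem int_mul_pred_nonneg (z : ℤ) : 0 ≤ z * (z - 1) := by
  rcases le_or_gt z 0 with h | h
  · exact mul_nonneg_of_nonpos_of_nonpos h (by linarith)
  · exact mul_nonneg (by linarith) (by linarith)

theorem sq_sum_bound {ι : Type*} [Fintype ι] (b : ι → ℕ) :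
    (∑ i, b i) ^ 2 +
        ((∑ i, b i) % Fintype.card ι) * (Fintype.card ι - (∑ i, b i) % Fintype.card ι)
      ≤ Fintype.card ι * ∑ i, (b i) ^ 2 := by
  classical
  obtain ⟨p, hp⟩ : ∃ p, p = Fintype.card ι := ⟨_, rfl⟩
  obtain ⟨n, hn⟩ : ∃ n, n = ∑ i, b i := ⟨_, rfl⟩
  rw [← hp, ← hn]
  rcases Nat.eq_zero_or_pos p with hp0 | hppos
  · have hemp : IsEmpty ι := Fintype.card_eq_zero_iff.mp (by rw [← hp, hp0])
    have hn0 : n = 0 := by rw [hn]; exact Finset.sum_of_isEmpty _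
    rw [hp0, hn0]; simp
  · obtain ⟨q, hq⟩ : ∃ q, q = n / p := ⟨_, rfl⟩
    obtain ⟨r, hr⟩ : ∃ r, r = n % p := ⟨_, rfl⟩
    rw [← hr]
    have hnqr : n = p * q + r := by rw [hq, hr]; exact (Nat.div_add_mod n p).symm
    have hrp : r < p := by rw [hr]; exact Nat.mod_lt n hppos
    have key : (0:ℤ) ≤ ∑ i, ((b i : ℤ) - q) * ((b i : ℤ) - q - 1) :=
      Finset.sum_nonneg fun i _ => int_mul_pred_nonneg _
    have hexp : ∑ i, ((b i : ℤ) - q) * ((b i : ℤ) - q - 1)
        = (∑ i, (b i : ℤ) ^ 2) - (2 * q + 1) * (∑ i, (b i : ℤ)) + p * ((q:ℤ) * (q + 1)) := by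
      have h1 : ∀ i, ((b i : ℤ) - q) * ((b i : ℤ) - q - 1)
          = (b i : ℤ) ^ 2 - (2 * q + 1) * (b i : ℤ) + (q:ℤ) * (q + 1) := fun i => by ring
      simp only [h1, Finset.sum_add_distrib, Finset.sum_sub_distrib, ← Finset.mul_sum,
        Finset.sum_const, Finset.card_univ, nsmul_eq_mul]
      rw [hp]; ring
    have hnZ : (∑ i, (b i : ℤ)) = (p:ℤ) * q + r := by
      have h2 : ((n : ℕ) : ℤ) = (p:ℤ) * q + r := by rw [hnqr]; push_cast; ring
      rw [← h2, hn]; push_cast; rfl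
    rw [hexp, hnZ] at key
    have hS : ((∑ i, (b i) ^ 2 : ℕ) : ℤ) = ∑ i, (b i : ℤ) ^ 2 := by push_cast; rfl
    have hgoal : ((n ^ 2 + r * (p - r) : ℕ) : ℤ) ≤ ((p * ∑ i, (b i) ^ 2 : ℕ) : ℤ) := by
      rw [Nat.cast_mul, hS, Nat.cast_add, Nat.cast_mul, Nat.cast_sub hrp.le, Nat.cast_pow]
      have h3 : ((n : ℕ) : ℤ) = (p:ℤ) * q + r := by rw [hnqr]; push_cast; ring
      rw [h3]
      have hp' : (0:ℤ) ≤ p := Int.natCast_nonneg p
      nlinarith [mul_nonneg hp' key]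
    exact_mod_cast hgoal

section mult

variable {C T : Type*} [Group C] [Group T] [Fintype C] [Fintype T] [IsMulCommutative C]

theorem mult_dvd [Fintype (IrrCharacter C)] [Fintype (IrrCharacter (C × T))]
    (θ : C × T → ℂ) (hθ : IsCharacter (C × T) θ)
    (hvan : ∀ (c : C) (t : T), t ≠ 1 → θ (c, t) = 0) :
    ∃ b : IrrCharacter C → ℕ, θ (1, 1) = (Nat.card T : ℂ) * ∑ ψ, (b ψ : ℂ) ∧
      ∑ c : C, θ (c, 1) * conj (θ (c, 1)) =
        (Nat.card C : ℂ) * ((Nat.card T : ℂ) ^ 2 * ∑ ψ, (b ψ : ℂ) ^ 2) := by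
  classical
  have hT0 : (Nat.card T : ℂ) ≠ 0 := Nat.cast_ne_zero.mpr Nat.card_pos.ne'
  have hC0 : (Nat.card C : ℂ) ≠ 0 := Nat.cast_ne_zero.mpr Nat.card_pos.ne'
  have hθC : IsCharacter C (fun c => θ (c, 1)) :=
    Helper83.isCharacter_comp_hom (MonoidHom.inl C T) hθ
  obtain ⟨m, hm⟩ := Helper4.exists_decomp_of_isCharacter _ hθC
  have hdiv : ∀ ψ : IrrCharacter C, ∃ k : ℕ, (m ψ : ℂ) = (Nat.card T : ℂ) * k := by
    intro ψ
    have hψ1 : (ψ : C → ℂ) 1 = 1 := Helper83.irr_comm_degree ψ.2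
    obtain ⟨f, hf⟩ := Helper20.exists_hom_of_linear (ψ : C → ℂ)
      (Helper4.isCharacter_of_irr ψ) hψ1
    let ψ' : IrrCharacter (C × T) := ⟨_, Helper83.isIrr_of_hom (f.comp (MonoidHom.fst C T))⟩
    obtain ⟨k, hk⟩ := Helper4.classInner_isCharacter_nat θ hθ ψ'
    refine ⟨k, ?_⟩
    have hmψ : classInner (fun c => θ (c, 1)) (ψ : C → ℂ) = m ψ := by
      rw [hm]; exact Helper4.classInner_sum_irr _ ψ
    have h2 : ∀ c : C, ∑ t : T, θ (c, t) * conj ((ψ' : C × T → ℂ) (c, t))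
        = θ (c, 1) * conj ((ψ : C → ℂ) c) := by
      intro c
      rw [Finset.sum_eq_single (1 : T)]
      · show θ (c, 1) * conj (((f.comp (MonoidHom.fst C T)) (c, 1) : ℂˣ) : ℂ) = _
        rw [MonoidHom.comp_apply, MonoidHom.coe_fst, hf]
      · intro t _ ht
        rw [hvan c t ht, zero_mul]
      · intro h; exact absurd (Finset.mem_univ _) h
    have h1 : classInner θ (ψ' : C × T → ℂ) = (Nat.card T : ℂ)⁻¹ * m ψ := by
      rw [← hmψ]
      unfold classInner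
      rw [Fintype.sum_prod_type, Finset.sum_congr rfl (fun c _ => h2 c), Nat.card_prod,
        Nat.cast_mul, mul_inv]
      ring
    rw [hk] at h1
    rw [h1, ← mul_assoc, mul_inv_cancel₀ hT0, one_mul]
  choose b hb using hdiv
  refine ⟨b, ?_, ?_⟩
  · have h1 := congrFun hm 1
    simp only [Finset.sum_apply, Pi.smul_apply, smul_eq_mul] at h1
    rw [h1, Finset.mul_sum]
    refine Finset.sum_congr rfl fun ψ _ => ?_
    rw [Helper83.irr_comm_degree ψ.2, mul_one, hb]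
  · have h1 : classInner (fun c => θ (c, 1)) (fun c => θ (c, 1))
        = ∑ ψ, (m ψ : ℂ) * conj (m ψ : ℂ) := by
      conv_lhs => rw [hm]
      exact Helper4.classInner_sum_sum_irr _ _
    unfold classInner at h1
    have h2 : ∑ c : C, θ (c, 1) * conj (θ (c, 1))
        = (Nat.card C : ℂ) * ∑ ψ, (m ψ : ℂ) * conj (m ψ : ℂ) := by
      rw [← h1, ← mul_assoc, mul_inv_cancel₀ hC0, one_mul]
    rw [h2, Finset.mul_sum (a := (Nat.card T : ℂ) ^ 2)]
    refine congrArg _ (Finset.sum_congr rfl fun ψ _ => ?_)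
    rw [hb ψ, map_mul, Complex.conj_natCast, Complex.conj_natCast]
    ring

end mult

end Cfsg.Agent.Lib.Helper86.DZ
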