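import Mathlib
import Cfsg.Agent.S0931
import Cfsg.Agent.S0955
import Cfsg.Agent.S4487
import Cfsg.Agent.S0920
import Cfsg.Agent.S0936
import Cfsg.Agent.S0908
import Cfsg.Agent.S0924
import Cfsg.Agent.Lib.Helper83.Linear
import Cfsg.Agent.Lib.Helper22.Cover

/-!
# Blocks with a self-centralizing radical defect group are principal (helper86)
-/

set_option autoImplicit false

namespace Cfsg.Agent.Lib.Helper86.DZ

open Cfsg Cfsg.Agent.Lib.Helper21 Cfsg.Agent.Lib.Helper22 Cfsg.Agent.Lib.Helper83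

/-- If the block of `χ` has a defect group `D` with `C_G(D) ≤ D`, then `χ` lies in the
principal `2`-block. -/
theorem sameBlock_triv_of_defect {G : Type*} [Group G] [Finite G]
    (M : Ideal AlgInt) (hM : IsPModular 2 M) (χ : IrrCharacter G) (D : Subgroup G)
    (hD : IsDefectGroup 2 M (blockOf M (χ : G → ℂ)) D)
    (hcent : Subgroup.centralizer (D : Set G) ≤ D) :
    SameBlock M (χ : G → ℂ) (trivIrr G : G → ℂ) := by
  classical
  have : Fact (Nat.Prime 2) := ⟨Nat.prime_two⟩
  have hB : IsPBlock M (blockOf M (χ : G → ℂ)) := ⟨χ, rfl⟩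
  have hDp : IsPGroup 2 D := isDefectGroup_isPGroup _ D hD
  have hrad := Cfsg.Agent.S0955.result 2 M hM _ hB D hD
  have hcore_eq : Cfsg.pCore 2 ↥(Subgroup.normalizer (D : Set G)) =
      D.subgroupOf (Subgroup.normalizer (D : Set G)) := by
    apply Subgroup.map_injective (Subgroup.subtype_injective (Subgroup.normalizer (D : Set G)))
    rw [hrad, Subgroup.map_subgroupOf_eq_of_le Subgroup.le_normalizer]
  have hconstr : Subgroup.centralizer
      ((Cfsg.pCore 2 ↥(Subgroup.normalizer (D : Set G)) :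
        Subgroup ↥(Subgroup.normalizer (D : Set G))) : Set ↥(Subgroup.normalizer (D : Set G))) ≤
      Cfsg.pCore 2 ↥(Subgroup.normalizer (D : Set G)) := by
    rw [hcore_eq]
    intro n hn
    rw [Subgroup.mem_subgroupOf]
    apply hcent
    rw [Subgroup.mem_centralizer_iff]
    intro d hd
    have hdN : d ∈ Subgroup.normalizer (D : Set G) := Subgroup.le_normalizer hd
    have h1 := (Subgroup.mem_centralizer_iff.mp hn) ⟨d, hdN⟩
      (by rw [SetLike.mem_coe, Subgroup.mem_subgroupOf]; exact hd)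
    exact congrArg Subtype.val h1
  have hcore : Cfsg.pPrimeCore 2 ↥(Subgroup.normalizer (D : Set G)) = ⊥ := by
    unfold Cfsg.pPrimeCore
    rw [sSup_eq_bot]
    rintro K ⟨hKn, hKc⟩
    have hOn : (D.subgroupOf (Subgroup.normalizer (D : Set G))).Normal :=
      Subgroup.normal_in_normalizer
    have hOp : IsPGroup 2 (D.subgroupOf (Subgroup.normalizer (D : Set G))) := hDp.comap_subtype
    have hdisj : Disjoint K (D.subgroupOf (Subgroup.normalizer (D : Set G))) := by
      apply Subgroup.disjoint_of_coprime_natCard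
      obtain ⟨k, hk⟩ := IsPGroup.iff_card.mp hOp
      rw [hk]
      exact Nat.Coprime.pow_right k hKc
    have hKle : K ≤ D.subgroupOf (Subgroup.normalizer (D : Set G)) := by
      intro n hn
      have h1 : n ∈ Subgroup.centralizer
          ((Cfsg.pCore 2 ↥(Subgroup.normalizer (D : Set G)) :
            Subgroup ↥(Subgroup.normalizer (D : Set G))) :
            Set ↥(Subgroup.normalizer (D : Set G))) := by
        rw [hcore_eq, Subgroup.mem_centralizer_iff]
        intro d hd
        exact (Subgroup.commute_of_normal_of_disjoint K _ hKn hOn hdisj n d hn hd).eq.symm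
      have h2 := hconstr h1
      rwa [hcore_eq] at h2
    rw [eq_bot_iff]
    intro n hn
    have h1 : n ∈ K ⊓ D.subgroupOf (Subgroup.normalizer (D : Set G)) := ⟨hn, hKle hn⟩
    rwa [disjoint_iff.mp hdisj] at h1
  have hone : ∀ ξ ξ' : IrrCharacter ↥(Subgroup.normalizer (D : Set G)),
      SameBlock M (ξ : ↥(Subgroup.normalizer (D : Set G)) → ℂ)
        (ξ' : ↥(Subgroup.normalizer (D : Set G)) → ℂ) :=
    fun ξ ξ' => Cfsg.Agent.S4487.result 2 M hM hcore hconstr ξ ξ'
  obtain ⟨b, ⟨hb, hDb, hind⟩, -⟩ := (Cfsg.Agent.S0920.result 2 M hM D hDp).2 _ hB hD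
  obtain ⟨ξ, rfl⟩ := hb
  have hbeq : blockOf M (ξ : ↥(Subgroup.normalizer (D : Set G)) → ℂ) =
      principalBlock M ↥(Subgroup.normalizer (D : Set G)) :=
    blockOf_eq_of_sameBlock hM (hone (trivIrr ↥(Subgroup.normalizer (D : Set G))) ξ)
  have hind2 := (Cfsg.Agent.S0936.result 2 M hM (Subgroup.normalizer (D : Set G)) _
    ⟨_, hind⟩).mpr hbeq
  intro g
  have h1 := hind.2.2 ξ (mem_blockOf_self hM ξ) χ (mem_blockOf_self hM χ) g
  have h2 := hind2.2.2 ξ (mem_blockOf_self hM ξ) (trivIrr G) (mem_blockOf_self hM (trivIrr G)) g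
  have h3 := locIdeal_sub hM h2 h1
  rwa [sub_sub_sub_cancel_left] at h3

end Cfsg.Agent.Lib.Helper86.DZ
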