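import Mathlib
import Cfsg.Agent.Lib.Helper86.DZ3
import Cfsg.Agent.Lib.Helper41.CharCount
import Cfsg.Agent.Lib.Helper83.Codeg
import Cfsg.Agent.Lib.Helper83.IrrBasic
import Cfsg.Agent.Lib.Helper4.CharCore
import Cfsg.Agent.Lib.Helper4.CharClosure

/-!
# No `2`-block of defect zero in a group with the local data of `M₂₄` (helper86)
-/

set_option autoImplicit false

namespace Cfsg.Agent.Lib.Helper86.DZ

open Cfsg Cfsg.Agent.Lib.Helper21 Cfsg.Agent.Lib.Helper22 Cfsg.Agent.Lib.Helper83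
open scoped ComplexConjugate

/-- Lower bound for the contribution of the elements of order `p` to the norm of an
irreducible character vanishing on the elements with nontrivial `2`-part. -/
theorem prime_bound {G : Type*} [Group G] [Fintype G] (χ : IrrCharacter G)
    (hvan : ∀ g t : G, IsPPart 2 g t → t ≠ 1 → (χ : G → ℂ) g = 0)
    {p : ℕ} (hp : p.Prime) (hp2 : p ≠ 2) {x : G} (hx : orderOf x = p) (T : Subgroup G)
    (hT : T ≤ Subgroup.centralizer ({x} : Set G)) {j : ℕ} (hTc : Nat.card T = 2 ^ j)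
    {c I : ℕ}
    (hN : Nat.card ↥(Subgroup.normalizer ((Subgroup.zpowers x : Subgroup G) : Set G)) ≤ c)
    (hI : I * c ≤ Nat.card G) :
    ∃ n : ℕ, charDegree (χ : G → ℂ) = 2 ^ j * n ∧
      ((I * ((2 ^ j) ^ 2 * (n % p * (p - n % p))) : ℕ) : ℝ) ≤
        ∑ y ∈ Finset.univ.filter (fun y : G => orderOf y = p), ‖(χ : G → ℂ) y‖ ^ 2 := by
  classical
  have hcomm : ∀ t ∈ T, Commute t x := fun t ht =>
    ((Subgroup.mem_centralizer_iff.mp (hT ht)) x rfl).symm
  have hv : ∀ k : ℕ, ∀ t ∈ T, t ≠ 1 → (χ : G → ℂ) (x ^ k * t) = 0 := by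
    intro k t ht ht1
    apply hvan (x ^ k * t) t ?_ ht1
    refine ⟨x ^ k, ((hcomm t ht).pow_right k).eq, (hcomm t ht).pow_right k, ?_, ?_⟩
    · have h1 : orderOf t ∣ Nat.card T := Subgroup.orderOf_dvd_natCard T ht
      rw [hTc] at h1
      obtain ⟨m, -, hm⟩ := (Nat.dvd_prime_pow Nat.prime_two).mp h1
      exact ⟨m, hm⟩
    · intro h2
      have h3 : 2 ∣ orderOf x := h2.trans (orderOf_pow_dvd k)
      rw [hx] at h3
      exact hp2 ((Nat.prime_dvd_prime_iff_eq Nat.prime_two hp).mp h3).symm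
  obtain ⟨n, hn1, hn2⟩ := Cfsg.Agent.Lib.Helper41.CharCount.c1
    (Cfsg.Agent.Lib.Helper4.isCharacter_of_irr χ) hp hx T (fun t ht => (hcomm t ht).eq) hv
  have hc2 := Cfsg.Agent.Lib.Helper41.CharCount.c2
    (Cfsg.Agent.Lib.Helper4.isClassFunction_irr χ) hp hx
  refine ⟨n, ?_, ?_⟩
  · have h1 := (irr_degree χ.2).2
    rw [hn1, hTc] at h1
    exact (Nat.cast_injective h1).symm
  · have hcpos : 0 < c := by
      have : 0 < Nat.card
          ↥(Subgroup.normalizer ((Subgroup.zpowers x : Subgroup G) : Set G)) := Nat.card_pos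
      omega
    have hcpos' : (0 : ℝ) < (c : ℝ) := by exact_mod_cast hcpos
    have hN' : (Nat.card ↥(Subgroup.normalizer ((Subgroup.zpowers x : Subgroup G) : Set G)) : ℝ) ≤
        (c : ℝ) := by exact_mod_cast hN
    have hI' : (I : ℝ) * (c : ℝ) ≤ (Nat.card G : ℝ) := by exact_mod_cast hI
    rw [hTc] at hn2
    have hsp : (0 : ℝ) ≤ ∑ y ∈ Finset.univ.filter (fun y : G => orderOf y = p),
        ‖(χ : G → ℂ) y‖ ^ 2 := Finset.sum_nonneg (fun k _ => sq_nonneg _)
    have hA : (0 : ℝ) ≤ ((2 ^ j : ℕ) : ℝ) ^ 2 * (((n % p) * (p - n % p) : ℕ) : ℝ) :=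
      mul_nonneg (sq_nonneg _) (Nat.cast_nonneg _)
    have h3 : ((I * ((2 ^ j) ^ 2 * (n % p * (p - n % p))) : ℕ) : ℝ) =
        (I : ℝ) * (((2 ^ j : ℕ) : ℝ) ^ 2 * (((n % p) * (p - n % p) : ℕ) : ℝ)) := by
      push_cast
      ring
    rw [h3]
    have h4 : (c : ℝ) * ((I : ℝ) * (((2 ^ j : ℕ) : ℝ) ^ 2 * (((n % p) * (p - n % p) : ℕ) : ℝ))) ≤
        (c : ℝ) * ∑ y ∈ Finset.univ.filter (fun y : G => orderOf y = p),
          ‖(χ : G → ℂ) y‖ ^ 2 := by
      calc (c : ℝ) * ((I : ℝ) * (((2 ^ j : ℕ) : ℝ) ^ 2 * (((n % p) * (p - n % p) : ℕ) : ℝ)))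
          = ((I : ℝ) * (c : ℝ)) * (((2 ^ j : ℕ) : ℝ) ^ 2 * (((n % p) * (p - n % p) : ℕ) : ℝ)) := by
            ring
        _ ≤ (Nat.card G : ℝ) * (((2 ^ j : ℕ) : ℝ) ^ 2 * (((n % p) * (p - n % p) : ℕ) : ℝ)) :=
            mul_le_mul_of_nonneg_right hI' hA
        _ ≤ (Nat.card G : ℝ) * ∑ k ∈ Finset.Ico 1 p, ‖(χ : G → ℂ) (x ^ k)‖ ^ 2 :=
            mul_le_mul_of_nonneg_left hn2 (Nat.cast_nonneg _)
        _ ≤ (Nat.card ↥(Subgroup.normalizer ((Subgroup.zpowers x : Subgroup G) : Set G)) : ℝ) *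
              ∑ y ∈ Finset.univ.filter (fun y : G => orderOf y = p), ‖(χ : G → ℂ) y‖ ^ 2 := hc2
        _ ≤ (c : ℝ) * ∑ y ∈ Finset.univ.filter (fun y : G => orderOf y = p),
              ‖(χ : G → ℂ) y‖ ^ 2 := mul_le_mul_of_nonneg_right hN' hsp
    exact le_of_mul_le_mul_left h4 hcpos'

/-- The sum of the squared absolute values of an irreducible character is the group order. -/
theorem sum_norm_sq_irr {G : Type*} [Group G] [Fintype G] (χ : IrrCharacter G) :
    ∑ g : G, ‖(χ : G → ℂ) g‖ ^ 2 = (Nat.card G : ℝ) := by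
  have h := irr_orthonormal χ χ
  rw [if_pos rfl] at h
  unfold classInner at h
  have hne : (Nat.card G : ℂ) ≠ 0 := by
    have : 0 < Nat.card G := Nat.card_pos
    exact_mod_cast this.ne'
  have h2 : ∑ g : G, (χ : G → ℂ) g * conj ((χ : G → ℂ) g) = (Nat.card G : ℂ) := by
    have h3 := congrArg (fun z => (Nat.card G : ℂ) * z) h
    simp only [mul_one] at h3
    rw [← mul_assoc, mul_inv_cancel₀ hne, one_mul] at h3
    exact h3
  apply Complex.ofReal_injective
  rw [Complex.ofReal_sum, Complex.ofReal_natCast, ← h2]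
  push_cast
  apply Finset.sum_congr rfl
  intro g _
  rw [Complex.mul_conj']

/-- Splitting off the contributions of the elements of orders `1, 23, 11, 5, 7`. -/
theorem sum_split {G : Type*} [Group G] [Fintype G] (F : G → ℝ) (hF : ∀ g, 0 ≤ F g) :
    F 1 + ∑ y ∈ Finset.univ.filter (fun y : G => orderOf y = 23), F y
      + ∑ y ∈ Finset.univ.filter (fun y : G => orderOf y = 11), F y
      + ∑ y ∈ Finset.univ.filter (fun y : G => orderOf y = 5), F y
      + ∑ y ∈ Finset.univ.filter (fun y : G => orderOf y = 7), F y ≤ ∑ g : G, F g := by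
  classical
  have h1 : F 1 = ∑ g : G, if orderOf g = 1 then F g else 0 := by
    have : ∀ g : G, (if orderOf g = 1 then F g else 0) = if g = 1 then F g else 0 := by
      intro g
      simp only [orderOf_eq_one_iff]
    rw [Finset.sum_congr rfl (fun g _ => this g), Finset.sum_ite_eq' Finset.univ (1 : G) F,
      if_pos (Finset.mem_univ _)]
  rw [h1, Finset.sum_filter, Finset.sum_filter, Finset.sum_filter, Finset.sum_filter,
    ← Finset.sum_add_distrib, ← Finset.sum_add_distrib, ← Finset.sum_add_distrib,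
    ← Finset.sum_add_distrib]
  apply Finset.sum_le_sum
  intro g _
  have := hF g
  split_ifs <;> first | (exfalso; omega) | linarith

/-- A group of order `|M₂₄|` with the local data below has no `2`-block of defect zero. -/
theorem no_defect_zero {G : Type*} [Group G] [Finite G]
    (hcard : Nat.card G = 244823040)
    (h23 : ∃ x : G, orderOf x = 23 ∧
      Nat.card ↥(Subgroup.normalizer ((Subgroup.zpowers x : Subgroup G) : Set G)) ≤ 253)
    (h11 : ∃ x : G, orderOf x = 11 ∧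
      Nat.card ↥(Subgroup.normalizer ((Subgroup.zpowers x : Subgroup G) : Set G)) ≤ 110)
    (h5 : ∃ (x : G) (T : Subgroup G), orderOf x = 5 ∧
      Nat.card ↥(Subgroup.normalizer ((Subgroup.zpowers x : Subgroup G) : Set G)) ≤ 240 ∧
      T ≤ Subgroup.centralizer ({x} : Set G) ∧ Nat.card T = 4)
    (h7 : ∃ (x : G) (T : Subgroup G), orderOf x = 7 ∧
      Nat.card ↥(Subgroup.normalizer ((Subgroup.zpowers x : Subgroup G) : Set G)) ≤ 126 ∧
      T ≤ Subgroup.centralizer ({x} : Set G) ∧ Nat.card T = 2)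
    (M : Ideal AlgInt) (hM : IsPModular 2 M) (χ : IrrCharacter G)
    (hD : IsDefectGroup 2 M (blockOf M (χ : G → ℂ)) ⊥) : False := by
  classical
  have : Fact (Nat.Prime 2) := ⟨Nat.prime_two⟩
  have := Fintype.ofFinite G
  have hB : IsPBlock M (blockOf M (χ : G → ℂ)) := ⟨χ, rfl⟩
  have h0 := Cfsg.Agent.S0908.result 2 M hM _ hB ⊥ hD
  rw [Subgroup.card_bot] at h0
  have hbd : blockDefect 2 (blockOf M (χ : G → ℂ)) = 0 := by
    rcases Nat.pow_eq_one.mp h0.symm with h | h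
    · omega
    · exact h
  have hall : ∀ D : Subgroup G, IsDefectGroup 2 M (blockOf M (χ : G → ℂ)) D → D = ⊥ := by
    intro D hD'
    have h1 := Cfsg.Agent.S0908.result 2 M hM _ hB D hD'
    rw [hbd, pow_zero] at h1
    exact Subgroup.card_eq_one.mp h1
  have hvan : ∀ g t : G, IsPPart 2 g t → t ≠ 1 → (χ : G → ℂ) g = 0 := by
    intro g t hgt ht
    apply Cfsg.Agent.S0924.result 2 M hM χ g t hgt
    intro D hD' htD
    rw [hall D hD', Subgroup.mem_bot] at htD
    exact ht htD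
  obtain ⟨hdpos, hd1⟩ := irr_degree χ.2
  have hG : (244823040 : ℕ) = 2 ^ 10 * 239085 := by norm_num
  have hfac : (Nat.card G).factorization 2 = 10 := by
    rw [hcard, hG, Nat.factorization_mul (by norm_num) (by norm_num),
      Nat.Prime.factorization_pow Nat.prime_two]
    simp [Nat.factorization_eq_zero_of_not_dvd (show ¬ 2 ∣ 239085 by norm_num)]
  have h10 : 10 ≤ (charDegree (χ : G → ℂ)).factorization 2 := by
    unfold blockDefect at hbd
    rw [hfac] at hbd
    have h1 : sInf ((fun ψ : IrrCharacter G => (charDegree (ψ : G → ℂ)).factorization 2) ''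
        blockOf M (χ : G → ℂ)) ≤ (charDegree (χ : G → ℂ)).factorization 2 :=
      Nat.sInf_le ⟨χ, mem_blockOf_self hM χ, rfl⟩
    omega
  obtain ⟨m, hm⟩ : 2 ^ 10 ∣ charDegree (χ : G → ℂ) :=
    (Nat.Prime.pow_dvd_iff_le_factorization Nat.prime_two hdpos.ne').mpr h10
  have hdG := irr_degree_dvd_card χ
  rw [hcard, hm, hG] at hdG
  have hm' : m ∣ 239085 := Nat.dvd_of_mul_dvd_mul_left (by norm_num) hdG
  have hsum := sum_norm_sq_irr χ
  obtain ⟨x23, hx23, hN23⟩ := h23
  obtain ⟨n23, hn23, hb23⟩ := prime_bound χ hvan (p := 23) (by norm_num) (by norm_num) hx23 ⊥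
    bot_le (j := 0) (by simp) (c := 253) (I := 967680) hN23 (by rw [hcard])
  obtain ⟨x11, hx11, hN11⟩ := h11
  obtain ⟨n11, hn11, hb11⟩ := prime_bound χ hvan (p := 11) (by norm_num) (by norm_num) hx11 ⊥
    bot_le (j := 0) (by simp) (c := 110) (I := 2225664) hN11 (by rw [hcard])
  obtain ⟨x5, T5, hx5, hN5, hT5, hc5⟩ := h5
  obtain ⟨n5, hn5, hb5⟩ := prime_bound χ hvan (p := 5) (by norm_num) (by norm_num) hx5 T5
    hT5 (j := 2) (by rw [hc5]; norm_num) (c := 240) (I := 1020096) hN5 (by rw [hcard])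
  obtain ⟨x7, T7, hx7, hN7, hT7, hc7⟩ := h7
  obtain ⟨n7, hn7, hb7⟩ := prime_bound χ hvan (p := 7) (by norm_num) (by norm_num) hx7 T7
    hT7 (j := 1) (by rw [hc7]; norm_num) (c := 126) (I := 1943040) hN7 (by rw [hcard])
  have e23 : n23 = 1024 * m := by omega
  have e11 : n11 = 1024 * m := by omega
  have e5 : n5 = 256 * m := by omega
  have e7 : n7 = 512 * m := by omega
  subst e23 e11 e5 e7
  have hsp := sum_split (fun g : G => ‖(χ : G → ℂ) g‖ ^ 2) (fun g => sq_nonneg _)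
  simp only at hsp
  have hd2 : ‖(χ : G → ℂ) 1‖ ^ 2 = (((1024 * m) ^ 2 : ℕ) : ℝ) := by
    rw [hd1, hm]
    rw [Complex.norm_natCast]
    push_cast
    ring
  have key : (1024 * m) ^ 2
      + 967680 * ((2 ^ 0) ^ 2 * ((1024 * m) % 23 * (23 - (1024 * m) % 23)))
      + 2225664 * ((2 ^ 0) ^ 2 * ((1024 * m) % 11 * (11 - (1024 * m) % 11)))
      + 1020096 * ((2 ^ 2) ^ 2 * ((256 * m) % 5 * (5 - (256 * m) % 5)))
      + 1943040 * ((2 ^ 1) ^ 2 * ((512 * m) % 7 * (7 - (512 * m) % 7))) ≤ 244823040 := by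
    have h1 : (((1024 * m) ^ 2
      + 967680 * ((2 ^ 0) ^ 2 * ((1024 * m) % 23 * (23 - (1024 * m) % 23)))
      + 2225664 * ((2 ^ 0) ^ 2 * ((1024 * m) % 11 * (11 - (1024 * m) % 11)))
      + 1020096 * ((2 ^ 2) ^ 2 * ((256 * m) % 5 * (5 - (256 * m) % 5)))
      + 1943040 * ((2 ^ 1) ^ 2 * ((512 * m) % 7 * (7 - (512 * m) % 7))) : ℕ) : ℝ) ≤
        ((244823040 : ℕ) : ℝ) := by
      rw [← hcard, ← hsum, Nat.cast_add, Nat.cast_add, Nat.cast_add, Nat.cast_add, ← hd2]
      linarith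
    exact_mod_cast h1
  have hm15 : m ≤ 15 := by
    by_contra hcon
    have h16 : 16 ≤ m := by omega
    have h2 : (1024 * 16) ^ 2 ≤ (1024 * m) ^ 2 :=
      Nat.pow_le_pow_left (Nat.mul_le_mul_left _ h16) 2
    have h3 : (1024 * m) ^ 2 ≤ 244823040 := by
      refine le_trans ?_ key
      simp only [add_assoc]
      exact Nat.le_add_right _ _
    omega
  have hm0 : 0 < m := by
    rcases Nat.eq_zero_or_pos m with h | h
    · rw [h] at hm; omega
    · exact h
  interval_cases m <;> omega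

/-- A group of order `|M₂₄|` with the local data below has a single `2`-block. -/
theorem single_block_of_data {G : Type*} [Group G] [Finite G]
    (hcard : Nat.card G = 244823040)
    (hI : ∀ D : Subgroup G, IsPGroup 2 D → D ≠ ⊥ →
      (Cfsg.pCore 2 ↥(Subgroup.normalizer (D : Set G))).map
        (Subgroup.normalizer (D : Set G)).subtype = D →
      Subgroup.centralizer (D : Set G) ≤ D)
    (h23 : ∃ x : G, orderOf x = 23 ∧
      Nat.card ↥(Subgroup.normalizer ((Subgroup.zpowers x : Subgroup G) : Set G)) ≤ 253)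
    (h11 : ∃ x : G, orderOf x = 11 ∧
      Nat.card ↥(Subgroup.normalizer ((Subgroup.zpowers x : Subgroup G) : Set G)) ≤ 110)
    (h5 : ∃ (x : G) (T : Subgroup G), orderOf x = 5 ∧
      Nat.card ↥(Subgroup.normalizer ((Subgroup.zpowers x : Subgroup G) : Set G)) ≤ 240 ∧
      T ≤ Subgroup.centralizer ({x} : Set G) ∧ Nat.card T = 4)
    (h7 : ∃ (x : G) (T : Subgroup G), orderOf x = 7 ∧
      Nat.card ↥(Subgroup.normalizer ((Subgroup.zpowers x : Subgroup G) : Set G)) ≤ 126 ∧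
      T ≤ Subgroup.centralizer ({x} : Set G) ∧ Nat.card T = 2)
    (M : Ideal AlgInt) (hM : IsPModular 2 M) (χ ψ : IrrCharacter G) :
    SameBlock M (χ : G → ℂ) (ψ : G → ℂ) := by
  classical
  have : Fact (Nat.Prime 2) := ⟨Nat.prime_two⟩
  have key : ∀ φ : IrrCharacter G, SameBlock M (φ : G → ℂ) (trivIrr G : G → ℂ) := by
    intro φ
    obtain ⟨D, hD⟩ := Cfsg.Agent.S0931.exists_defectGroup 2 M hM (blockOf M (φ : G → ℂ))
      ⟨φ, rfl⟩
    by_cases hbot : D = ⊥
    · subst hbot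
      exact (no_defect_zero hcard h23 h11 h5 h7 M hM φ hD).elim
    · exact sameBlock_triv_of_defect M hM φ D hD
        (hI D (isDefectGroup_isPGroup _ D hD) hbot
          (Cfsg.Agent.S0955.result 2 M hM _ ⟨φ, rfl⟩ D hD))
  exact sameBlock_trans hM (key χ) (sameBlock_symm (key ψ))

end Cfsg.Agent.Lib.Helper86.DZ
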