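import Mathlib
import Cfsg.Agent.Lib.Helper86.DZ4
import Cfsg.Agent.Lib.Helper41.CharCount2

/-!
# No `2`-block of defect zero in a group with the local data of `M₂₂` (helper86)
-/

set_option autoImplicit false

namespace Cfsg.Agent.Lib.Helper86.DZ

open Cfsg Cfsg.Agent.Lib.Helper21 Cfsg.Agent.Lib.Helper22 Cfsg.Agent.Lib.Helper83
open scoped ComplexConjugate

/-- From a bound on the powers of `x` to a bound on all elements of order `p`, for a class
function. -/
theorem index_bound {G : Type*} [Group G] [Fintype G] {F : G → ℂ}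
    (hcl : ∀ g h : G, F (h * g * h⁻¹) = F g) {p : ℕ} (hp : p.Prime) {x : G}
    (hx : orderOf x = p) {c I : ℕ}
    (hN : Nat.card ↥(Subgroup.normalizer ((Subgroup.zpowers x : Subgroup G) : Set G)) ≤ c)
    (hI : I * c ≤ Nat.card G) {B : ℝ} (hB0 : 0 ≤ B)
    (hB : B ≤ ∑ k ∈ Finset.Ico 1 p, ‖F (x ^ k)‖ ^ 2) :
    (I : ℝ) * B ≤ ∑ y ∈ Finset.univ.filter (fun y : G => orderOf y = p), ‖F y‖ ^ 2 := by
  classical
  have hc2 := Cfsg.Agent.Lib.Helper41.CharCount.c2 hcl hp hx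
  have hcpos : 0 < c := by
    have : 0 < Nat.card
        ↥(Subgroup.normalizer ((Subgroup.zpowers x : Subgroup G) : Set G)) := Nat.card_pos
    omega
  have hcpos' : (0 : ℝ) < (c : ℝ) := by exact_mod_cast hcpos
  have hN' : (Nat.card ↥(Subgroup.normalizer ((Subgroup.zpowers x : Subgroup G) : Set G)) : ℝ) ≤
      (c : ℝ) := by exact_mod_cast hN
  have hI' : (I : ℝ) * (c : ℝ) ≤ (Nat.card G : ℝ) := by exact_mod_cast hI
  have hsp : (0 : ℝ) ≤ ∑ y ∈ Finset.univ.filter (fun y : G => orderOf y = p), ‖F y‖ ^ 2 :=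
    Finset.sum_nonneg (fun k _ => sq_nonneg _)
  have h4 : (c : ℝ) * ((I : ℝ) * B) ≤
      (c : ℝ) * ∑ y ∈ Finset.univ.filter (fun y : G => orderOf y = p), ‖F y‖ ^ 2 := by
    calc (c : ℝ) * ((I : ℝ) * B) = ((I : ℝ) * (c : ℝ)) * B := by ring
      _ ≤ (Nat.card G : ℝ) * B := mul_le_mul_of_nonneg_right hI' hB0
      _ ≤ (Nat.card G : ℝ) * ∑ k ∈ Finset.Ico 1 p, ‖F (x ^ k)‖ ^ 2 :=
          mul_le_mul_of_nonneg_left hB (Nat.cast_nonneg _)
      _ ≤ (Nat.card ↥(Subgroup.normalizer ((Subgroup.zpowers x : Subgroup G) : Set G)) : ℝ) *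
            ∑ y ∈ Finset.univ.filter (fun y : G => orderOf y = p), ‖F y‖ ^ 2 := hc2
      _ ≤ (c : ℝ) * ∑ y ∈ Finset.univ.filter (fun y : G => orderOf y = p), ‖F y‖ ^ 2 :=
          mul_le_mul_of_nonneg_right hN' hsp
  exact le_of_mul_le_mul_left h4 hcpos'

/-- The values of a nontrivial irreducible character sum to zero. -/
theorem sum_irr_eq_zero {G : Type*} [Group G] [Fintype G] (χ : IrrCharacter G)
    (hne : χ ≠ trivIrr G) : ∑ g : G, (χ : G → ℂ) g = 0 := by
  have h := irr_orthonormal χ (trivIrr G)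
  rw [if_neg hne] at h
  unfold classInner at h
  simp only [trivIrr_apply, map_one, mul_one] at h
  rcases mul_eq_zero.mp h with h1 | h1
  · exfalso
    have : 0 < Nat.card G := Nat.card_pos
    have h2 : (Nat.card G : ℂ) ≠ 0 := by exact_mod_cast this.ne'
    exact (inv_ne_zero h2) h1
  · exact h1

/-- The shifted norm sum of a nontrivial irreducible character. -/
theorem sum_norm_sq_shift {G : Type*} [Group G] [Fintype G] (χ : IrrCharacter G)
    (hne : χ ≠ trivIrr G) :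
    ∑ g : G, ‖(χ : G → ℂ) g - 1 / 2‖ ^ 2 = (Nat.card G : ℝ) + (Nat.card G : ℝ) / 4 := by
  have h1 : ∀ g : G, ‖(χ : G → ℂ) g - 1 / 2‖ ^ 2 =
      ‖(χ : G → ℂ) g‖ ^ 2 - ((χ : G → ℂ) g).re + 1 / 4 := by
    intro g
    rw [Complex.sq_norm, Complex.sq_norm, Complex.normSq_apply, Complex.normSq_apply]
    have e1 : ((χ : G → ℂ) g - 1 / 2).re = ((χ : G → ℂ) g).re - 1 / 2 := by
      simp
    have e2 : ((χ : G → ℂ) g - 1 / 2).im = ((χ : G → ℂ) g).im := by
      simp
    rw [e1, e2]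
    ring
  rw [Finset.sum_congr rfl (fun g _ => h1 g), Finset.sum_add_distrib, Finset.sum_sub_distrib,
    sum_norm_sq_irr χ, ← Complex.re_sum, sum_irr_eq_zero χ hne]
  simp only [Complex.zero_re, sub_zero, Finset.sum_const, Finset.card_univ, nsmul_eq_mul]
  rw [Nat.card_eq_fintype_card]
  ring

/-- Splitting off the contributions of the elements of orders `1, 11, 7, 5`. -/
theorem sum_split3 {G : Type*} [Group G] [Fintype G] (F : G → ℝ) (hF : ∀ g, 0 ≤ F g) :
    F 1 + ∑ y ∈ Finset.univ.filter (fun y : G => orderOf y = 11), F y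
      + ∑ y ∈ Finset.univ.filter (fun y : G => orderOf y = 7), F y
      + ∑ y ∈ Finset.univ.filter (fun y : G => orderOf y = 5), F y ≤ ∑ g : G, F g := by
  classical
  have h1 : F 1 = ∑ g : G, if orderOf g = 1 then F g else 0 := by
    have : ∀ g : G, (if orderOf g = 1 then F g else 0) = if g = 1 then F g else 0 := by
      intro g
      simp only [orderOf_eq_one_iff]
    rw [Finset.sum_congr rfl (fun g _ => this g), Finset.sum_ite_eq' Finset.univ (1 : G) F,
      if_pos (Finset.mem_univ _)]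
  rw [h1, Finset.sum_filter, Finset.sum_filter, Finset.sum_filter,
    ← Finset.sum_add_distrib, ← Finset.sum_add_distrib, ← Finset.sum_add_distrib]
  apply Finset.sum_le_sum
  intro g _
  have := hF g
  split_ifs <;> first | (exfalso; omega) | linarith

/-- A group of order `|M₂₂|` with the local data below has no `2`-block of defect zero. -/
theorem no_defect_zero22 {G : Type*} [Group G] [Finite G]
    (hcard : Nat.card G = 443520)
    (h11 : ∃ x : G, orderOf x = 11 ∧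
      Nat.card ↥(Subgroup.normalizer ((Subgroup.zpowers x : Subgroup G) : Set G)) ≤ 55)
    (h7 : ∃ x : G, orderOf x = 7 ∧
      Nat.card ↥(Subgroup.normalizer ((Subgroup.zpowers x : Subgroup G) : Set G)) ≤ 21)
    (h5 : ∃ x g : G, orderOf x = 5 ∧
      Nat.card ↥(Subgroup.normalizer ((Subgroup.zpowers x : Subgroup G) : Set G)) ≤ 20 ∧
      g * x * g⁻¹ = x ^ 2)
    (M : Ideal AlgInt) (hM : IsPModular 2 M) (χ : IrrCharacter G)
    (hD : IsDefectGroup 2 M (blockOf M (χ : G → ℂ)) ⊥) : False := by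
  classical
  have : Fact (Nat.Prime 2) := ⟨Nat.prime_two⟩
  have := Fintype.ofFinite G
  have hB : IsPBlock M (blockOf M (χ : G → ℂ)) := ⟨χ, rfl⟩
  have h0 := Cfsg.Agent.S0908.result 2 M hM _ hB ⊥ hD
  rw [Subgroup.card_bot] at h0
  have hbd : blockDefect 2 (blockOf M (χ : G → ℂ)) = 0 := by
    rcases Nat.pow_eq_one.mp h0.symm with h | h
    · omega
    · exact h
  have hall : ∀ D : Subgroup G, IsDefectGroup 2 M (blockOf M (χ : G → ℂ)) D → D = ⊥ := by
    intro D hD'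
    have h1 := Cfsg.Agent.S0908.result 2 M hM _ hB D hD'
    rw [hbd, pow_zero] at h1
    exact Subgroup.card_eq_one.mp h1
  have hvan : ∀ g t : G, IsPPart 2 g t → t ≠ 1 → (χ : G → ℂ) g = 0 := by
    intro g t hgt ht
    apply Cfsg.Agent.S0924.result 2 M hM χ g t hgt
    intro D hD' htD
    rw [hall D hD', Subgroup.mem_bot] at htD
    exact ht htD
  obtain ⟨hdpos, hd1⟩ := irr_degree χ.2
  have hG : (443520 : ℕ) = 2 ^ 7 * 3465 := by norm_num
  have hfac : (Nat.card G).factorization 2 = 7 := by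
    rw [hcard, hG, Nat.factorization_mul (by norm_num) (by norm_num),
      Nat.Prime.factorization_pow Nat.prime_two]
    simp [Nat.factorization_eq_zero_of_not_dvd (show ¬ 2 ∣ 3465 by norm_num)]
  have h7' : 7 ≤ (charDegree (χ : G → ℂ)).factorization 2 := by
    unfold blockDefect at hbd
    rw [hfac] at hbd
    have h1 : sInf ((fun ψ : IrrCharacter G => (charDegree (ψ : G → ℂ)).factorization 2) ''
        blockOf M (χ : G → ℂ)) ≤ (charDegree (χ : G → ℂ)).factorization 2 :=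
      Nat.sInf_le ⟨χ, mem_blockOf_self hM χ, rfl⟩
    omega
  obtain ⟨m, hm⟩ : 2 ^ 7 ∣ charDegree (χ : G → ℂ) :=
    (Nat.Prime.pow_dvd_iff_le_factorization Nat.prime_two hdpos.ne').mpr h7'
  have hdG := irr_degree_dvd_card χ
  rw [hcard, hm, hG] at hdG
  have hm' : m ∣ 3465 := Nat.dvd_of_mul_dvd_mul_left (by norm_num) hdG
  have hsum := sum_norm_sq_irr χ
  obtain ⟨x11, hx11, hN11⟩ := h11
  obtain ⟨x7, hx7, hN7⟩ := h7
  obtain ⟨x5, g5, hx5, hN5, hg5⟩ := h5
  obtain ⟨n11, hn11, hb11⟩ := prime_bound χ hvan (p := 11) (by norm_num) (by norm_num) hx11 ⊥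
    bot_le (j := 0) (by simp) (c := 55) (I := 8064) hN11 (by rw [hcard])
  obtain ⟨n7, hn7, hb7⟩ := prime_bound χ hvan (p := 7) (by norm_num) (by norm_num) hx7 ⊥
    bot_le (j := 0) (by simp) (c := 21) (I := 21120) hN7 (by rw [hcard])
  obtain ⟨n5, hn5, hb5⟩ := prime_bound χ hvan (p := 5) (by norm_num) (by norm_num) hx5 ⊥
    bot_le (j := 0) (by simp) (c := 20) (I := 22176) hN5 (by rw [hcard])
  have e11 : n11 = 128 * m := by omega
  have e7 : n7 = 128 * m := by omega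
  have e5 : n5 = 128 * m := by omega
  subst e11 e7 e5
  have hsp := sum_split3 (fun g : G => ‖(χ : G → ℂ) g‖ ^ 2) (fun g => sq_nonneg _)
  simp only at hsp
  have hd2 : ‖(χ : G → ℂ) 1‖ ^ 2 = (((128 * m) ^ 2 : ℕ) : ℝ) := by
    rw [hd1, hm]
    rw [Complex.norm_natCast]
    push_cast
    ring
  have key : (128 * m) ^ 2
      + 8064 * ((2 ^ 0) ^ 2 * ((128 * m) % 11 * (11 - (128 * m) % 11)))
      + 21120 * ((2 ^ 0) ^ 2 * ((128 * m) % 7 * (7 - (128 * m) % 7)))
      + 22176 * ((2 ^ 0) ^ 2 * ((128 * m) % 5 * (5 - (128 * m) % 5))) ≤ 443520 := by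
    have h1 : (((128 * m) ^ 2
      + 8064 * ((2 ^ 0) ^ 2 * ((128 * m) % 11 * (11 - (128 * m) % 11)))
      + 21120 * ((2 ^ 0) ^ 2 * ((128 * m) % 7 * (7 - (128 * m) % 7)))
      + 22176 * ((2 ^ 0) ^ 2 * ((128 * m) % 5 * (5 - (128 * m) % 5))) : ℕ) : ℝ) ≤
        ((443520 : ℕ) : ℝ) := by
      rw [← hcard, ← hsum, Nat.cast_add, Nat.cast_add, Nat.cast_add, ← hd2]
      linarith
    exact_mod_cast h1
  have hm5 : m ≤ 5 := by
    by_contra hcon
    have h6 : 6 ≤ m := by omega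
    have h2 : (128 * 6) ^ 2 ≤ (128 * m) ^ 2 :=
      Nat.pow_le_pow_left (Nat.mul_le_mul_left _ h6) 2
    have h3 : (128 * m) ^ 2 ≤ 443520 := by
      refine le_trans ?_ key
      simp only [add_assoc]
      exact Nat.le_add_right _ _
    omega
  have hm0 : 0 < m := by
    rcases Nat.eq_zero_or_pos m with h | h
    · rw [h] at hm; omega
    · exact h
  have hm3 : m = 3 := by
    interval_cases m <;> omega
  subst hm3
  -- the case of degree `384`: shift by `1 / 2`
  have hne : χ ≠ trivIrr G := by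
    intro h
    have h1 : (χ : G → ℂ) 1 = 1 := by rw [h]; rfl
    rw [hd1, hm] at h1
    have h2 : ((2 ^ 7 * 3 : ℕ) : ℂ) = ((1 : ℕ) : ℂ) := by rw [h1]; simp
    have h3 := Nat.cast_injective h2
    omega
  have hshift := sum_norm_sq_shift χ hne
  have hchar := Cfsg.Agent.Lib.Helper4.isCharacter_of_irr χ
  have hcl : ∀ g h : G, (fun g : G => (χ : G → ℂ) g - 1 / 2) (h * g * h⁻¹) =
      (fun g : G => (χ : G → ℂ) g - 1 / 2) g := by
    intro g h
    show (χ : G → ℂ) (h * g * h⁻¹) - 1 / 2 = (χ : G → ℂ) g - 1 / 2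
    rw [Cfsg.Agent.Lib.Helper4.isClassFunction_irr χ g h]
  have hQ11 : (χ : G → ℂ) 1 = ((11 * 35 : ℕ) : ℂ) - 1 := by
    rw [hd1, hm]; push_cast; norm_num
  have hQ7 : (χ : G → ℂ) 1 = ((7 * 55 : ℕ) : ℂ) - 1 := by
    rw [hd1, hm]; push_cast; norm_num
  have hQ5 : (χ : G → ℂ) 1 = ((5 * 77 : ℕ) : ℂ) - 1 := by
    rw [hd1, hm]; push_cast; norm_num
  have hl11 := Cfsg.Agent.Lib.Helper41.CharCount.c1L hchar (p := 11) (by norm_num) hx11 hQ11
  have hl7 := Cfsg.Agent.Lib.Helper41.CharCount.c1L hchar (p := 7) (by norm_num) hx7 hQ7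
  have hl5 := Cfsg.Agent.Lib.Helper41.CharCount.l5 hchar hx5 hg5 hQ5
  have hs11 := index_bound (F := fun g : G => (χ : G → ℂ) g - 1 / 2) hcl (p := 11) (by norm_num) hx11 (c := 55) (I := 8064) hN11
    (by rw [hcard]) (B := (5 * ((11 : ℕ) : ℝ) - 9) / 4) (by norm_num) hl11
  have hs7 := index_bound (F := fun g : G => (χ : G → ℂ) g - 1 / 2) hcl (p := 7) (by norm_num) hx7 (c := 21) (I := 21120) hN7
    (by rw [hcard]) (B := (5 * ((7 : ℕ) : ℝ) - 9) / 4) (by norm_num) hl7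
  have hs5 := index_bound (F := fun g : G => (χ : G → ℂ) g - 1 / 2) hcl (p := 5) (by norm_num) hx5 (c := 20) (I := 22176) hN5
    (by rw [hcard]) (B := 9) (by norm_num) hl5
  have hsp2 := sum_split3 (fun g : G => ‖(χ : G → ℂ) g - 1 / 2‖ ^ 2) (fun g => sq_nonneg _)
  simp only at hsp2 hs11 hs7 hs5
  have hF1 : ‖(χ : G → ℂ) 1 - 1 / 2‖ ^ 2 = (767 / 2 : ℝ) ^ 2 := by
    rw [hd1, hm]
    have : (((2 ^ 7 * 3 : ℕ) : ℂ) - 1 / 2) = ((767 / 2 : ℝ) : ℂ) := by
      push_cast; norm_num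
    rw [this, Complex.norm_real, Real.norm_eq_abs, sq_abs]
  rw [hshift, hcard, hF1] at hsp2
  norm_num at hsp2 hs11 hs7 hs5
  linarith

/-- A group of order `|M₂₂|` with the local data below has a single `2`-block. -/
theorem single_block_of_data22 {G : Type*} [Group G] [Finite G]
    (hcard : Nat.card G = 443520)
    (hI : ∀ D : Subgroup G, IsPGroup 2 D → D ≠ ⊥ →
      (Cfsg.pCore 2 ↥(Subgroup.normalizer (D : Set G))).map
        (Subgroup.normalizer (D : Set G)).subtype = D →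
      Subgroup.centralizer (D : Set G) ≤ D)
    (h11 : ∃ x : G, orderOf x = 11 ∧
      Nat.card ↥(Subgroup.normalizer ((Subgroup.zpowers x : Subgroup G) : Set G)) ≤ 55)
    (h7 : ∃ x : G, orderOf x = 7 ∧
      Nat.card ↥(Subgroup.normalizer ((Subgroup.zpowers x : Subgroup G) : Set G)) ≤ 21)
    (h5 : ∃ x g : G, orderOf x = 5 ∧
      Nat.card ↥(Subgroup.normalizer ((Subgroup.zpowers x : Subgroup G) : Set G)) ≤ 20 ∧
      g * x * g⁻¹ = x ^ 2)
    (M : Ideal AlgInt) (hM : IsPModular 2 M) (χ ψ : IrrCharacter G) :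
    SameBlock M (χ : G → ℂ) (ψ : G → ℂ) := by
  classical
  have : Fact (Nat.Prime 2) := ⟨Nat.prime_two⟩
  have key : ∀ φ : IrrCharacter G, SameBlock M (φ : G → ℂ) (trivIrr G : G → ℂ) := by
    intro φ
    obtain ⟨D, hD⟩ := Cfsg.Agent.S0931.exists_defectGroup 2 M hM (blockOf M (φ : G → ℂ))
      ⟨φ, rfl⟩
    by_cases hbot : D = ⊥
    · subst hbot
      exact (no_defect_zero22 hcard h11 h7 h5 M hM φ hD).elim
    · exact sameBlock_triv_of_defect M hM φ D hD
        (hI D (isDefectGroup_isPGroup _ D hD) hbot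
          (Cfsg.Agent.S0955.result 2 M hM _ ⟨φ, rfl⟩ D hD))
  exact sameBlock_trans hM (key χ) (sameBlock_symm (key ψ))

end Cfsg.Agent.Lib.Helper86.DZ
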