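import Mathlib

/-!
# S3786, piece MIN2 (helper86 project HH)

A `p`-subgroup `S` (`p` odd) normalizing a `2`-subgroup `T`, `c ∈ S` not centralizing `T`.
Take `T0 ≤ T` minimal among the `S`-invariant subgroups not centralized by `c`. Then commutators
and squares of `T0` are central in `T0`.

Proof: let `D` be the normal closure of `c` in `S` (a `p`-group normalizing `T0`). Every proper
`S`-invariant subgroup of `T0` is centralized by `c`, hence by `D`. `[T0, D]` is `S`-invariant; if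
it were proper, `[T0, D, D] = 1`, so `[T0, D] = 1` (coprime action), contradiction; so
`T0 = [T0, D]`. The subgroup `Φ` generated by squares and commutators of `T0` is characteristic
and proper (`T0 ≠ 1` is a `2`-group), so `D` centralizes `Φ`; three subgroups lemma
(`[Φ, T0, D] = 1 = [D, Φ, T0]`) gives `[T0, D, Φ] = [T0, Φ] = 1`.
-/

set_option autoImplicit false

namespace Cfsg.Agent.Lib.Helper86.HH

universe u

/-- coprime action: if the commutators `[t, d]` commute with `d`, then a `2`-group is centralized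
by a `p`-group (`p` odd) normalizing it. -/
theorem min2_coprime {H : Type u} [Group H] {p : ℕ} [Fact p.Prime] (hp2 : p ≠ 2)
    (T0 D : Subgroup H) (hT : IsPGroup 2 T0) (hD : IsPGroup p D)
    (hnorm : ∀ d ∈ D, ∀ t ∈ T0, d * t * d⁻¹ ∈ T0)
    (hcc : ∀ t ∈ T0, ∀ d ∈ D, (t * d * t⁻¹ * d⁻¹) * d = d * (t * d * t⁻¹ * d⁻¹)) :
    ∀ t ∈ T0, ∀ d ∈ D, t * d = d * t := by
  intro t ht d hd
  have huT : t * d * t⁻¹ * d⁻¹ ∈ T0 := by
    have h1 := hnorm d hd t⁻¹ (T0.inv_mem ht)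
    have h2 := T0.mul_mem ht h1
    have h3 : t * (d * t⁻¹ * d⁻¹) = t * d * t⁻¹ * d⁻¹ := by group
    rw [h3] at h2; exact h2
  obtain ⟨k, hk⟩ := hT ⟨t * d * t⁻¹ * d⁻¹, huT⟩
  obtain ⟨m, hm⟩ := hD ⟨d, hd⟩
  have hk' : (t * d * t⁻¹ * d⁻¹) ^ 2 ^ k = 1 := by
    have := congrArg Subtype.val hk
    simpa using this
  have hm' : d ^ p ^ m = 1 := by
    have := congrArg Subtype.val hm
    simpa using this
  have hcomm : Commute (t * d * t⁻¹ * d⁻¹) d := hcc t ht d hd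
  have h1 : (t * d * t⁻¹ * d⁻¹ * d) ^ p ^ m = (t * d * t⁻¹ * d⁻¹) ^ p ^ m * d ^ p ^ m :=
    hcomm.mul_pow _
  have h2 : t * d * t⁻¹ * d⁻¹ * d = t * d * t⁻¹ := by group
  rw [h2, conj_pow, hm'] at h1
  have h3 : (t * d * t⁻¹ * d⁻¹) ^ p ^ m = 1 := by
    rw [mul_one, mul_one, mul_inv_cancel] at h1
    exact h1.symm
  have hcop : Nat.Coprime (p ^ m) (2 ^ k) :=
    Nat.Coprime.pow _ _ ((Nat.coprime_primes (Fact.out : p.Prime) Nat.prime_two).mpr hp2)
  have h4 : orderOf (t * d * t⁻¹ * d⁻¹) ∣ Nat.gcd (p ^ m) (2 ^ k) :=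
    Nat.dvd_gcd (orderOf_dvd_of_pow_eq_one h3) (orderOf_dvd_of_pow_eq_one hk')
  rw [hcop] at h4
  have h5 : t * d * t⁻¹ * d⁻¹ = 1 := orderOf_eq_one_iff.mp (Nat.dvd_one.mp h4)
  calc t * d = (t * d * t⁻¹ * d⁻¹) * (d * t) := by group
    _ = d * t := by rw [h5, one_mul]

/-- the generators of the "Frattini" subgroup: squares and commutators -/
def min2Gens {H : Type u} [Group H] (T0 : Subgroup H) : Set H :=
  {x | (∃ a ∈ T0, x = a ^ 2) ∨ (∃ a ∈ T0, ∃ b ∈ T0, x = a * b * a⁻¹ * b⁻¹)}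

theorem min2_phi_le {H : Type u} [Group H] (T0 : Subgroup H) :
    Subgroup.closure (min2Gens T0) ≤ T0 := by
  rw [Subgroup.closure_le]
  rintro x (⟨a, ha, rfl⟩ | ⟨a, ha, b, hb, rfl⟩)
  · exact T0.pow_mem ha 2
  · exact T0.mul_mem (T0.mul_mem (T0.mul_mem ha hb) (T0.inv_mem ha)) (T0.inv_mem hb)

theorem min2_phi_conj {H : Type u} [Group H] (T0 : Subgroup H) (g : H)
    (hg : ∀ t ∈ T0, g * t * g⁻¹ ∈ T0) :
    ∀ x ∈ Subgroup.closure (min2Gens T0), g * x * g⁻¹ ∈ Subgroup.closure (min2Gens T0) := by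
  intro x hx
  refine Subgroup.closure_induction (p := fun x _ => g * x * g⁻¹ ∈ Subgroup.closure (min2Gens T0))
    ?_ ?_ ?_ ?_ hx
  · rintro y (⟨a, ha, rfl⟩ | ⟨a, ha, b, hb, rfl⟩)
    · apply Subgroup.subset_closure
      left
      exact ⟨g * a * g⁻¹, hg a ha, (conj_pow).symm⟩
    · apply Subgroup.subset_closure
      right
      refine ⟨g * a * g⁻¹, hg a ha, g * b * g⁻¹, hg b hb, ?_⟩
      group
  · simp
  · intro y z _ _ hy hz
    have : g * (y * z) * g⁻¹ = (g * y * g⁻¹) * (g * z * g⁻¹) := by group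
    rw [this]
    exact Subgroup.mul_mem _ hy hz
  · intro y _ hy
    have : g * y⁻¹ * g⁻¹ = (g * y * g⁻¹)⁻¹ := by group
    rw [this]
    exact Subgroup.inv_mem _ hy

theorem min2_phi_ne {H : Type u} [Group H] [Finite H] (T0 : Subgroup H) (hT : IsPGroup 2 T0)
    (hnt : ∃ t ∈ T0, t ≠ 1) : Subgroup.closure (min2Gens T0) ≠ T0 := by
  haveI : Fact (Nat.Prime 2) := ⟨Nat.prime_two⟩
  obtain ⟨n, hn⟩ := IsPGroup.iff_card.mp hT
  obtain ⟨t, ht, ht1⟩ := hnt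
  have hn0 : n ≠ 0 := by
    rintro rfl
    rw [pow_zero] at hn
    have hsub : Subsingleton T0 := (Nat.card_eq_one_iff_unique.mp hn).1
    have := Subsingleton.elim (⟨t, ht⟩ : T0) 1
    exact ht1 (congrArg Subtype.val this)
  obtain ⟨N', hN'⟩ := Sylow.exists_subgroup_card_pow_prime (G := T0) 2 (n := n - 1)
    (by rw [hn]; exact pow_dvd_pow 2 (Nat.sub_le n 1))
  have hidx : N'.index = 2 := by
    have h1 := Subgroup.card_mul_index N'
    rw [hN', hn] at h1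
    have h2 : 2 ^ n = 2 ^ (n - 1) * 2 := by
      rw [← pow_succ]; congr 1; omega
    rw [h2] at h1
    exact Nat.eq_of_mul_eq_mul_left (by positivity) h1
  intro hEq
  have hle : Subgroup.closure (min2Gens T0) ≤ N'.map T0.subtype := by
    rw [Subgroup.closure_le]
    rintro x (⟨a, ha, rfl⟩ | ⟨a, ha, b, hb, rfl⟩)
    · refine Subgroup.mem_map.mpr ⟨(⟨a, ha⟩ : T0) ^ 2, Subgroup.sq_mem_of_index_two hidx _, ?_⟩
      simp
    · refine Subgroup.mem_map.mpr ⟨(⟨a, ha⟩ : T0) * ⟨b, hb⟩ * (⟨a, ha⟩ : T0)⁻¹ * (⟨b, hb⟩ : T0)⁻¹,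
        ?_, ?_⟩
      · rw [mul_assoc, Subgroup.mul_mem_iff_of_index_two hidx,
          Subgroup.mul_mem_iff_of_index_two hidx, Subgroup.mul_mem_iff_of_index_two hidx,
          Subgroup.inv_mem_iff, Subgroup.inv_mem_iff]
      · simp
  rw [hEq] at hle
  have htop : N' = ⊤ := by
    rw [eq_top_iff]
    intro x _
    obtain ⟨y, hy, hyx⟩ := Subgroup.mem_map.mp (hle x.2)
    have : y = x := Subtype.ext hyx
    exact this ▸ hy
  rw [htop, Subgroup.index_top] at hidx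
  omega

theorem min_two {H : Type u} [Group H] [Finite H] {p : ℕ} [Fact p.Prime] (hp2 : p ≠ 2)
    (T S : Subgroup H) (hT : IsPGroup 2 T) (hS : IsPGroup p S)
    (hST : ∀ s ∈ S, ∀ t ∈ T, s * t * s⁻¹ ∈ T)
    (c : H) (hcS : c ∈ S) (hc : ∃ t ∈ T, c * t ≠ t * c) :
    ∃ T0 : Subgroup H, T0 ≤ T ∧ (∀ s ∈ S, ∀ t ∈ T0, s * t * s⁻¹ ∈ T0) ∧
      (∃ t ∈ T0, c * t ≠ t * c) ∧
      (∀ a ∈ T0, ∀ b ∈ T0, ∀ t ∈ T0, (a * b * a⁻¹ * b⁻¹) * t = t * (a * b * a⁻¹ * b⁻¹)) ∧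
      (∀ a ∈ T0, ∀ t ∈ T0, a ^ 2 * t = t * a ^ 2) := by
  classical
  obtain ⟨T0, hT0⟩ := exists_minimal_of_wellFoundedLT
    (fun T0 : Subgroup H => T0 ≤ T ∧ (∀ s ∈ S, ∀ t ∈ T0, s * t * s⁻¹ ∈ T0) ∧
      (∃ t ∈ T0, c * t ≠ t * c)) ⟨T, le_rfl, hST, hc⟩
  obtain ⟨⟨hT0T, hT0S, hT0c⟩, hmin⟩ := hT0
  have hT02 : IsPGroup 2 T0 := hT.to_le hT0T
  have hkey : ∀ T1 : Subgroup H, T1 ≤ T0 → T1 ≠ T0 →
      (∀ s ∈ S, ∀ t ∈ T1, s * t * s⁻¹ ∈ T1) → ∀ t ∈ T1, c * t = t * c := by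
    intro T1 h1 h2 h3 t ht
    by_contra hne
    exact h2 (le_antisymm h1 (hmin ⟨h1.trans hT0T, h3, ⟨t, ht, hne⟩⟩ h1))
  -- the normal closure of `c` in `S`
  obtain ⟨D, hDdef⟩ : ∃ D : Subgroup H, D = Subgroup.closure {x | ∃ s ∈ S, x = s * c * s⁻¹} :=
    ⟨_, rfl⟩
  have hDS : D ≤ S := by
    rw [hDdef, Subgroup.closure_le]
    rintro x ⟨s, hs, rfl⟩
    exact S.mul_mem (S.mul_mem hs hcS) (S.inv_mem hs)
  have hcD : c ∈ D := by
    rw [hDdef]
    apply Subgroup.subset_closure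
    exact ⟨1, S.one_mem, by group⟩
  have hDp : IsPGroup p D := hS.to_le hDS
  have hDinv : ∀ s ∈ S, ∀ d ∈ D, s * d * s⁻¹ ∈ D := by
    intro s hs d hd
    rw [hDdef] at hd ⊢
    refine Subgroup.closure_induction
      (p := fun x _ => s * x * s⁻¹ ∈ Subgroup.closure {x | ∃ s ∈ S, x = s * c * s⁻¹}) ?_ ?_ ?_ ?_ hd
    · rintro y ⟨s', hs', rfl⟩
      apply Subgroup.subset_closure
      exact ⟨s * s', S.mul_mem hs hs', by group⟩
    · simp
    · intro y z _ _ hy hz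
      have : s * (y * z) * s⁻¹ = (s * y * s⁻¹) * (s * z * s⁻¹) := by group
      rw [this]
      exact Subgroup.mul_mem _ hy hz
    · intro y _ hy
      have : s * y⁻¹ * s⁻¹ = (s * y * s⁻¹)⁻¹ := by group
      rw [this]
      exact Subgroup.inv_mem _ hy
  have hDT0 : ∀ d ∈ D, ∀ t ∈ T0, d * t * d⁻¹ ∈ T0 := fun d hd t ht => hT0S d (hDS hd) t ht
  have hDcent : ∀ T1 : Subgroup H, T1 ≤ T0 → T1 ≠ T0 →
      (∀ s ∈ S, ∀ t ∈ T1, s * t * s⁻¹ ∈ T1) → ∀ d ∈ D, ∀ t ∈ T1, d * t = t * d := by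
    intro T1 h1 h2 h3
    have hle : D ≤ Subgroup.centralizer (T1 : Set H) := by
      rw [hDdef, Subgroup.closure_le]
      rintro x ⟨s, hs, rfl⟩
      rw [SetLike.mem_coe, Subgroup.mem_centralizer_iff]
      intro t ht
      have h4 := h3 s⁻¹ (S.inv_mem hs) t ht
      rw [inv_inv] at h4
      have h5 := hkey T1 h1 h2 h3 _ h4
      calc t * (s * c * s⁻¹) = s * ((s⁻¹ * t * s) * c) * s⁻¹ := by group
        _ = s * (c * (s⁻¹ * t * s)) * s⁻¹ := by rw [h5]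
        _ = s * c * s⁻¹ * t := by group
    intro d hd t ht
    have := hle hd
    rw [Subgroup.mem_centralizer_iff] at this
    exact (this t ht).symm
  -- `[T0, D] = T0`
  have hcomle : ⁅T0, D⁆ ≤ T0 := by
    rw [Subgroup.commutator_le]
    intro t ht d hd
    have h1 := hDT0 d hd t⁻¹ (T0.inv_mem ht)
    have h2 := T0.mul_mem ht h1
    rw [commutatorElement_def]
    have h3 : t * (d * t⁻¹ * d⁻¹) = t * d * t⁻¹ * d⁻¹ := by group
    rw [h3] at h2; exact h2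
  have hcomS : ∀ s ∈ S, ∀ x ∈ ⁅T0, D⁆, s * x * s⁻¹ ∈ ⁅T0, D⁆ := by
    intro s hs x hx
    have h1 : (MulAut.conj s).toMonoidHom x ∈ (⁅T0, D⁆).map (MulAut.conj s).toMonoidHom :=
      Subgroup.mem_map_of_mem _ hx
    rw [Subgroup.map_commutator] at h1
    have h2 : ⁅T0.map (MulAut.conj s).toMonoidHom, D.map (MulAut.conj s).toMonoidHom⁆ ≤ ⁅T0, D⁆ := by
      apply Subgroup.commutator_mono
      · rintro y ⟨t, ht, rfl⟩
        exact hT0S s hs t ht
      · rintro y ⟨d, hd, rfl⟩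
        exact hDinv s hs d hd
    exact h2 h1
  have hcomeq : ⁅T0, D⁆ = T0 := by
    by_contra hne
    have h1 := hDcent ⁅T0, D⁆ hcomle hne hcomS
    have h2 := min2_coprime hp2 T0 D hT02 hDp hDT0 (by
      intro t ht d hd
      have h3 : t * d * t⁻¹ * d⁻¹ ∈ ⁅T0, D⁆ := Subgroup.commutator_mem_commutator ht hd
      exact (h1 d hd _ h3).symm)
    obtain ⟨t, ht, htc⟩ := hT0c
    exact htc (h2 t ht c hcD).symm
  -- the Frattini subgroup
  have hΦle := min2_phi_le T0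
  have hΦne : Subgroup.closure (min2Gens T0) ≠ T0 := by
    obtain ⟨t, ht, htc⟩ := hT0c
    refine min2_phi_ne T0 hT02 ⟨t, ht, ?_⟩
    rintro rfl
    exact htc (by rw [mul_one, one_mul])
  have hΦS : ∀ s ∈ S, ∀ x ∈ Subgroup.closure (min2Gens T0),
      s * x * s⁻¹ ∈ Subgroup.closure (min2Gens T0) :=
    fun s hs => min2_phi_conj T0 s (hT0S s hs)
  have hΦT : ∀ t ∈ T0, ∀ x ∈ Subgroup.closure (min2Gens T0),
      t * x * t⁻¹ ∈ Subgroup.closure (min2Gens T0) :=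
    fun t ht => min2_phi_conj T0 t
      (fun u hu => T0.mul_mem (T0.mul_mem ht hu) (T0.inv_mem ht))
  have hDΦ := hDcent _ hΦle hΦne hΦS
  have h1 : ⁅⁅D, Subgroup.closure (min2Gens T0)⁆, T0⁆ = ⊥ := by
    have : ⁅D, Subgroup.closure (min2Gens T0)⁆ = ⊥ := by
      rw [Subgroup.commutator_eq_bot_iff_le_centralizer]
      intro d hd
      rw [Subgroup.mem_centralizer_iff]
      intro x hx
      exact (hDΦ d hd x hx).symm
    rw [this, Subgroup.commutator_bot_left]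
  have h2 : ⁅⁅Subgroup.closure (min2Gens T0), T0⁆, D⁆ = ⊥ := by
    have h3 : ⁅Subgroup.closure (min2Gens T0), T0⁆ ≤ Subgroup.closure (min2Gens T0) := by
      rw [Subgroup.commutator_le]
      intro x hx t ht
      have h4 := hΦT t ht x⁻¹ (Subgroup.inv_mem _ hx)
      have h5 := Subgroup.mul_mem _ hx h4
      rw [commutatorElement_def]
      have h6 : x * (t * x⁻¹ * t⁻¹) = x * t * x⁻¹ * t⁻¹ := by group
      rw [h6] at h5; exact h5
    have h4 : ⁅Subgroup.closure (min2Gens T0), D⁆ = ⊥ := by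
      rw [Subgroup.commutator_eq_bot_iff_le_centralizer]
      intro x hx
      rw [Subgroup.mem_centralizer_iff]
      intro d hd
      exact hDΦ d hd x hx
    exact le_bot_iff.mp (h4 ▸ Subgroup.commutator_mono h3 le_rfl)
  have h3 := Subgroup.commutator_commutator_eq_bot_of_rotate h1 h2
  rw [hcomeq, Subgroup.commutator_eq_bot_iff_le_centralizer] at h3
  have hfin : ∀ x ∈ Subgroup.closure (min2Gens T0), ∀ t ∈ T0, x * t = t * x := by
    intro x hx t ht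
    have := h3 ht
    rw [Subgroup.mem_centralizer_iff] at this
    exact this x hx
  refine ⟨T0, hT0T, hT0S, hT0c, ?_, ?_⟩
  · intro a ha b hb t ht
    exact hfin _ (Subgroup.subset_closure (Or.inr ⟨a, ha, b, hb, rfl⟩)) t ht
  · intro a ha t ht
    exact hfin _ (Subgroup.subset_closure (Or.inl ⟨a, ha, rfl⟩)) t ht

end Cfsg.Agent.Lib.Helper86.HH
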