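import Mathlib
import Cfsg.Agent.Lib.Helper86.HHMin2
import Cfsg.Agent.Lib.Helper86.HHOrb
import Cfsg.Agent.Lib.Helper86.HHAlp

/-!
# S3786, piece 2G (helper86 project HH): the 2-group theorem (assembly of MIN2, ORB, ALP)

`S` a `p`-subgroup (`p` odd) normalizing the `2`-subgroup `T`; `g, g' ∈ S` with
`g ^ p ^ n = 1 = g' ^ p ^ n` such that `g₀ = g ^ p ^ (n-1)` centralizes every commutative
`g`-invariant subgroup of `T`, and likewise for `g'`. Then `[g₀, g'₀]` centralizes `T`.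

Proof. Suppose `c = g₀ g'₀ g₀⁻¹ g'₀⁻¹ ∈ S` does not centralize `T`. `min_two` gives `T0 ≤ T`,
`S`-invariant, not centralized by `c`, with central commutators and squares. Let
`conj : S →* MulAut T0` (conjugation), `P = conj.range` (a `p`-group), `N ⊴ P` the automorphisms
in `P` fixing `Z(T0)` pointwise, `E` a maximal element of the (finite, nonempty: `⊥`) set of
subgroups of `N` that are normal in `P`, commutative and of exponent `p`. `orbit_arg` with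
`γ = conj g` (hypothesis `hstar` from `h1` applied to the image in `H` of `A ≤ T0`) shows that
`γ₀ = conj g₀` centralizes `E`; `γ₀ ∈ N` by `h1` applied to the image of `Z(T0)`; `γ₀ ^ p = 1`.
`alperin_rel` gives `γ₀ ∈ E`; likewise `conj g'₀ ∈ E`; `E` is commutative, so `conj c = 1`:
`c` centralizes `T0`. Contradiction.  (Filled by helper85.)
-/

set_option autoImplicit false

namespace Cfsg.Agent.Lib.Helper86.HH

universe u

/-- conjugation by `s` as an automorphism of an `s`-invariant subgroup -/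
def twog_conjAut {H : Type u} [Group H] (T0 : Subgroup H) (s : H)
    (hs : ∀ t ∈ T0, s * t * s⁻¹ ∈ T0) (hs' : ∀ t ∈ T0, s⁻¹ * t * s ∈ T0) : MulAut T0 where
  toFun t := ⟨s * t * s⁻¹, hs t t.2⟩
  invFun t := ⟨s⁻¹ * t * s, hs' t t.2⟩
  left_inv t := by
    apply Subtype.ext
    show s⁻¹ * (s * (t : H) * s⁻¹) * s = t
    group
  right_inv t := by
    apply Subtype.ext
    show s * (s⁻¹ * (t : H) * s) * s⁻¹ = t
    group
  map_mul' a b := by
    apply Subtype.ext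
    show s * ((a : H) * b) * s⁻¹ = (s * a * s⁻¹) * (s * b * s⁻¹)
    group

/-- the conjugation action of `S` on an `S`-invariant subgroup `T0` -/
def twog_conj {H : Type u} [Group H] (T0 S : Subgroup H)
    (hST : ∀ s ∈ S, ∀ t ∈ T0, s * t * s⁻¹ ∈ T0) : S →* MulAut T0 where
  toFun s := twog_conjAut T0 s (hST s s.2)
    (fun t ht => by have := hST (s : H)⁻¹ (S.inv_mem s.2) t ht; simpa using this)
  map_one' := by
    apply MulEquiv.ext
    intro t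
    apply Subtype.ext
    show (1 : H) * t * (1 : H)⁻¹ = t
    group
  map_mul' a b := by
    apply MulEquiv.ext
    intro t
    apply Subtype.ext
    show ((a : H) * b) * t * ((a : H) * b)⁻¹ = a * (b * t * (b : H)⁻¹) * (a : H)⁻¹
    group

theorem twog_conj_apply {H : Type u} [Group H] (T0 S : Subgroup H)
    (hST : ∀ s ∈ S, ∀ t ∈ T0, s * t * s⁻¹ ∈ T0) (s : S) (t : T0) :
    ((twog_conj T0 S hST s t : T0) : H) = s * t * (s : H)⁻¹ := rfl

theorem twog_aut_center {T : Type u} [Group T] (σ : MulAut T) (z : T)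
    (hz : z ∈ Subgroup.center T) : σ z ∈ Subgroup.center T := by
  rw [Subgroup.mem_center_iff] at hz ⊢
  intro t
  have h1 := hz (σ.symm t)
  have h2 := congrArg σ h1
  simpa using h2

theorem two_group_core {H : Type u} [Group H] [Finite H] {p : ℕ} [Fact p.Prime] (hp2 : p ≠ 2)
    (T S : Subgroup H) (hT : IsPGroup 2 T) (hS : IsPGroup p S)
    (hST : ∀ s ∈ S, ∀ t ∈ T, s * t * s⁻¹ ∈ T)
    (n : ℕ) (hn : 1 ≤ n) (g g' : H) (hg : g ∈ S) (hg' : g' ∈ S)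
    (hgn : g ^ p ^ n = 1) (hg'n : g' ^ p ^ n = 1)
    (h1 : ∀ A : Subgroup H, A ≤ T → (∀ a ∈ A, ∀ b ∈ A, a * b = b * a) →
        (∀ a ∈ A, g * a * g⁻¹ ∈ A) → ∀ a ∈ A, g ^ p ^ (n - 1) * a = a * g ^ p ^ (n - 1))
    (h2 : ∀ A : Subgroup H, A ≤ T → (∀ a ∈ A, ∀ b ∈ A, a * b = b * a) →
        (∀ a ∈ A, g' * a * g'⁻¹ ∈ A) → ∀ a ∈ A, g' ^ p ^ (n - 1) * a = a * g' ^ p ^ (n - 1)) :
    ∀ t ∈ T,
      (g ^ p ^ (n - 1) * g' ^ p ^ (n - 1) * (g ^ p ^ (n - 1))⁻¹ * (g' ^ p ^ (n - 1))⁻¹) * t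
        = t * (g ^ p ^ (n - 1) * g' ^ p ^ (n - 1) * (g ^ p ^ (n - 1))⁻¹ * (g' ^ p ^ (n - 1))⁻¹) := by
  classical
  have hg0S : g ^ p ^ (n - 1) ∈ S := S.pow_mem hg _
  have hg0'S : g' ^ p ^ (n - 1) ∈ S := S.pow_mem hg' _
  have hcS : g ^ p ^ (n - 1) * g' ^ p ^ (n - 1) * (g ^ p ^ (n - 1))⁻¹ * (g' ^ p ^ (n - 1))⁻¹ ∈ S :=
    S.mul_mem (S.mul_mem (S.mul_mem hg0S hg0'S) (S.inv_mem hg0S)) (S.inv_mem hg0'S)
  by_contra hcon
  have hcon' : ∃ t ∈ T,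
      (g ^ p ^ (n - 1) * g' ^ p ^ (n - 1) * (g ^ p ^ (n - 1))⁻¹ * (g' ^ p ^ (n - 1))⁻¹) * t
        ≠ t * (g ^ p ^ (n - 1) * g' ^ p ^ (n - 1) * (g ^ p ^ (n - 1))⁻¹ * (g' ^ p ^ (n - 1))⁻¹) := by
    by_contra h
    apply hcon
    intro t ht
    by_contra h'
    exact h ⟨t, ht, h'⟩
  obtain ⟨T0, hT0T, hST0, ⟨t0, ht0, hct0⟩, hcl, hsq⟩ := min_two hp2 T S hT hS hST _ hcS hcon'
  obtain ⟨cj, hcj⟩ : ∃ cj, cj = twog_conj T0 S hST0 := ⟨_, rfl⟩
  have hcj_apply : ∀ (s : S) (t : T0), ((cj s t : T0) : H) = s * t * (s : H)⁻¹ := by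
    intro s t; rw [hcj]; rfl
  have hfinP : Finite cj.range := Finite.of_surjective cj.rangeRestrict cj.rangeRestrict_surjective
  have hPp : IsPGroup p cj.range := hS.of_surjective cj.rangeRestrict cj.rangeRestrict_surjective
  let N : Subgroup cj.range :=
    { carrier := {x | ∀ z ∈ Subgroup.center T0, (x : MulAut T0) z = z}
      one_mem' := fun z _ => rfl
      mul_mem' := by
        intro a b ha hb z hz
        show (a : MulAut T0) ((b : MulAut T0) z) = z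
        rw [hb z hz, ha z hz]
      inv_mem' := by
        intro a ha z hz
        show (a : MulAut T0)⁻¹ z = z
        have h3 : (a : MulAut T0)⁻¹ ((a : MulAut T0) z) = z := MulAut.inv_apply_self _ _ _
        rw [ha z hz] at h3
        exact h3 }
  have hNmem : ∀ x : cj.range, x ∈ N ↔ ∀ z ∈ Subgroup.center T0, (x : MulAut T0) z = z :=
    fun x => Iff.rfl
  have hNn : N.Normal := by
    constructor
    intro a ha x
    rw [hNmem] at ha ⊢
    intro z hz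
    show ((x : MulAut T0) * (a : MulAut T0) * (x : MulAut T0)⁻¹) z = z
    have hz' : (x : MulAut T0)⁻¹ z ∈ Subgroup.center T0 := twog_aut_center _ z hz
    rw [MulAut.mul_apply, MulAut.mul_apply, ha _ hz', MulAut.apply_inv_self]
  obtain ⟨C, hC⟩ : ∃ C : Set (Subgroup cj.range), C = {E | E.Normal ∧ E ≤ N ∧
      (∀ a ∈ E, ∀ b ∈ E, a * b = b * a) ∧ (∀ a ∈ E, a ^ p = 1)} := ⟨_, rfl⟩
  have hCfin : C.Finite := Set.toFinite C
  have hCne : C.Nonempty := by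
    refine ⟨⊥, ?_⟩
    rw [hC]
    refine ⟨inferInstance, bot_le, ?_, ?_⟩
    · intro a ha b hb
      rw [Subgroup.mem_bot] at ha hb
      rw [ha, hb]
    · intro a ha
      rw [Subgroup.mem_bot] at ha
      rw [ha, one_pow]
  obtain ⟨E, hEmax⟩ := hCfin.exists_maximal hCne
  have hEC : E ∈ C := hEmax.1
  rw [hC] at hEC
  obtain ⟨hEn, hEN, hEab, hEp⟩ := hEC
  have hEn' : E.Normal := hEn
  have hmax : ∀ E' : Subgroup cj.range, E'.Normal → E' ≤ N →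
      (∀ a ∈ E', ∀ b ∈ E', a * b = b * a) → (∀ a ∈ E', a ^ p = 1) → E ≤ E' → E' = E := by
    intro E' h1' h2' h3' h4' hle
    have hE'C : E' ∈ C := by rw [hC]; exact ⟨h1', h2', h3', h4'⟩
    exact le_antisymm (hEmax.2 hE'C hle) hle
  have hT0p : IsPGroup 2 T0 := hT.to_le hT0T
  have hcl' : ∀ a b t : T0, (a * b * a⁻¹ * b⁻¹) * t = t * (a * b * a⁻¹ * b⁻¹) := by
    intro a b t
    apply Subtype.ext
    exact hcl a a.2 b b.2 t t.2
  have hsq' : ∀ a t : T0, a ^ 2 * t = t * a ^ 2 := by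
    intro a t
    apply Subtype.ext
    exact hsq a a.2 t t.2
  have key : ∀ (x : H) (hx : x ∈ S), x ^ p ^ n = 1 →
      (∀ A : Subgroup H, A ≤ T → (∀ a ∈ A, ∀ b ∈ A, a * b = b * a) →
        (∀ a ∈ A, x * a * x⁻¹ ∈ A) → ∀ a ∈ A, x ^ p ^ (n - 1) * a = a * x ^ p ^ (n - 1)) →
      cj.rangeRestrict ⟨x ^ p ^ (n - 1), S.pow_mem hx _⟩ ∈ E := by
    intro x hx hxn hx1
    obtain ⟨γ, hγdef⟩ : ∃ γ, γ = cj ⟨x, hx⟩ := ⟨_, rfl⟩
    have hγpow : ∀ k : ℕ, γ ^ k = cj ⟨x ^ k, S.pow_mem hx k⟩ := by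
      intro k
      rw [hγdef, ← map_pow]
      rfl
    have hγn : γ ^ p ^ n = 1 := by
      rw [hγpow]
      have h3 : (⟨x ^ p ^ n, S.pow_mem hx _⟩ : S) = 1 := Subtype.ext hxn
      rw [h3, map_one]
    have hstar : ∀ A : Subgroup T0, (∀ a ∈ A, ∀ b ∈ A, a * b = b * a) → (∀ a ∈ A, γ a ∈ A) →
        ∀ a ∈ A, (γ ^ p ^ (n - 1)) a = a := by
      intro A hAc hAγ a ha
      have hA1 : A.map T0.subtype ≤ T := by
        rintro _ ⟨b, hb, rfl⟩
        exact hT0T b.2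
      have hA2 : ∀ a ∈ A.map T0.subtype, ∀ b ∈ A.map T0.subtype, a * b = b * a := by
        rintro _ ⟨b, hb, rfl⟩ _ ⟨b', hb', rfl⟩
        exact congrArg Subtype.val (hAc b hb b' hb')
      have hA3 : ∀ a ∈ A.map T0.subtype, x * a * x⁻¹ ∈ A.map T0.subtype := by
        rintro _ ⟨b, hb, rfl⟩
        refine ⟨γ b, hAγ b hb, ?_⟩
        rw [hγdef]
        exact hcj_apply ⟨x, hx⟩ b
      have h := hx1 (A.map T0.subtype) hA1 hA2 hA3 (a : H) ⟨a, ha, rfl⟩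
      rw [hγpow]
      apply Subtype.ext
      rw [hcj_apply]
      show x ^ p ^ (n - 1) * (a : H) * (x ^ p ^ (n - 1))⁻¹ = a
      rw [h]
      group
    have hγP : γ ∈ cj.range := ⟨⟨x, hx⟩, hγdef.symm⟩
    have hEab' : ∀ e ∈ E.map cj.range.subtype, ∀ f ∈ E.map cj.range.subtype, e * f = f * e := by
      rintro _ ⟨e, he, rfl⟩ _ ⟨f, hf, rfl⟩
      rw [← map_mul, ← map_mul, hEab e he f hf]
    have hEp' : ∀ e ∈ E.map cj.range.subtype, e ^ p = 1 := by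
      rintro _ ⟨e, he, rfl⟩
      rw [← map_pow, hEp e he, map_one]
    have hEZ' : ∀ e ∈ E.map cj.range.subtype, ∀ z ∈ Subgroup.center T0, e z = z := by
      rintro _ ⟨e, he, rfl⟩ z hz
      exact (hNmem e).1 (hEN he) z hz
    have hEγ' : ∀ e ∈ E.map cj.range.subtype, γ * e * γ⁻¹ ∈ E.map cj.range.subtype := by
      rintro _ ⟨e, he, rfl⟩
      exact ⟨(⟨γ, hγP⟩ : cj.range) * e * (⟨γ, hγP⟩ : cj.range)⁻¹, hEn.conj_mem e he _, rfl⟩
    have horb := orbit_arg hp2 hT0p hcl' hsq' γ n hn hγn hstar (E.map cj.range.subtype)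
      hEab' hEp' hEZ' hEγ'
    obtain ⟨u, hudef⟩ : ∃ u, u = cj.rangeRestrict ⟨x ^ p ^ (n - 1), S.pow_mem hx _⟩ := ⟨_, rfl⟩
    have hu : (u : MulAut T0) = γ ^ p ^ (n - 1) := by
      rw [hudef, hγpow]
      rfl
    have huN : u ∈ N := by
      rw [hNmem]
      intro z hz
      rw [hu]
      exact hstar (Subgroup.center T0)
        (fun a ha b _ => (Subgroup.mem_center_iff.1 ha b).symm)
        (fun a ha => twog_aut_center γ a ha) z hz
    have hup : u ^ p = 1 := by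
      apply Subtype.ext
      show (u : MulAut T0) ^ p = 1
      rw [hu, ← pow_mul, ← pow_succ, Nat.sub_add_cancel hn, hγn]
    have huE : ∀ a ∈ E, u * a = a * u := by
      intro a ha
      apply Subtype.ext
      show (u : MulAut T0) * (a : MulAut T0) = (a : MulAut T0) * (u : MulAut T0)
      rw [hu]
      exact horb a ⟨a, ha, rfl⟩
    rw [← hudef]
    exact alperin_rel hp2 hPp N E hEN hEab hEp hmax u huN hup huE
  have k1 := key g hg hgn h1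
  have k2 := key g' hg' hg'n h2
  have hcomm := hEab _ k1 _ k2
  have hcomm' : cj ⟨g ^ p ^ (n - 1), hg0S⟩ * cj ⟨g' ^ p ^ (n - 1), hg0'S⟩ =
      cj ⟨g' ^ p ^ (n - 1), hg0'S⟩ * cj ⟨g ^ p ^ (n - 1), hg0S⟩ := congrArg Subtype.val hcomm
  have hc1 : cj ⟨g ^ p ^ (n - 1) * g' ^ p ^ (n - 1) * (g ^ p ^ (n - 1))⁻¹ *
      (g' ^ p ^ (n - 1))⁻¹, hcS⟩ = 1 := by
    have e1 : (⟨g ^ p ^ (n - 1) * g' ^ p ^ (n - 1) * (g ^ p ^ (n - 1))⁻¹ *
        (g' ^ p ^ (n - 1))⁻¹, hcS⟩ : S) =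
        ⟨g ^ p ^ (n - 1), hg0S⟩ * ⟨g' ^ p ^ (n - 1), hg0'S⟩ * ⟨g ^ p ^ (n - 1), hg0S⟩⁻¹ *
          ⟨g' ^ p ^ (n - 1), hg0'S⟩⁻¹ := rfl
    rw [e1, map_mul, map_mul, map_mul, map_inv, map_inv, hcomm', mul_inv_cancel_right,
      mul_inv_cancel]
  have h3 := hcj_apply ⟨g ^ p ^ (n - 1) * g' ^ p ^ (n - 1) * (g ^ p ^ (n - 1))⁻¹ *
      (g' ^ p ^ (n - 1))⁻¹, hcS⟩ ⟨t0, ht0⟩
  rw [hc1] at h3
  have h4 : t0 = g ^ p ^ (n - 1) * g' ^ p ^ (n - 1) * (g ^ p ^ (n - 1))⁻¹ *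
      (g' ^ p ^ (n - 1))⁻¹ * t0 * (g ^ p ^ (n - 1) * g' ^ p ^ (n - 1) * (g ^ p ^ (n - 1))⁻¹ *
      (g' ^ p ^ (n - 1))⁻¹)⁻¹ := h3
  apply hct0
  obtain ⟨c, hc⟩ : ∃ c, c = g ^ p ^ (n - 1) * g' ^ p ^ (n - 1) * (g ^ p ^ (n - 1))⁻¹ *
      (g' ^ p ^ (n - 1))⁻¹ := ⟨_, rfl⟩
  rw [← hc] at h4 ⊢
  calc c * t0 = (c * t0 * c⁻¹) * c := by group
    _ = t0 * c := by rw [← h4]

end Cfsg.Agent.Lib.Helper86.HH
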