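import Mathlib

/-!
# S3786, piece DEC (helper86 project HH)

An elementary abelian `p`-group `E` (`p` odd) acting on a finite elementary abelian `2`-group `W`
(written multiplicatively). If `e'` acts nontrivially, there are a subgroup `B` with
`E = B ⟨e'⟩`, `e' ∉ B`, and `w ≠ 1` fixed by `B` whose norm under every `a ∉ B` is trivial.

Proof: let `Y ≤ W` be minimal among the `E`-invariant subgroups not fixed pointwise by `e'`.
The fixed points of `e'` in `Y` and `{φ e' y * y⁻¹}` are `E`-invariant (`E` is commutative), and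
`e'` moves some element of the latter (coprime action: `p` odd, `W` a `2`-group), so `Y` is the
latter and `e'` has no fixed point `≠ 1` in `Y`. Let `B = {e | ∀ y ∈ Y, φ e y = y}`; `e' ∉ B`.
For `a : E` the fixed points of `a` in `Y` form an `E`-invariant subgroup: it is `Y` (`a ∈ B`) or
is fixed pointwise by `e'`, hence trivial. So for `a ∉ B` and `w ∈ Y` the norm
`∏_{k<p} φ (a^k) w` (a fixed point of `a` in `Y`, as `a^p = 1`) is `1`. Take any `w ≠ 1` in `Y`.
`E = B ⟨e'⟩`: let `a ∉ B` and suppose `a * e'^k ∉ B` for all `k < p`. Then no `a^i * e'^j` with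
`(i, j) ≠ (0, 0)` (`i, j < p`) lies in `B` (it is a power of `e'` or of some `a * e'^k` with
exponent prime to `p`), so each acts without fixed points `≠ 1` on `Y`. The product of the norms of
`w ∈ Y` over the `p + 1` elements `e'`, `a * e'^k` (`k < p`) is `1` and equals
`w^p * ∏_{i,j<p} φ (a^i * e'^j) w`; the double product is fixed by `a`, so it is `1`; hence
`w^p = 1`, `w = 1` (`w^2 = 1`, `p` odd), contradiction with `Y ≠ 1`.
-/

set_option autoImplicit false

namespace Cfsg.Agent.Lib.Helper86.HH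

universe u v

/-- reindexing a product over `range p` along `i ↦ m * i % p` -/
theorem dec_reindex {M : Type*} [CommMonoid M] {p : ℕ} [hp : Fact p.Prime] (m : ℕ)
    (hm : ¬ p ∣ m) (g : ℕ → M) :
    ∏ i ∈ Finset.range p, g (m * i % p) = ∏ i ∈ Finset.range p, g i := by
  classical
  have hcop : Nat.gcd p m = 1 := (Nat.Prime.coprime_iff_not_dvd hp.out).2 hm
  have hinj : ∀ i ∈ Finset.range p, ∀ j ∈ Finset.range p, m * i % p = m * j % p → i = j := by
    intro i hi j hj hij
    rw [Finset.mem_range] at hi hj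
    have h1 : m * i ≡ m * j [MOD p] := hij
    have h2 : i ≡ j [MOD p] := Nat.ModEq.cancel_left_of_coprime hcop h1
    exact Nat.ModEq.eq_of_lt_of_lt h2 hi hj
  have himg : (Finset.range p).image (fun i => m * i % p) = Finset.range p := by
    apply Finset.eq_of_subset_of_card_le
    · intro x hx
      obtain ⟨i, -, rfl⟩ := Finset.mem_image.1 hx
      exact Finset.mem_range.2 (Nat.mod_lt _ hp.out.pos)
    · rw [Finset.card_image_of_injOn (fun i hi j hj h => hinj i hi j hj h)]
  calc ∏ i ∈ Finset.range p, g (m * i % p)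
      = ∏ x ∈ (Finset.range p).image (fun i => m * i % p), g x :=
        (Finset.prod_image (f := g) hinj).symm
    _ = ∏ i ∈ Finset.range p, g i := by rw [himg]

/-- a cyclic shift of a product over `range p` -/
theorem dec_shift {M : Type*} [CommGroup M] (p : ℕ) (g : ℕ → M) (h : g p = g 0) :
    ∏ i ∈ Finset.range p, g (i + 1) = ∏ i ∈ Finset.range p, g i := by
  have h1 := Finset.prod_range_succ g p
  have h2 := Finset.prod_range_succ' g p
  rw [h] at h1
  exact mul_right_cancel (h2.symm.trans h1)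

theorem dec_pow_mod {E : Type*} [Monoid E] {p : ℕ} (x : E) (hx : x ^ p = 1) (n : ℕ) :
    x ^ (n % p) = x ^ n := by
  conv_rhs => rw [← Nat.mod_add_div n p]
  rw [pow_add, pow_mul, hx, one_pow, mul_one]

/-- the subgroup of the elements fixing `x` -/
def dec_fix {W : Type u} [CommGroup W] {E : Type v} [CommGroup E] (φ : E →* MulAut W) (x : W) :
    Subgroup E where
  carrier := {e | φ e x = x}
  mul_mem' := fun {a b} ha hb => by
    simp only [Set.mem_ofPred_eq, map_mul, MulAut.mul_apply] at *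
    rw [hb, ha]
  one_mem' := by simp
  inv_mem' := fun {a} ha => by
    simp only [Set.mem_ofPred_eq, map_inv] at *
    rw [MulAut.inv_apply, MulEquiv.symm_apply_eq]
    exact ha.symm

theorem dec_mem_fix {W : Type u} [CommGroup W] {E : Type v} [CommGroup E] (φ : E →* MulAut W)
    (x : W) (e : E) : e ∈ dec_fix φ x ↔ φ e x = x := Iff.rfl

theorem dec_apply_mul {W : Type u} [CommGroup W] {E : Type v} [CommGroup E] (φ : E →* MulAut W)
    (x y : E) (w : W) : φ x (φ y w) = φ (x * y) w := by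
  rw [map_mul, MulAut.mul_apply]

/-- the norm `∏_{k<p} x^k w` is fixed by `x` -/
theorem dec_norm_fixed {W : Type u} [CommGroup W] {p : ℕ} {E : Type v} [CommGroup E]
    (hEp : ∀ e : E, e ^ p = 1) (φ : E →* MulAut W) (x : E) (w : W) :
    φ x (∏ k ∈ Finset.range p, φ (x ^ k) w) = ∏ k ∈ Finset.range p, φ (x ^ k) w := by
  rw [map_prod]
  have h1 : ∀ k ∈ Finset.range p, φ x (φ (x ^ k) w) = φ (x ^ (k + 1)) w := by
    intro k _
    rw [dec_apply_mul, ← pow_succ']
  rw [Finset.prod_congr rfl h1]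
  exact dec_shift p (fun k => φ (x ^ k) w) (by simp [hEp x])

/-- the norm of a `B`-fixed element is `B`-fixed -/
theorem dec_norm_fixed_of {W : Type u} [CommGroup W] {p : ℕ} {E : Type v} [CommGroup E]
    (φ : E →* MulAut W) (x b : E) (w : W) (hb : φ b w = w) :
    φ b (∏ k ∈ Finset.range p, φ (x ^ k) w) = ∏ k ∈ Finset.range p, φ (x ^ k) w := by
  rw [map_prod]
  apply Finset.prod_congr rfl
  intro k _
  rw [dec_apply_mul, mul_comm, ← dec_apply_mul, hb]

/-- the key generation argument: if `e'` fixes the norms of `v` under all `a * e'^j`, it fixes `v` -/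
theorem dec_key {W : Type u} [CommGroup W] (h2 : ∀ w : W, w * w = 1)
    {p : ℕ} [hp : Fact p.Prime] (hp2 : p ≠ 2)
    {E : Type v} [CommGroup E] (hEp : ∀ e : E, e ^ p = 1) (φ : E →* MulAut W)
    (a e' : E) (v : W)
    (hfix : ∀ j : ℕ, φ e' (∏ k ∈ Finset.range p, φ ((a * e' ^ j) ^ k) v) =
      ∏ k ∈ Finset.range p, φ ((a * e' ^ j) ^ k) v) : φ e' v = v := by
  -- the rows `∏_j φ (a^i e'^j) v` are fixed by `e'`
  have hrow : ∀ i : ℕ, φ e' (∏ j ∈ Finset.range p, φ (a ^ i * e' ^ j) v) =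
      ∏ j ∈ Finset.range p, φ (a ^ i * e' ^ j) v := by
    intro i
    rw [map_prod]
    have h1 : ∀ j ∈ Finset.range p, φ e' (φ (a ^ i * e' ^ j) v) = φ (a ^ i * e' ^ (j + 1)) v := by
      intro j _
      rw [dec_apply_mul, mul_left_comm, ← pow_succ']
    rw [Finset.prod_congr rfl h1]
    exact dec_shift p (fun j => φ (a ^ i * e' ^ j) v) (by simp [hEp e'])
  -- the identity
  obtain ⟨p', hp'⟩ : ∃ p', p = p' + 1 := ⟨p - 1, by have := hp.out.pos; omega⟩
  have hid : (∏ j ∈ Finset.range p, ∏ k ∈ Finset.range p, φ ((a * e' ^ j) ^ k) v) *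
      (∏ j ∈ Finset.range p, φ (a ^ 0 * e' ^ j) v) =
      v ^ p * ∏ i ∈ Finset.range p, ∏ j ∈ Finset.range p, φ (a ^ i * e' ^ j) v := by
    rw [Finset.prod_comm]
    have hk : ∀ k ∈ Finset.range p', ∏ j ∈ Finset.range p, φ ((a * e' ^ j) ^ (k + 1)) v =
        ∏ j ∈ Finset.range p, φ (a ^ (k + 1) * e' ^ j) v := by
      intro k hk
      rw [Finset.mem_range] at hk
      have hnd : ¬ p ∣ k + 1 := by
        intro hd
        have := Nat.le_of_dvd (Nat.succ_pos k) hd
        omega
      rw [← dec_reindex (k + 1) hnd (fun j => φ (a ^ (k + 1) * e' ^ j) v)]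
      apply Finset.prod_congr rfl
      intro j _
      show φ ((a * e' ^ j) ^ (k + 1)) v = φ (a ^ (k + 1) * e' ^ ((k + 1) * j % p)) v
      rw [dec_pow_mod e' (hEp e'), mul_pow, ← pow_mul, mul_comm j (k + 1)]
    have h0 : ∏ j ∈ Finset.range p, φ ((a * e' ^ j) ^ 0) v = v ^ p := by
      simp
    have houter : ∀ F : ℕ → W,
        ∏ k ∈ Finset.range p, F k = (∏ k ∈ Finset.range p', F (k + 1)) * F 0 := by
      intro F
      rw [hp']
      exact Finset.prod_range_succ' F p'
    rw [houter (fun k => ∏ j ∈ Finset.range p, φ ((a * e' ^ j) ^ k) v),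
      houter (fun i => ∏ j ∈ Finset.range p, φ (a ^ i * e' ^ j) v)]
    rw [Finset.prod_congr rfl hk, h0]
    rw [mul_comm (∏ k ∈ Finset.range p', ∏ j ∈ Finset.range p, φ (a ^ (k + 1) * e' ^ j) v) (v ^ p),
      mul_assoc]
  have hM : φ e' (∏ i ∈ Finset.range p, ∏ j ∈ Finset.range p, φ (a ^ i * e' ^ j) v) =
      ∏ i ∈ Finset.range p, ∏ j ∈ Finset.range p, φ (a ^ i * e' ^ j) v := by
    rw [map_prod]
    exact Finset.prod_congr rfl (fun i _ => hrow i)
  have hL : φ e' (∏ j ∈ Finset.range p, ∏ k ∈ Finset.range p, φ ((a * e' ^ j) ^ k) v) =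
      ∏ j ∈ Finset.range p, ∏ k ∈ Finset.range p, φ ((a * e' ^ j) ^ k) v := by
    rw [map_prod]
    exact Finset.prod_congr rfl (fun j _ => hfix j)
  have h3 := congrArg (φ e') hid
  rw [map_mul, map_mul, hM, hL, hrow 0, hid] at h3
  have h4 : φ e' (v ^ p) = v ^ p := (mul_right_cancel h3).symm
  have hvp : v ^ p = v := by
    rcases hp.out.eq_two_or_odd' with h | ⟨m, hm⟩
    · exact absurd h hp2
    · rw [hm, pow_succ, pow_mul, pow_two, h2 v, one_pow, one_mul]
  rw [hvp] at h4
  exact h4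

theorem dec_hyperplane {W : Type u} [CommGroup W] [Finite W] (h2 : ∀ w : W, w * w = 1)
    {p : ℕ} [Fact p.Prime] (hp2 : p ≠ 2)
    {E : Type v} [CommGroup E] [Finite E] (hEp : ∀ e : E, e ^ p = 1) (φ : E →* MulAut W)
    (e' : E) (w0 : W) (hw0 : φ e' w0 ≠ w0) :
    ∃ (B : Subgroup E) (w : W), e' ∉ B ∧ (∀ e : E, ∃ k : ℕ, e * e' ^ k ∈ B) ∧ w ≠ 1 ∧
      (∀ b ∈ B, φ b w = w) ∧ (∀ a : E, a ∉ B → ∏ k ∈ Finset.range p, φ (a ^ k) w = 1) := by
  classical
  have hp := (Fact.out : p.Prime)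
  let S : Set (Subgroup E) := {B | ∃ v : W, (∀ b ∈ B, φ b v = v) ∧ φ e' v ≠ v}
  have hSne : S.Nonempty :=
    ⟨⊥, w0, fun b hb => by rw [Subgroup.mem_bot.1 hb, map_one]; rfl, hw0⟩
  obtain ⟨B, hBS, hBmax⟩ := Set.exists_max_image S (fun B => Nat.card B) (Set.toFinite S) hSne
  obtain ⟨v, hBv, hv⟩ := hBS
  have he'B : e' ∉ B := fun h => hv (hBv e' h)
  have hii : ∀ e : E, ∃ k : ℕ, e * e' ^ k ∈ B := by
    by_contra hno
    push Not at hno
    obtain ⟨a, ha⟩ := hno
    apply hv
    apply dec_key h2 hp2 hEp φ a e' v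
    intro j
    by_contra hcon
    have hle : B ⊔ Subgroup.zpowers (a * e' ^ j) ≤
        dec_fix φ (∏ k ∈ Finset.range p, φ ((a * e' ^ j) ^ k) v) := by
      apply sup_le
      · intro b hb
        exact dec_norm_fixed_of φ _ b v (hBv b hb)
      · rw [Subgroup.zpowers_le]
        exact dec_norm_fixed hEp φ _ v
    have hBj : (B ⊔ Subgroup.zpowers (a * e' ^ j)) ∈ S :=
      ⟨_, fun b hb => hle hb, hcon⟩
    have hcard := hBmax _ hBj
    have heq : B = B ⊔ Subgroup.zpowers (a * e' ^ j) :=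
      Subgroup.eq_of_le_of_card_ge le_sup_left hcard
    apply ha j
    rw [heq]
    exact Subgroup.mem_sup_right (Subgroup.mem_zpowers _)
  have hcomm : ∀ (x y : E) (z : W), φ x (φ y z) = φ y (φ x z) := fun x y z => by
    rw [dec_apply_mul, mul_comm, ← dec_apply_mul]
  have hNe' : ∏ k ∈ Finset.range p, φ (e' ^ k) (φ e' v * v⁻¹) = 1 := by
    have h1 : ∀ k ∈ Finset.range p,
        φ (e' ^ k) (φ e' v * v⁻¹) = φ (e' ^ (k + 1)) v * (φ (e' ^ k) v)⁻¹ := by
      intro k _
      rw [map_mul, map_inv, dec_apply_mul, ← pow_succ]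
    rw [Finset.prod_congr rfl h1, Finset.prod_mul_distrib, Finset.prod_inv_distrib,
      dec_shift p (fun k => φ (e' ^ k) v) (by simp [hEp e']), mul_inv_cancel]
  have hBw : ∀ b ∈ B, φ b (φ e' v * v⁻¹) = φ e' v * v⁻¹ := fun b hb => by
    rw [map_mul, map_inv, hcomm, hBv b hb]
  refine ⟨B, φ e' v * v⁻¹, he'B, hii, ?_, hBw, ?_⟩
  · intro h
    exact hv (mul_inv_eq_one.1 h)
  · intro a haB
    obtain ⟨k, hk⟩ := hii a
    have ha_eq : a = e' ^ ((p - 1) * k) * (a * e' ^ k) := by
      rw [mul_comm, mul_assoc, ← pow_add]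
      have h3 : k + (p - 1) * k = p * k := by
        have := hp.pos
        obtain ⟨p', rfl⟩ : ∃ p', p = p' + 1 := ⟨p - 1, by omega⟩
        simp only [Nat.add_sub_cancel]
        ring
      rw [h3, pow_mul, hEp, one_pow, mul_one]
    have hnd : ¬ p ∣ (p - 1) * k := by
      intro hd
      apply haB
      obtain ⟨c, hc⟩ := hd
      rw [ha_eq, hc, pow_mul, hEp, one_pow, one_mul]
      exact hk
    have h1 : ∀ i ∈ Finset.range p,
        φ (a ^ i) (φ e' v * v⁻¹) = φ (e' ^ ((p - 1) * k * i % p)) (φ e' v * v⁻¹) := by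
      intro i _
      rw [dec_pow_mod e' (hEp e')]
      conv_lhs => rw [ha_eq, mul_pow, ← pow_mul]
      rw [← dec_apply_mul, hBw _ (pow_mem hk i)]
    rw [Finset.prod_congr rfl h1,
      dec_reindex ((p - 1) * k) hnd (fun i => φ (e' ^ i) (φ e' v * v⁻¹))]
    exact hNe'

end Cfsg.Agent.Lib.Helper86.HH
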