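import Mathlib
import Cfsg.Agent.Lib.Helper17.HBCoreC
import Cfsg.Agent.Lib.Helper43.HBWrapA

/-!
# S3786, piece HBF (helper86 project HH)

The Hall–Higman core (`Cfsg.Agent.Lib.Helper17.hb_core`, over an algebraically closed field) for
a representation over `ZMod p`, via the base change `Cfsg.Agent.Lib.Helper43.HBWrap.baseChange`.
-/

set_option autoImplicit false

namespace Cfsg.Agent.Lib.Helper86.HH

universe u v

/-- If `x` normalizes the `q`-subgroup `Q`, `x ^ p ^ n = 1`, the operator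
`(ρ x - 1) ^ (p ^ n - 1)` vanishes and `ρ (x ^ p ^ (n-1))` does not commute with `ρ Q`, then we are
in the exceptional situation: `p ^ n₀ - 1 = q ^ m` and `ρ Q` is not commutative. -/
theorem hb_field {X : Type u} [Group X] [Finite X] {p : ℕ} [Fact p.Prime]
    {V : Type v} [AddCommGroup V] [Module (ZMod p) V] [Finite V]
    (ρ : X →* (V ≃ₗ[ZMod p] V)) (q : ℕ) [Fact q.Prime] (hqp : q ≠ p) (Q : Subgroup X)
    (hQ : IsPGroup q Q) (x : X) (hx : ∀ u ∈ Q, x * u * x⁻¹ ∈ Q) (n : ℕ) (hn : 1 ≤ n)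
    (hxn : x ^ p ^ n = 1)
    (hzero : ((ρ x : Module.End (ZMod p) V) - 1) ^ (p ^ n - 1) = 0)
    (hne : ∃ u ∈ Q, ρ (x ^ p ^ (n - 1)) * ρ u ≠ ρ u * ρ (x ^ p ^ (n - 1))) :
    ∃ n₀ m : ℕ, 1 ≤ n₀ ∧ n₀ ≤ n ∧ 1 ≤ m ∧ p ^ n₀ - 1 = q ^ m ∧
      ∃ u ∈ Q, ∃ w ∈ Q, ρ u * ρ w ≠ ρ w * ρ u := by
  classical
  haveI : CharP (AlgebraicClosure (ZMod p)) p :=
    charP_of_injective_algebraMap (algebraMap (ZMod p) (AlgebraicClosure (ZMod p))).injective p
  have hcore := Cfsg.Agent.Lib.Helper17.hb_core.{u, 0, 0} (AlgebraicClosure (ZMod p)) p q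
    (Ne.symm hqp)
  haveI : Module.Finite (ZMod p) V := Module.Finite.of_finite
  obtain ⟨d, hd⟩ : ∃ d : ℕ, d = Module.finrank (ZMod p) V := ⟨_, rfl⟩
  have b : Module.Basis (Fin d) (ZMod p) V := hd ▸ Module.finBasis (ZMod p) V
  have hΦinj : Function.Injective
      (Cfsg.Agent.Lib.Helper43.HBWrap.baseChange (AlgebraicClosure (ZMod p)) b) :=
    Cfsg.Agent.Lib.Helper43.HBWrap.baseChange_injective (AlgebraicClosure (ZMod p)) b
  obtain ⟨ρ', hρ'⟩ : ∃ ρ' : X →* Module.End (AlgebraicClosure (ZMod p))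
      (Fin d → AlgebraicClosure (ZMod p)), ∀ g : X, ρ' g =
        Cfsg.Agent.Lib.Helper43.HBWrap.baseChange (AlgebraicClosure (ZMod p)) b
          ((ρ g : V ≃ₗ[ZMod p] V) : Module.End (ZMod p) V) :=
    ⟨((Cfsg.Agent.Lib.Helper43.HBWrap.baseChange (AlgebraicClosure (ZMod p)) b :
        Module.End (ZMod p) V →* _)).comp
      ((LinearEquiv.automorphismGroup.toLinearMapMonoidHom).comp ρ), fun g => rfl⟩
  have hinj : ∀ a c : X, ρ' a = ρ' c → ρ a = ρ c := by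
    intro a c h
    rw [hρ', hρ'] at h
    exact LinearEquiv.toLinearMap_injective (hΦinj h)
  have hxQ : x ∈ Subgroup.normalizer (Q : Set X) := by
    rw [Subgroup.mem_normalizer_iff]
    intro y
    refine ⟨hx y, fun hy => ?_⟩
    have hinjQ : Function.Injective (fun u : Q => (⟨x * u * x⁻¹, hx u u.2⟩ : Q)) := by
      intro u u' h
      have h1 : x * (u : X) * x⁻¹ = x * (u' : X) * x⁻¹ := congrArg Subtype.val h
      exact Subtype.ext (mul_left_cancel (mul_right_cancel h1))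
    obtain ⟨u, hu⟩ := (Finite.surjective_of_injective hinjQ) ⟨x * y * x⁻¹, hy⟩
    have h2 : x * (u : X) * x⁻¹ = x * y * x⁻¹ := congrArg Subtype.val hu
    have h3 : (u : X) = y := mul_left_cancel (mul_right_cancel h2)
    rw [← h3]
    exact u.2
  have hρxp : ρ' x ^ (p ^ n) = 1 := by
    rw [← map_pow, hxn, map_one]
  have hnc : ∃ g ∈ Q, ρ' (x ^ p ^ (n - 1)) * ρ' g ≠ ρ' g * ρ' (x ^ p ^ (n - 1)) := by
    obtain ⟨u, hu, hne'⟩ := hne
    refine ⟨u, hu, fun h => hne' ?_⟩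
    rw [← map_mul, ← map_mul] at h
    rw [← map_mul, ← map_mul]
    exact hinj _ _ h
  rcases hcore X (Fin d → AlgebraicClosure (ZMod p)) ρ' Q x n hQ hxQ hn hρxp hnc with
    h1 | ⟨n₀, m, hn₀1, hn₀n, hm1, hpq, ⟨g1, hg1, g2, hg2, hg12⟩, -⟩
  · exfalso
    apply h1
    rw [hρ', ← map_one (Cfsg.Agent.Lib.Helper43.HBWrap.baseChange (AlgebraicClosure (ZMod p)) b),
      ← map_sub, ← map_pow, hzero, map_zero]
  · refine ⟨n₀, m, hn₀1, hn₀n, hm1, hpq, g1, hg1, g2, hg2, fun h => hg12 ?_⟩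
    rw [← map_mul, ← map_mul] at h
    rw [← map_mul, ← map_mul, hρ', hρ', h]

end Cfsg.Agent.Lib.Helper86.HH
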