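import Mathlib
import Cfsg.Agent.Lib.Helper17.HHc

/-!
# S3786 (Hall–Higman: p-length ≤ e, ≤ 2e), piece LIN (helper86 project HH)

Norm formula in the linearized module `V` of a normal `p`-subgroup `N` and the vanishing of the
norm operator `(ρ x - 1) ^ (p ^ n - 1)` when the `p`-elements have order dividing `p ^ n`.
-/

set_option autoImplicit false

namespace Cfsg.Agent.Lib.Helper86.HH

universe u v

/-- in characteristic `p` the geometric sum is a power of `τ - 1` -/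
theorem geom_lin (p : ℕ) [Fact p.Prime] {V : Type v} [AddCommGroup V] [Module (ZMod p) V]
    (τ : Module.End (ZMod p) V) (e : ℕ) :
    ∑ i ∈ Finset.range (p ^ e), τ ^ i = (τ - 1) ^ (p ^ e - 1) :=
  Cfsg.Agent.Lib.Helper17.hh_geom_pow (ZMod p) p τ e

/-- **Norm formula.** `(v x)^k = r x^k` with `r ∈ N` whose image in `V` is the partial norm
of the image of `v`. -/
theorem norm_formula_lin {X : Type u} [Group X] (p : ℕ) [Fact p.Prime] (N : Subgroup X)
    [hN : N.Normal] {V : Type v} [AddCommGroup V] [Module (ZMod p) V]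
    (ρ : X →* (V ≃ₗ[ZMod p] V)) (π : ↥N →* Multiplicative V)
    (heq : ∀ (g : X) (a : ↥N), π ⟨g * a * g⁻¹, hN.conj_mem a a.2 g⟩
        = Multiplicative.ofAdd (ρ g (Multiplicative.toAdd (π a))))
    (x : X) (v : ↥N) (k : ℕ) :
    ∃ r : ↥N, ((v : X) * x) ^ k = (r : X) * x ^ k ∧
      Multiplicative.toAdd (π r)
        = ∑ i ∈ Finset.range k, ((ρ x : Module.End (ZMod p) V) ^ i) (Multiplicative.toAdd (π v)) := by
  have hpow : ∀ i : ℕ, ((ρ (x ^ i) : V ≃ₗ[ZMod p] V) : Module.End (ZMod p) V)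
      = (ρ x : Module.End (ZMod p) V) ^ i := by
    intro i
    rw [map_pow]
    exact map_pow (LinearEquiv.automorphismGroup.toLinearMapMonoidHom (R := ZMod p) (M := V))
      (ρ x) i
  induction k with
  | zero => exact ⟨1, by simp, by simp⟩
  | succ k ih =>
    obtain ⟨r, hr1, hr2⟩ := ih
    refine ⟨r * ⟨x ^ k * v * (x ^ k)⁻¹, hN.conj_mem v v.2 (x ^ k)⟩, ?_, ?_⟩
    · rw [pow_succ ((v : X) * x), hr1]
      simp only [Subgroup.coe_mul]
      rw [pow_succ]; group
    · rw [map_mul, toAdd_mul, hr2, heq (x ^ k) v, Finset.sum_range_succ, toAdd_ofAdd, ← hpow k]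
      rfl

/-- **STAR.** If every `p`-element of `X` has order dividing `p ^ n`, then for every `p`-element
`x` the operator `(ρ x - 1) ^ (p ^ n - 1)` vanishes on `V`. -/
theorem star_zero {X : Type u} [Group X] [Finite X] (p : ℕ) [Fact p.Prime] (N : Subgroup X)
    [hN : N.Normal] (hNp : IsPGroup p N) {V : Type v} [AddCommGroup V] [Module (ZMod p) V]
    (ρ : X →* (V ≃ₗ[ZMod p] V)) (π : ↥N →* Multiplicative V) (hπ : Function.Surjective π)
    (heq : ∀ (g : X) (a : ↥N), π ⟨g * a * g⁻¹, hN.conj_mem a a.2 g⟩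
        = Multiplicative.ofAdd (ρ g (Multiplicative.toAdd (π a))))
    (n : ℕ) (hexp : ∀ g : X, (∃ k : ℕ, g ^ p ^ k = 1) → g ^ p ^ n = 1)
    (x : X) (hx : ∃ k : ℕ, x ^ p ^ k = 1) :
    ((ρ x : Module.End (ZMod p) V) - 1) ^ (p ^ n - 1) = 0 := by
  rw [← geom_lin p (ρ x : Module.End (ZMod p) V) n]
  apply LinearMap.ext
  intro w
  obtain ⟨v, hv⟩ := hπ (Multiplicative.ofAdd w)
  have hw : Multiplicative.toAdd (π v) = w := by rw [hv]; rfl
  obtain ⟨k, hk⟩ := hx
  obtain ⟨r, hr1, -⟩ := norm_formula_lin p N ρ π heq x v (p ^ k)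
  rw [hk, mul_one] at hr1
  obtain ⟨j, hj⟩ := hNp r
  have hvx : ((v : X) * x) ^ p ^ (k + j) = 1 := by
    rw [pow_add, pow_mul, hr1]
    have h0 := congrArg (Subtype.val) hj
    simpa using h0
  have h1 := hexp _ ⟨k + j, hvx⟩
  have h2 := hexp x ⟨k, hk⟩
  obtain ⟨r', hr1', hr2'⟩ := norm_formula_lin p N ρ π heq x v (p ^ n)
  rw [h1, h2, mul_one] at hr1'
  have hr' : r' = 1 := Subtype.ext hr1'.symm
  rw [hr', map_one, hw] at hr2'
  rw [LinearMap.sum_apply, LinearMap.zero_apply]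
  exact hr2'.symm

end Cfsg.Agent.Lib.Helper86.HH
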