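import Mathlib
import Cfsg.Agent.Lib.Helper86.HHLin
import Cfsg.Agent.Lib.Helper86.HHField
import Cfsg.Agent.Lib.Helper92.HBSyl
import Cfsg.Agent.Lib.Helper29.WrREPA
import Cfsg.Agent.Lib.Helper29.WrREPB
import Cfsg.Agent.S3783

/-!
# S3786, piece EDA (helper86 project HH): exponent drop, non-exceptional case

`G` `p`-solvable, `p` odd, `O_{p'}(G) = 1`, `p`-elements of order dividing `p ^ n` (`n ≥ 1`), and
`p` not of the form `2^k + 1` or the Sylow `2`-subgroups of `G` commutative. Then the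
`p`-elements of `H = G ⧸ O_p(G)` have order dividing `p ^ (n-1)`.

Proof. As in EDB: `V`, `ρ`, `π` (`s3787_repA/B`), `ρb : H →* (V ≃ₗ[ZMod p] V)` injective, `H`
`p`-solvable, `pCore p H = ⊥`, `xb ^ p ^ n = 1`, `(ρb xb - 1) ^ (p^n - 1) = 0` (`star_zero`).
Suppose `x₀ = xb ^ p ^ (n-1) ≠ 1`. `x₀ ∉ K = pPrimeCore p H` (a `p`-element `≠ 1`), so `x₀` does
not centralize `K` (`S3783.cent_pPrimeCore_le`); `Cfsg.Agent.Lib.Helper92.HB.hb_invariant_sylow`
gives `q`, a `q`-subgroup `Q ≤ K` normalized by `xb` and not centralized by `x₀`. `hb_field`: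
`p ^ n₀ - 1 = q ^ m`, `m ≥ 1` and `Q` not commutative. `p` odd: `q = 2`; `p - 1 ∣ p ^ n₀ - 1 = 2 ^ m`,
so `p = 2 ^ k + 1`. So by `hcase` the Sylow `2`-subgroups of `G`, hence of `H` (images), are
commutative, and `Q` lies in one of them: contradiction.
-/

set_option autoImplicit false

namespace Cfsg.Agent.Lib.Helper86.HH

open Cfsg

universe u

theorem exp_drop_a {G : Type u} [Group G] [Finite G] (p : ℕ) [Fact p.Prime] (hp2 : p ≠ 2)
    (hsol : IsPSolvable p G) (hpp : pPrimeCore p G = ⊥) [hPn : (pCore p G).Normal]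
    (hcase : (¬ ∃ k : ℕ, p = 2 ^ k + 1) ∨ ∀ S : Sylow 2 G, IsMulCommutative (S : Subgroup G))
    (n : ℕ) (hn : 1 ≤ n) (hexp : ∀ g : G, (∃ k : ℕ, g ^ p ^ k = 1) → g ^ p ^ n = 1)
    (xb : G ⧸ pCore p G) (hxb : ∃ k : ℕ, xb ^ p ^ k = 1) : xb ^ p ^ (n - 1) = 1 := by
  classical
  have hp : p.Prime := Fact.out
  have hNp : IsPGroup p ↥(pCore p G) := Cfsg.Agent.Lib.Helper40.pCore_isPGroup' p
  obtain ⟨V, iV1, iV2, iV3, ρ, π, hπ, heq, hfr⟩ :=
    Cfsg.Agent.Lib.Helper29.s3787_repA p (pCore p G) hNp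
  have hker : ρ.ker = pCore p G :=
    Cfsg.Agent.Lib.Helper29.s3787_repB p hsol hpp ρ π hπ heq hfr
  -- lift `xb` to a `p`-element of `G`
  obtain ⟨x, hxbdef⟩ : ∃ x : G, xb = QuotientGroup.mk x :=
    ⟨_, (QuotientGroup.mk_surjective xb).choose_spec.symm⟩
  have hx : ∃ k : ℕ, x ^ p ^ k = 1 := by
    obtain ⟨k, hk⟩ := hxb
    have h1 : x ^ p ^ k ∈ pCore p G := by
      rw [← QuotientGroup.eq_one_iff, QuotientGroup.mk_pow, ← hxbdef]
      exact hk
    obtain ⟨j, hj⟩ := hNp ⟨x ^ p ^ k, h1⟩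
    refine ⟨k + j, ?_⟩
    rw [pow_add, pow_mul]
    exact congrArg Subtype.val hj
  have hxn : x ^ p ^ n = 1 := hexp x hx
  have hzero := star_zero p (pCore p G) hNp ρ π hπ heq n hexp x hx
  have hxbn : xb ^ p ^ n = 1 := by
    rw [hxbdef, ← QuotientGroup.mk_pow, hxn]
    rfl
  by_contra hx0
  have hHsol : IsPSolvable p (G ⧸ pCore p G) :=
    Cfsg.Agent.Lib.Helper75.Fratt.isPSolvable_quotient (pCore p G) hsol
  have hH1 : pCore p (G ⧸ pCore p G) = ⊥ := Cfsg.Agent.S3783.pCore_quot_bot p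
  have hKC := Cfsg.Agent.S3783.cent_pPrimeCore_le hHsol hH1
  have hKn : (pPrimeCore p (G ⧸ pCore p G)).Normal := Cfsg.Agent.Lib.Helper81.pPrimeCore_normal p
  have hKc : (Nat.card (pPrimeCore p (G ⧸ pCore p G))).Coprime p :=
    Cfsg.Agent.Lib.Helper81.pPrimeCore_coprime p
  obtain ⟨yb, hyb⟩ : ∃ yb, yb = xb ^ p ^ (n - 1) := ⟨_, rfl⟩
  rw [← hyb] at hx0
  have hybK : yb ∉ pPrimeCore p (G ⧸ pCore p G) := by
    intro h
    have hybp : yb ^ p = 1 := by
      rw [hyb, ← pow_mul, ← pow_succ, Nat.sub_add_cancel hn, hxbn]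
    have h1 : orderOf yb = p := orderOf_eq_prime hybp hx0
    have h2 : orderOf yb ∣ Nat.card (pPrimeCore p (G ⧸ pCore p G)) := by
      have h3 := orderOf_dvd_natCard (⟨yb, h⟩ : pPrimeCore p (G ⧸ pCore p G))
      rwa [Subgroup.orderOf_mk] at h3
    rw [h1] at h2
    exact (Nat.Prime.coprime_iff_not_dvd hp).1 hKc.symm h2
  have hybC : yb ∉ Subgroup.centralizer
      (pPrimeCore p (G ⧸ pCore p G) : Set (G ⧸ pCore p G)) := fun h => hybK (hKC h)
  have hyK : ∃ k ∈ pPrimeCore p (G ⧸ pCore p G), yb * k ≠ k * yb := by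
    by_contra hcon
    push Not at hcon
    apply hybC
    rw [Subgroup.mem_centralizer_iff]
    intro h hh
    exact (hcon h hh).symm
  obtain ⟨q, Q, hq, hqp, hQK, hQq, hxQ, g, hgQ, hgy⟩ :=
    Cfsg.Agent.Lib.Helper92.HB.hb_invariant_sylow (pPrimeCore p (G ⧸ pCore p G)) hKc xb yb n
      hxbn (by rw [hyb]; exact Subgroup.pow_mem _ (Subgroup.mem_zpowers xb) _) hyK
  have hqf : Fact q.Prime := ⟨hq⟩
  -- the representation of the quotient
  obtain ⟨ρb, hρb⟩ : ∃ ρb : (G ⧸ pCore p G) →* (V ≃ₗ[ZMod p] V),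
      ∀ g : G, ρb (QuotientGroup.mk g) = ρ g :=
    ⟨QuotientGroup.lift (pCore p G) ρ (le_of_eq hker.symm), fun g => rfl⟩
  have hρbinj : Function.Injective ρb := by
    rw [injective_iff_map_eq_one]
    intro h hh
    obtain ⟨g', rfl⟩ := QuotientGroup.mk_surjective h
    rw [hρb] at hh
    have h1 : g' ∈ pCore p G := by
      rw [← hker]
      exact MonoidHom.mem_ker.2 hh
    exact (QuotientGroup.eq_one_iff g').2 h1
  have hzero' : ((ρb xb : Module.End (ZMod p) V) - 1) ^ (p ^ n - 1) = 0 := by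
    rw [hxbdef, hρb]
    exact hzero
  have hxQ' : ∀ u ∈ Q, xb * u * xb⁻¹ ∈ Q := fun u hu =>
    (Subgroup.mem_normalizer_iff.1 hxQ u).1 hu
  obtain ⟨n₀, m, hn₀, hn₀n, hm, hpq, u, hu, w, hw, huw⟩ :=
    hb_field ρb q hqp Q hQq xb hxQ' n hn hxbn hzero'
      ⟨g, hgQ, fun h => hgy (hρbinj (by rw [map_mul, map_mul, hyb]; exact h))⟩
  -- `q = 2` and `p = 2 ^ k + 1`
  have hpodd : Odd p := hp.eq_two_or_odd'.resolve_left hp2
  have hpn1 : 1 ≤ p ^ n₀ := Nat.one_le_pow _ _ hp.pos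
  have heven : Even (p ^ n₀ - 1) := Nat.Odd.sub_odd hpodd.pow odd_one
  have hq2 : q = 2 := by
    rw [hpq] at heven
    have h1 : 2 ∣ q := Nat.prime_two.dvd_of_dvd_pow heven.two_dvd
    exact ((Nat.prime_dvd_prime_iff_eq Nat.prime_two hq).1 h1).symm
  subst hq2
  have hpk : ∃ k : ℕ, p = 2 ^ k + 1 := by
    have h1 : p - 1 ∣ p ^ n₀ - 1 := by
      simpa only [one_pow] using Nat.sub_dvd_pow_sub_pow p 1 n₀
    rw [hpq] at h1
    obtain ⟨k, -, hk⟩ := (Nat.dvd_prime_pow Nat.prime_two).1 h1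
    have := hp.pos
    exact ⟨k, by omega⟩
  rcases hcase with hc | hc
  · exact hc hpk
  · -- `Q` lies in the image of a commutative Sylow 2-subgroup of `G`
    apply huw
    obtain ⟨Qb, hQb⟩ := hQq.exists_le_sylow
    obtain ⟨Q', rfl⟩ := Sylow.mapSurjective_surjective
      (QuotientGroup.mk'_surjective (pCore p G)) 2 Qb
    have hcomm := hc Q'
    have hu2 := hQb hu
    have hw2 := hQb hw
    rw [Sylow.coe_mapSurjective] at hu2 hw2
    obtain ⟨u', hu', rfl⟩ := hu2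
    obtain ⟨w', hw', rfl⟩ := hw2
    rw [← map_mul, ← map_mul, ← map_mul, ← map_mul]
    congr 2
    exact congrArg Subtype.val
      (hcomm.is_comm.comm (⟨u', hu'⟩ : (Q' : Subgroup G)) ⟨w', hw'⟩)

end Cfsg.Agent.Lib.Helper86.HH
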