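import Mathlib
import Cfsg.Agent.Lib.Helper92.HBSyl

/-!
# S3786, piece INV (helper86 project HH)

A `p`-subgroup `S` acting on a normal `p'`-subgroup `K`: if `c` does not centralize `K`, then `c`
does not centralize some `S`-invariant `q`-subgroup `Q ≤ K` (an `S`-invariant Sylow `q`-subgroup).
Model: `Cfsg.Agent.Lib.Helper92.HB.hb_invariant_sylow` (the same statement for `S = ⟨x⟩`).
-/

set_option autoImplicit false

namespace Cfsg.Agent.Lib.Helper86.HH

open Cfsg.Agent.Lib.Helper92.HB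

universe u

/-- Coprime action: a `p`-subgroup normalises some Sylow `r`-subgroup of a normal
`p'`-subgroup `M`. -/
private theorem hhinv_exists_invariant_sylow {G : Type u} [Group G] [Finite G] {p : ℕ}
    [Fact p.Prime] (M : Subgroup G) [M.Normal] (hM : (Nat.card M).Coprime p) (S : Subgroup G)
    (hS : IsPGroup p S) (r : ℕ) [Fact r.Prime] :
    ∃ R : Subgroup G, R ≤ M ∧ IsPGroup r R ∧ Nat.card R = r ^ (Nat.card M).factorization r ∧
      ∀ s ∈ S, ∀ h ∈ R, s * h * s⁻¹ ∈ R := by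
  have hp : p.Prime := Fact.out
  obtain ⟨R₀⟩ : Nonempty (Sylow r ↥M) := inferInstance
  have hNM : Subgroup.normalizer (((R₀ : Subgroup ↥M).map M.subtype : Subgroup G) : Set G) ⊔ M
      = ⊤ := Sylow.normalizer_sup_eq_top R₀
  have hNidx : ¬ p ∣ (Subgroup.normalizer
      (((R₀ : Subgroup ↥M).map M.subtype : Subgroup G) : Set G)).index := by
    rw [hbs_index_eq_relIndex _ M hNM]
    intro h
    have h1 : p ∣ Nat.card M := h.trans (Subgroup.relIndex_dvd_card _ M)
    exact (Nat.Prime.coprime_iff_not_dvd hp).mp hM.symm h1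
  obtain ⟨S₂, hS₂⟩ := hbs_sylow_le_of_not_dvd_index p _ hNidx
  obtain ⟨S₁, hSS₁⟩ := hS.exists_le_sylow
  obtain ⟨g, hg⟩ := MulAction.exists_smul_eq G S₂ S₁
  refine ⟨((R₀ : Subgroup ↥M).map M.subtype).map (MulAut.conj g).toMonoidHom, ?_,
    (R₀.2.map _).map _, ?_, ?_⟩
  · rintro _ ⟨h, hh, rfl⟩
    obtain ⟨h', -, rfl⟩ := hh
    exact (inferInstance : M.Normal).conj_mem _ h'.2 g
  · rw [Subgroup.card_map_of_injective (MulAut.conj g).injective,
      Subgroup.card_map_of_injective M.subtype_injective]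
    exact R₀.card_eq_multiplicity
  · intro s hs
    have hsS : s ∈ (S₁ : Subgroup G) := hSS₁ hs
    rw [← hg, Sylow.coe_subgroup_smul, Subgroup.mem_smul_pointwise_iff_exists] at hsS
    obtain ⟨y, hyS₂, hyx⟩ := hsS
    have hyx' : s = g * y * g⁻¹ := by
      rw [← hyx]; simp [MulAut.smul_def]
    have hyN := hS₂ hyS₂
    rintro _ ⟨h, hh, rfl⟩
    refine ⟨y * h * y⁻¹, (Subgroup.mem_normalizer_iff.mp hyN h).mp hh, ?_⟩
    rw [hyx']
    simp only [MulEquiv.coe_toMonoidHom, MulAut.conj_apply]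
    group

theorem inv_sylow_pgroup {H : Type u} [Group H] [Finite H] {p : ℕ} [Fact p.Prime]
    (K : Subgroup H) [K.Normal] (hK : (Nat.card K).Coprime p) (S : Subgroup H) (hS : IsPGroup p S)
    (c : H) (hc : ∃ k ∈ K, c * k ≠ k * c) :
    ∃ (q : ℕ) (Q : Subgroup H), q.Prime ∧ q ≠ p ∧ Q ≤ K ∧ IsPGroup q Q ∧
      (∀ s ∈ S, ∀ u ∈ Q, s * u * s⁻¹ ∈ Q) ∧ ∃ u ∈ Q, c * u ≠ u * c := by
  have hp : p.Prime := Fact.out
  by_contra hcon
  push Not at hcon
  have hdvd : ∀ q : ℕ, q.Prime → q ^ (Nat.card K).factorization q ∣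
      Nat.card (K ⊓ Subgroup.centralizer ({c} : Set H) : Subgroup H) := by
    intro q hq
    by_cases hqK : q ∣ Nat.card K
    · have hqp : q ≠ p := by
        rintro rfl
        exact (Nat.Prime.coprime_iff_not_dvd hp).mp hK.symm hqK
      have := Fact.mk hq
      obtain ⟨R, hRK, hR, hRc, hRx⟩ := hhinv_exists_invariant_sylow K hK S hS q
      have hc' := hcon q R hq hqp hRK hR hRx
      have hRC : R ≤ K ⊓ Subgroup.centralizer ({c} : Set H) := by
        intro g hg
        refine Subgroup.mem_inf.mpr ⟨hRK hg, ?_⟩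
        rw [Subgroup.mem_centralizer_iff]
        intro h hh
        rw [Set.mem_singleton_iff] at hh
        subst hh
        exact hc' g hg
      rw [← hRc]
      exact Subgroup.card_dvd_of_le hRC
    · rw [Nat.factorization_eq_zero_of_not_dvd hqK, pow_zero]
      exact one_dvd _
  have hKne : Nat.card K ≠ 0 := Nat.card_pos.ne'
  have hCne : Nat.card (K ⊓ Subgroup.centralizer ({c} : Set H) : Subgroup H) ≠ 0 :=
    Nat.card_pos.ne'
  have hKC : Nat.card K ∣ Nat.card (K ⊓ Subgroup.centralizer ({c} : Set H) : Subgroup H) := by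
    rw [← Nat.factorization_prime_le_iff_dvd hKne hCne]
    intro q hq
    exact (hq.pow_dvd_iff_le_factorization hCne).mp (hdvd q hq)
  have hle : K ≤ K ⊓ Subgroup.centralizer ({c} : Set H) := by
    have h1 : K ⊓ Subgroup.centralizer ({c} : Set H) = K :=
      Subgroup.eq_of_le_of_card_ge inf_le_left (Nat.le_of_dvd Nat.card_pos hKC)
    rw [h1]
  obtain ⟨k, hk, hne⟩ := hc
  have hkC := (Subgroup.mem_inf.mp (hle hk)).2
  rw [Subgroup.mem_centralizer_iff] at hkC
  exact hne (hkC c rfl)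

end Cfsg.Agent.Lib.Helper86.HH
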