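import Mathlib
import Cfsg.Agent.S0633

/-!
# S3786, piece MINP2 (helper86 project HH)

From Hall–Higman Theorem B (`Cfsg.Agent.S0633.result`): for `p` odd and `x` of order `p ^ n`
(`n ≥ 1`) in a `p`-solvable linear group `H` with `O_p(H) = 1` over `ZMod p`, the nilpotency index
of `x - 1` is at least `p ^ n - p ^ (n-1) ≥ 2 p ^ (n-1)`; so `(x - 1) ^ (2 p^(n-1) - 1) ≠ 0`.
Model: `Cfsg.Agent.Lib.Helper17.s3787_minp` (Lib/Helper17/WrMinp.lean).
-/

set_option autoImplicit false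

namespace Cfsg.Agent.Lib.Helper86.HH

open Cfsg

universe v

/-- arithmetic: `2 p ^ k ≤ p ^ (k - j) (p ^ (j + 1) - 1)` for `3 ≤ p`, `j ≤ k` -/
theorem minp_arith (p : ℕ) (hp3 : 3 ≤ p) (k j : ℕ) (hj : j ≤ k) :
    2 * p ^ k ≤ p ^ (k - j) * (p ^ (j + 1) - 1) := by
  have hpj : 1 ≤ p ^ j := Nat.one_le_pow _ _ (by omega)
  have h1 : 2 * p ^ j ≤ p ^ (j + 1) - 1 := by
    have h2 : 3 * p ^ j ≤ p ^ (j + 1) := by
      rw [pow_succ, mul_comm]
      exact Nat.mul_le_mul_left _ hp3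
    omega
  calc 2 * p ^ k = p ^ (k - j) * (2 * p ^ j) := by
        have : p ^ k = p ^ (k - j) * p ^ j := by
          rw [← pow_add, Nat.sub_add_cancel hj]
        rw [this]
        ring
    _ ≤ p ^ (k - j) * (p ^ (j + 1) - 1) := Nat.mul_le_mul_left _ h1

theorem minp_bound {p : ℕ} [Fact p.Prime] (hp2 : p ≠ 2)
    {V : Type v} [AddCommGroup V] [Module (ZMod p) V] [Finite V]
    (H : Subgroup (V ≃ₗ[ZMod p] V)) (hsol : IsPSolvable p H) (hOp : pCore p H = ⊥)
    (x : V ≃ₗ[ZMod p] V) (hx : x ∈ H) (n : ℕ) (hn : 1 ≤ n) (hord : orderOf x = p ^ n) :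
    ((x : Module.End (ZMod p) V) - 1) ^ (2 * p ^ (n - 1) - 1) ≠ 0 := by
  have hp : p.Prime := Fact.out
  have hp3 : 3 ≤ p := by
    have := hp.two_le
    omega
  intro hzero
  haveI : Nontrivial V := by
    by_contra hnt
    rw [not_nontrivial_iff_subsingleton] at hnt
    have h1 : x = 1 := by
      ext v
      exact Subsingleton.elim _ _
    rw [h1, orderOf_one] at hord
    have : 1 < p ^ n := Nat.one_lt_pow (by omega) hp.one_lt
    omega
  haveI : Finite (V ≃ₗ[ZMod p] V) :=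
    Finite.of_injective (fun f : V ≃ₗ[ZMod p] V => (f : V → V)) DFunLike.coe_injective
  have hprime : Prime (Polynomial.X - 1 : Polynomial (ZMod p)) := by
    simpa using Polynomial.prime_X_sub_C (1 : ZMod p)
  have hdvd : minpoly (ZMod p) (x : Module.End (ZMod p) V) ∣
      (Polynomial.X - 1) ^ (2 * p ^ (n - 1) - 1) := by
    apply minpoly.dvd
    simp [hzero]
  obtain ⟨r, hr_le, hassoc⟩ := (dvd_prime_pow hprime _).1 hdvd
  have hint : IsIntegral (ZMod p) (x : Module.End (ZMod p) V) := Algebra.IsIntegral.isIntegral _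
  have hmon : ((Polynomial.X - 1 : Polynomial (ZMod p)) ^ r).Monic := by
    have := (Polynomial.monic_X_sub_C (1 : ZMod p)).pow r
    simpa using this
  have hr : minpoly (ZMod p) (x : Module.End (ZMod p) V) = (Polynomial.X - 1) ^ r :=
    Polynomial.eq_of_monic_of_associated (minpoly.monic hint) hmon hassoc
  have h := Cfsg.Agent.S0633.result H hsol hOp x hx n hord r hr
  obtain ⟨k, rfl⟩ : ∃ k, n = k + 1 := ⟨n - 1, by omega⟩
  rw [Nat.add_sub_cancel] at hr_le hzero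
  have hpk : 1 ≤ p ^ k := Nat.one_le_pow _ _ (by omega)
  rcases h with h | ⟨n₀, q, m, hn1, hn2, -, -, -, -, hle⟩
  · have h3 : 3 * p ^ k ≤ p ^ (k + 1) := by
      rw [pow_succ, mul_comm]
      exact Nat.mul_le_mul_left _ hp3
    omega
  · obtain ⟨j, rfl⟩ : ∃ j, n₀ = j + 1 := ⟨n₀ - 1, by omega⟩
    have hjk : j ≤ k := by omega
    have h4 := minp_arith p hp3 k j hjk
    have h5 : k + 1 - (j + 1) = k - j := by omega
    rw [h5] at hle
    omega

end Cfsg.Agent.Lib.Helper86.HH
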