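import Mathlib
import Cfsg.Agent.Lib.Helper86.HHLin
import Cfsg.Agent.Lib.Helper86.HHMinp
import Cfsg.Agent.Lib.Helper29.WrREPA
import Cfsg.Agent.Lib.Helper29.WrREPB
import Cfsg.Agent.Lib.Helper78.WrRANGE
import Cfsg.Agent.Lib.Helper40.HallHigman

/-!
# S3786, piece UPLIN (helper86 project HH)

`X` `p`-solvable with `O_{p'}(X) = 1`, `p` odd, `x ^ p ^ n = 1` and `x ^ p ^ (n-1) ∉ O_p(X)`:
then there is `y ∈ O_p(X)` such that `x ^ p ^ (n-1)` and `(y x) ^ p ^ (n-1)` do not commute.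

Proof: linearize `O_p(X)` (`s3787_repA`, `s3787_repB`, `s3787_range`); `τ = ρ x` has order `p ^ n`,
so `(τ - 1) ^ (2 p^(n-1) - 1) u ≠ 0` for some `u` (`minp_bound`); lift `u = π y`; by
`norm_formula_lin` `(y x) ^ p^(n-1) = r x₀` with `π r = (τ-1)^(p^(n-1)-1) u` (`geom_lin`); if `x₀`
commuted with `r x₀` then `x₀ r x₀⁻¹ = r`, so `(τ^(p^(n-1)) - 1) (π r) = 0`, i.e.
`(τ-1)^(2 p^(n-1) - 1) u = 0` (`Cfsg.Agent.Lib.Helper17.hh_sub_one_pow`).
-/

set_option autoImplicit false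

namespace Cfsg.Agent.Lib.Helper86.HH

open Cfsg

universe u

/-- powers of a linear automorphism, as an endomorphism -/
theorem uplin_coe_pow {p : ℕ} {V : Type u} [AddCommGroup V] [Module (ZMod p) V]
    (τ : V ≃ₗ[ZMod p] V) (k : ℕ) (w : V) :
    (τ ^ k) w = ((τ : Module.End (ZMod p) V) ^ k) w := by
  rw [LinearEquiv.coe_pow, Module.End.coe_pow]
  rfl

theorem upper_lin {X : Type u} [Group X] [Finite X] {p : ℕ} [Fact p.Prime] (hp2 : p ≠ 2)
    (hsol : IsPSolvable p X) (hpp : pPrimeCore p X = ⊥) (n : ℕ) (hn : 1 ≤ n)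
    (x : X) (hxn : x ^ p ^ n = 1) (hx0 : x ^ p ^ (n - 1) ∉ pCore p X) :
    ∃ y ∈ pCore p X,
      x ^ p ^ (n - 1) * (y * x) ^ p ^ (n - 1) ≠ (y * x) ^ p ^ (n - 1) * x ^ p ^ (n - 1) := by
  classical
  have hp : p.Prime := Fact.out
  have hN : (pCore p X).Normal := Cfsg.Agent.Lib.Helper40.pCore_normal' p
  have hNp : IsPGroup p ↥(pCore p X) := Cfsg.Agent.Lib.Helper40.pCore_isPGroup' p
  obtain ⟨V, iA, iM, iF, ρ, π, hπ, heq, hfr⟩ :=
    Cfsg.Agent.Lib.Helper29.s3787_repA p (pCore p X) hNp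
  have hker : ρ.ker = pCore p X :=
    Cfsg.Agent.Lib.Helper29.s3787_repB p hsol hpp ρ π hπ heq hfr
  obtain ⟨hsolH, hOpH⟩ := Cfsg.Agent.Lib.Helper78.s3787_range p hsol ρ hker
  obtain ⟨m, rfl⟩ : ∃ m, n = m + 1 := ⟨n - 1, by omega⟩
  simp only [Nat.add_sub_cancel] at hx0 ⊢
  set τ : V ≃ₗ[ZMod p] V := ρ x with hτ
  have hτmem : τ ∈ ρ.range := ⟨x, rfl⟩
  have hτ1 : τ ^ p ^ (m + 1) = 1 := by rw [hτ, ← map_pow, hxn, map_one]
  have hτ0 : ¬ τ ^ p ^ m = 1 := by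
    intro h
    apply hx0
    rw [← hker, MonoidHom.mem_ker, map_pow]
    exact h
  have hord : orderOf τ = p ^ (m + 1) := orderOf_eq_prime_pow hτ0 hτ1
  have hmin := minp_bound hp2 ρ.range hsolH hOpH τ hτmem (m + 1) (by omega) hord
  simp only [Nat.add_sub_cancel] at hmin
  -- a vector `u` not killed
  obtain ⟨u, hu⟩ : ∃ u : V, (((τ : Module.End (ZMod p) V) - 1) ^ (2 * p ^ m - 1)) u ≠ 0 := by
    by_contra hcon
    push Not at hcon
    apply hmin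
    ext u
    simpa using hcon u
  obtain ⟨y', hy'⟩ := hπ (Multiplicative.ofAdd u)
  refine ⟨(y' : X), y'.2, ?_⟩
  intro hcomm
  obtain ⟨r, hr1, hr2⟩ := norm_formula_lin p (pCore p X) ρ π heq x y' (p ^ m)
  rw [hy', toAdd_ofAdd, ← LinearMap.sum_apply, geom_lin] at hr2
  -- `x₀` commutes with `r`
  rw [hr1] at hcomm
  have hcr : x ^ p ^ m * (r : X) * (x ^ p ^ m)⁻¹ = (r : X) := by
    have h1 : x ^ p ^ m * (r : X) = (r : X) * x ^ p ^ m := by
      have h2 : x ^ p ^ m * (r : X) * x ^ p ^ m = (r : X) * x ^ p ^ m * x ^ p ^ m := by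
        rw [mul_assoc]
        exact hcomm
      exact mul_right_cancel h2
    rw [h1, mul_inv_cancel_right]
  have h3 := heq (x ^ p ^ m) r
  have h4 : (⟨x ^ p ^ m * (r : X) * (x ^ p ^ m)⁻¹, hN.conj_mem r r.2 (x ^ p ^ m)⟩ :
      ↥(pCore p X)) = r := Subtype.ext hcr
  rw [h4] at h3
  have h5 : Multiplicative.toAdd (π r) = (ρ (x ^ p ^ m)) (Multiplicative.toAdd (π r)) := by
    conv_lhs => rw [h3]
    rfl
  rw [map_pow, ← hτ, uplin_coe_pow] at h5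
  set w : V := Multiplicative.toAdd (π r) with hw
  have h6 : (((τ : Module.End (ZMod p) V) - 1) ^ (p ^ m)) w = 0 := by
    rw [Cfsg.Agent.Lib.Helper17.hh_sub_one_pow (ZMod p) p (τ : Module.End (ZMod p) V) m]
    rw [LinearMap.sub_apply, ← h5]
    simp
  apply hu
  have hpm : 1 ≤ p ^ m := Nat.one_le_pow _ _ hp.pos
  have h7 : 2 * p ^ m - 1 = p ^ m + (p ^ m - 1) := by omega
  rw [h7, pow_add, Module.End.mul_apply, ← hr2]
  exact h6

end Cfsg.Agent.Lib.Helper86.HH
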