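import Mathlib
import Cfsg.Agent.Lib.Helper86.HHUpLin
import Cfsg.Agent.Lib.Helper78.WrSYL
import Cfsg.Agent.Lib.Helper75.FrattiniAct

/-!
# S3786, piece UPPER (helper86 project HH)

Lift of `upper_lin` from `H ⧸ O_{p'}(H)` to `H`: if the `p`-elements of `H` have order dividing
`p ^ n` and `x` is a `p`-element with `x ^ p ^ (n-1) ∉ O_{p',p}(H)`, there are two elements `g, g'`
of one `p`-subgroup `S` whose `p ^ (n-1)`-th powers do not commute.

Proof: `X = H ⧸ pPrimeCore p H` (`Fratt.isPSolvable_quotient`, `Fratt.pPrimeCore_quotient_eq_bot'`),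
`upper_lin` gives `ỹ ∈ pCore p X`; `S` = a Sylow `p`-subgroup containing `x`; `s3787_syl` lifts
`ỹ` to `y ∈ S`; `g = x`, `g' = y * x`.
-/

set_option autoImplicit false

namespace Cfsg.Agent.Lib.Helper86.HH

open Cfsg

universe u

theorem upper_pair {H : Type u} [Group H] [Finite H] {p : ℕ} [Fact p.Prime] (hp2 : p ≠ 2)
    (hsol : IsPSolvable p H) [hKn : (pPrimeCore p H).Normal] (n : ℕ) (hn : 1 ≤ n)
    (hexp : ∀ g : H, (∃ k : ℕ, g ^ p ^ k = 1) → g ^ p ^ n = 1)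
    (x : H) (hx : ∃ k : ℕ, x ^ p ^ k = 1)
    (hxL : QuotientGroup.mk' (pPrimeCore p H) (x ^ p ^ (n - 1)) ∉ pCore p (H ⧸ pPrimeCore p H)) :
    ∃ (S : Subgroup H) (g g' : H), IsPGroup p S ∧ g ∈ S ∧ g' ∈ S ∧
      g ^ p ^ (n - 1) * g' ^ p ^ (n - 1) ≠ g' ^ p ^ (n - 1) * g ^ p ^ (n - 1) := by
  classical
  have hp : p.Prime := Fact.out
  have hsolX : IsPSolvable p (H ⧸ pPrimeCore p H) :=
    Cfsg.Agent.Lib.Helper75.Fratt.isPSolvable_quotient (pPrimeCore p H) hsol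
  have hppX : pPrimeCore p (H ⧸ pPrimeCore p H) = ⊥ :=
    Cfsg.Agent.Lib.Helper75.Fratt.pPrimeCore_quotient_eq_bot' p
  have hxn : (QuotientGroup.mk' (pPrimeCore p H) x) ^ p ^ n = 1 := by
    rw [← map_pow, hexp x hx, map_one]
  have hx0 : (QuotientGroup.mk' (pPrimeCore p H) x) ^ p ^ (n - 1) ∉
      pCore p (H ⧸ pPrimeCore p H) := by
    rw [← map_pow]; exact hxL
  obtain ⟨yb, hyb, hne⟩ := upper_lin hp2 hsolX hppX n hn _ hxn hx0
  obtain ⟨k, hk⟩ := hx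
  have hxp : IsPGroup p (Subgroup.zpowers x) := by
    obtain ⟨j, -, hj⟩ := (Nat.dvd_prime_pow hp).mp (orderOf_dvd_of_pow_eq_one hk)
    exact IsPGroup.of_card (n := j) (by rw [Nat.card_zpowers, hj])
  obtain ⟨S, hS⟩ := hxp.exists_le_sylow
  have hxS : x ∈ (S : Subgroup H) := hS (Subgroup.mem_zpowers x)
  obtain ⟨y, hyS, rfl⟩ := Subgroup.mem_map.mp
    (Cfsg.Agent.Lib.Helper78.s3787_syl p S (pPrimeCore p H) hyb)
  refine ⟨S, x, y * x, S.isPGroup', hxS, Subgroup.mul_mem _ hyS hxS, fun h => hne ?_⟩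
  have h1 := congrArg (QuotientGroup.mk' (pPrimeCore p H)) h
  simpa only [map_mul, map_pow] using h1

end Cfsg.Agent.Lib.Helper86.HH
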