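import Mathlib
import Cfsg.Agent.Lib.Helper86.HHUpper
import Cfsg.Agent.Lib.Helper86.HHInv
import Cfsg.Agent.Lib.Helper86.HH2G
import Cfsg.Agent.S3783

/-!
# S3786, piece GT (helper86 project HH): the group-theoretic core of the exponent drop

`H` `p`-solvable, `p` odd, `O_p(H) = 1`, `p`-elements of order dividing `p ^ n`, and `(**)`:
for every `p`-element `x` and every `x`-invariant `q`-subgroup `Q` (`q ≠ p`) which has `q` odd or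
is commutative, `x ^ p ^ (n-1)` centralizes `Q`. Then `x ^ p ^ (n-1) ∈ O_{p',p}(H)` for every
`p`-element `x`.

Proof. Otherwise `upper_pair` gives a `p`-subgroup `S` and `g, g' ∈ S` with
`c = g₀ g'₀ g₀⁻¹ g'₀⁻¹ ≠ 1`. `c` is a `p`-element `≠ 1`, so `c ∉ K = pPrimeCore p H`
(`Cfsg.Agent.Lib.Helper81.pPrimeCore_coprime`), hence `c` does not centralize `K`
(`Cfsg.Agent.S3783.cent_pPrimeCore_le`). `inv_sylow_pgroup` gives an `S`-invariant `q`-subgroup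
`Q ≤ K` not centralized by `c`. If `q ≠ 2`, `hstar` (for `g` and `g'`) shows `g₀, g'₀` centralize
`Q`, so `c` does. If `q = 2`, `two_group_core` with `T = Q` (`h1`, `h2` from `hstar`). Contradiction.
-/

set_option autoImplicit false

namespace Cfsg.Agent.Lib.Helper86.HH

open Cfsg

universe u

theorem gt_core {H : Type u} [Group H] [Finite H] {p : ℕ} [Fact p.Prime] (hp2 : p ≠ 2)
    (hsol : IsPSolvable p H) (hOp : pCore p H = ⊥) [hKn : (pPrimeCore p H).Normal]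
    (n : ℕ) (hn : 1 ≤ n)
    (hexp : ∀ g : H, (∃ k : ℕ, g ^ p ^ k = 1) → g ^ p ^ n = 1)
    (hstar : ∀ (q : ℕ) [Fact q.Prime], q ≠ p → ∀ (Q : Subgroup H), IsPGroup q Q →
        ∀ x : H, (∃ k : ℕ, x ^ p ^ k = 1) → (∀ u ∈ Q, x * u * x⁻¹ ∈ Q) →
        (q ≠ 2 ∨ ∀ u ∈ Q, ∀ w ∈ Q, u * w = w * u) →
        ∀ u ∈ Q, x ^ p ^ (n - 1) * u = u * x ^ p ^ (n - 1))
    (x : H) (hx : ∃ k : ℕ, x ^ p ^ k = 1) :
    QuotientGroup.mk' (pPrimeCore p H) (x ^ p ^ (n - 1)) ∈ pCore p (H ⧸ pPrimeCore p H) := by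
  classical
  by_contra hxL
  obtain ⟨S, g, g', hS, hg, hg', hne⟩ := upper_pair hp2 hsol n hn hexp x hx hxL
  have hgp : ∃ k : ℕ, g ^ p ^ k = 1 := by
    obtain ⟨k, hk⟩ := hS ⟨g, hg⟩
    exact ⟨k, by simpa only [Subgroup.coe_pow, Subgroup.coe_one] using congrArg Subtype.val hk⟩
  have hg'p : ∃ k : ℕ, g' ^ p ^ k = 1 := by
    obtain ⟨k, hk⟩ := hS ⟨g', hg'⟩
    exact ⟨k, by simpa only [Subgroup.coe_pow, Subgroup.coe_one] using congrArg Subtype.val hk⟩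
  obtain ⟨g₀, hg₀⟩ : ∃ g₀ : H, g₀ = g ^ p ^ (n - 1) := ⟨_, rfl⟩
  obtain ⟨g₁, hg₁⟩ : ∃ g₁ : H, g₁ = g' ^ p ^ (n - 1) := ⟨_, rfl⟩
  rw [← hg₀, ← hg₁] at hne
  obtain ⟨c, hcdef⟩ : ∃ c : H, c = g₀ * g₁ * g₀⁻¹ * g₁⁻¹ := ⟨_, rfl⟩
  have hc1 : c ≠ 1 := by
    intro h
    apply hne
    rw [hcdef] at h
    calc g₀ * g₁ = (g₀ * g₁ * g₀⁻¹ * g₁⁻¹) * (g₁ * g₀) := by group
      _ = g₁ * g₀ := by rw [h, one_mul]
  have hcS : c ∈ S := by
    rw [hcdef, hg₀, hg₁]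
    exact S.mul_mem (S.mul_mem (S.mul_mem (S.pow_mem hg _) (S.pow_mem hg' _))
      (S.inv_mem (S.pow_mem hg _))) (S.inv_mem (S.pow_mem hg' _))
  have hKc : (Nat.card (pPrimeCore p H)).Coprime p :=
    Cfsg.Agent.Lib.Helper81.pPrimeCore_coprime p
  have hcK : c ∉ pPrimeCore p H := by
    intro hcK
    obtain ⟨k, hk⟩ := hS ⟨c, hcS⟩
    have hk' : c ^ p ^ k = 1 := by
      simpa only [Subgroup.coe_pow, Subgroup.coe_one] using congrArg Subtype.val hk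
    have h1 : orderOf c ∣ p ^ k := orderOf_dvd_of_pow_eq_one hk'
    have h2 : orderOf c ∣ Nat.card (pPrimeCore p H) := by
      have h3 := orderOf_dvd_natCard (⟨c, hcK⟩ : pPrimeCore p H)
      rwa [Subgroup.orderOf_mk] at h3
    have h3 : orderOf c ∣ 1 := by
      have hcop : (Nat.card (pPrimeCore p H)).Coprime (p ^ k) := Nat.Coprime.pow_right k hKc
      rw [← Nat.Coprime.gcd_eq_one hcop]
      exact Nat.dvd_gcd h2 h1
    exact hc1 (orderOf_eq_one_iff.1 (Nat.dvd_one.1 h3))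
  have hcent : ∃ k ∈ pPrimeCore p H, c * k ≠ k * c := by
    by_contra hcon
    push Not at hcon
    apply hcK
    apply Cfsg.Agent.S3783.cent_pPrimeCore_le hsol hOp
    rw [Subgroup.mem_centralizer_iff]
    intro k hk
    exact (hcon k hk).symm
  obtain ⟨q, Q, hq, hqp, hQK, hQ, hSQ, u, huQ, hcu⟩ :=
    inv_sylow_pgroup (pPrimeCore p H) hKc S hS c hcent
  have : Fact q.Prime := ⟨hq⟩
  apply hcu
  by_cases hq2 : q = 2
  · subst hq2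
    have hgn : g ^ p ^ n = 1 := hexp g hgp
    have hg'n : g' ^ p ^ n = 1 := hexp g' hg'p
    have h1 : ∀ A : Subgroup H, A ≤ Q → (∀ a ∈ A, ∀ b ∈ A, a * b = b * a) →
        (∀ a ∈ A, g * a * g⁻¹ ∈ A) → ∀ a ∈ A, g ^ p ^ (n - 1) * a = a * g ^ p ^ (n - 1) := by
      intro A hAQ hcomm hinv
      exact hstar 2 hqp A (hQ.to_le hAQ) g hgp hinv (Or.inr hcomm)
    have h2 : ∀ A : Subgroup H, A ≤ Q → (∀ a ∈ A, ∀ b ∈ A, a * b = b * a) →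
        (∀ a ∈ A, g' * a * g'⁻¹ ∈ A) → ∀ a ∈ A, g' ^ p ^ (n - 1) * a = a * g' ^ p ^ (n - 1) := by
      intro A hAQ hcomm hinv
      exact hstar 2 hqp A (hQ.to_le hAQ) g' hg'p hinv (Or.inr hcomm)
    have h3 := two_group_core hp2 Q S hQ hS hSQ n hn g g' hg hg' hgn hg'n h1 h2 u huQ
    rw [hcdef, hg₀, hg₁]
    exact h3
  · have h1 := hstar q hqp Q hQ g hgp (fun u hu => hSQ g hg u hu) (Or.inl hq2) u huQ
    have h2 := hstar q hqp Q hQ g' hg'p (fun u hu => hSQ g' hg' u hu) (Or.inl hq2) u huQ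
    rw [← hg₀] at h1
    rw [← hg₁] at h2
    rw [hcdef]
    have h1' : g₀⁻¹ * u = u * g₀⁻¹ := by
      calc g₀⁻¹ * u = g₀⁻¹ * (u * g₀) * g₀⁻¹ := by group
        _ = g₀⁻¹ * (g₀ * u) * g₀⁻¹ := by rw [h1]
        _ = u * g₀⁻¹ := by group
    have h2' : g₁⁻¹ * u = u * g₁⁻¹ := by
      calc g₁⁻¹ * u = g₁⁻¹ * (u * g₁) * g₁⁻¹ := by group
        _ = g₁⁻¹ * (g₁ * u) * g₁⁻¹ := by rw [h2]
        _ = u * g₁⁻¹ := by group
    calc g₀ * g₁ * g₀⁻¹ * g₁⁻¹ * u = g₀ * g₁ * g₀⁻¹ * (g₁⁻¹ * u) := by group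
      _ = g₀ * g₁ * (g₀⁻¹ * u) * g₁⁻¹ := by rw [h2']; group
      _ = g₀ * (g₁ * u) * g₀⁻¹ * g₁⁻¹ := by rw [h1']; group
      _ = (g₀ * u) * g₁ * g₀⁻¹ * g₁⁻¹ := by rw [h2]; group
      _ = u * (g₀ * g₁ * g₀⁻¹ * g₁⁻¹) := by rw [h1]; group

end Cfsg.Agent.Lib.Helper86.HH
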