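import Mathlib
import Cfsg.Agent.Lib.Helper86.HHLin
import Cfsg.Agent.Lib.Helper86.HHField
import Cfsg.Agent.Lib.Helper86.HHGT
import Cfsg.Agent.Lib.Helper29.WrREPA
import Cfsg.Agent.Lib.Helper29.WrREPB
import Cfsg.Agent.S3783

/-!
# S3786, piece EDB (helper86 project HH): exponent drop over two `p`-layers

`G` `p`-solvable, `p` odd, `O_{p'}(G) = 1`, `p`-elements of order dividing `p ^ n` (`n ≥ 1`).
Then for every `p`-element `xb` of `H = G ⧸ O_p(G)`: `xb ^ p ^ (n-1) ∈ O_{p',p}(H)`.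

Proof. `s3787_repA` / `s3787_repB` for `X = G`, `N = pCore p G`: `V`, `ρ`, `π`, `ρ.ker = pCore p G`.
`ρb = QuotientGroup.lift (pCore p G) ρ _ : H →* (V ≃ₗ[ZMod p] V)` is injective. `H` is
`p`-solvable (`Fratt.isPSolvable_quotient`), `pCore p H = ⊥` (`S3783.pCore_quot_bot`).
A `p`-element of `H` is `mk g` with `g` a `p`-element of `G` (the kernel is a `p`-group), so
`hexp` passes to `H`, and `star_zero` gives `(ρb x - 1) ^ (p^n - 1) = 0` for `p`-elements `x` of `H`.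
`hstar` of `gt_core` for `H`: by `hb_field` for `(H, ρb)`: if `x₀` did not commute with `u ∈ Q`
then (injectivity) `ρb x₀` does not commute with `ρb u`, so `p ^ n₀ - 1 = q ^ m` (even, so `q = 2`)
and `ρb Q` is not commutative: contradiction with `q ≠ 2 ∨ Q commutative`. Apply `gt_core`.
(Filled in by helper20.)
-/

set_option autoImplicit false

namespace Cfsg.Agent.Lib.Helper86.HH

open Cfsg

universe u

theorem exp_drop_b {G : Type u} [Group G] [Finite G] (p : ℕ) [Fact p.Prime] (hp2 : p ≠ 2)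
    (hsol : IsPSolvable p G) (hpp : pPrimeCore p G = ⊥) [hPn : (pCore p G).Normal]
    [hKn : (pPrimeCore p (G ⧸ pCore p G)).Normal]
    (n : ℕ) (hn : 1 ≤ n) (hexp : ∀ g : G, (∃ k : ℕ, g ^ p ^ k = 1) → g ^ p ^ n = 1)
    (xb : G ⧸ pCore p G) (hxb : ∃ k : ℕ, xb ^ p ^ k = 1) :
    QuotientGroup.mk' (pPrimeCore p (G ⧸ pCore p G)) (xb ^ p ^ (n - 1))
      ∈ pCore p ((G ⧸ pCore p G) ⧸ pPrimeCore p (G ⧸ pCore p G)) := by
  classical
  have hp : p.Prime := Fact.out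
  have hNp : IsPGroup p ↥(pCore p G) := Cfsg.Agent.Lib.Helper40.pCore_isPGroup' p
  obtain ⟨V, _, _, _, ρ, π, hπ, heq, hfr⟩ :=
    Cfsg.Agent.Lib.Helper29.s3787_repA p (pCore p G) hNp
  have hker : ρ.ker = pCore p G :=
    Cfsg.Agent.Lib.Helper29.s3787_repB p hsol hpp ρ π hπ heq hfr
  obtain ⟨ρb, hρb⟩ : ∃ ρb : (G ⧸ pCore p G) →* (V ≃ₗ[ZMod p] V),
      ∀ g : G, ρb (QuotientGroup.mk g) = ρ g :=
    ⟨QuotientGroup.lift (pCore p G) ρ (by
      intro x hx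
      rw [← hker] at hx
      exact MonoidHom.mem_ker.mp hx), fun g => rfl⟩
  have hinj : Function.Injective ρb := by
    rw [injective_iff_map_eq_one]
    intro y hy
    obtain ⟨g, rfl⟩ := QuotientGroup.mk_surjective y
    rw [hρb] at hy
    have hg : g ∈ pCore p G := by rw [← hker]; exact MonoidHom.mem_ker.mpr hy
    exact (QuotientGroup.eq_one_iff g).mpr hg
  have hsolH : IsPSolvable p (G ⧸ pCore p G) :=
    Cfsg.Agent.Lib.Helper75.Fratt.isPSolvable_quotient (pCore p G) hsol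
  have hOpH : pCore p (G ⧸ pCore p G) = ⊥ := Cfsg.Agent.S3783.pCore_quot_bot p
  have hlift : ∀ y : G ⧸ pCore p G, (∃ k : ℕ, y ^ p ^ k = 1) →
      ∃ g : G, QuotientGroup.mk g = y ∧ ∃ k : ℕ, g ^ p ^ k = 1 := by
    rintro y ⟨k, hk⟩
    obtain ⟨g, rfl⟩ := QuotientGroup.mk_surjective y
    refine ⟨g, rfl, ?_⟩
    have h1 : g ^ p ^ k ∈ pCore p G := by
      rw [← QuotientGroup.eq_one_iff, QuotientGroup.mk_pow]; exact hk
    obtain ⟨j, hj⟩ := hNp ⟨g ^ p ^ k, h1⟩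
    have hj' : (g ^ p ^ k) ^ p ^ j = 1 := congrArg Subtype.val hj
    refine ⟨k + j, ?_⟩
    rw [pow_add, pow_mul]; exact hj'
  have hexpH : ∀ y : G ⧸ pCore p G, (∃ k : ℕ, y ^ p ^ k = 1) → y ^ p ^ n = 1 := by
    intro y hy
    obtain ⟨g, rfl, hg⟩ := hlift y hy
    rw [← QuotientGroup.mk_pow, hexp g hg]; rfl
  have hzero : ∀ y : G ⧸ pCore p G, (∃ k : ℕ, y ^ p ^ k = 1) →
      ((ρb y : Module.End (ZMod p) V) - 1) ^ (p ^ n - 1) = 0 := by
    intro y hy
    obtain ⟨g, rfl, hg⟩ := hlift y hy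
    rw [hρb]
    exact star_zero p (pCore p G) hNp ρ π hπ heq n hexp g hg
  refine gt_core hp2 hsolH hOpH n hn hexpH ?_ xb hxb
  intro q hq hqp Q hQ x hx hxQ hor u hu
  by_contra hne
  have hne' : ∃ u ∈ Q, ρb (x ^ p ^ (n - 1)) * ρb u ≠ ρb u * ρb (x ^ p ^ (n - 1)) := by
    refine ⟨u, hu, fun h => hne ?_⟩
    apply hinj
    rw [map_mul, map_mul]; exact h
  obtain ⟨n₀, m, hn₀, -, hm, hpq, u', hu', w', hw', hnc⟩ :=
    hb_field ρb q hqp Q hQ x hxQ n hn (hexpH x hx) (hzero x hx) hne'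
  have hq2 : q = 2 := by
    have hodd : Odd p := hp.odd_of_ne_two hp2
    have hodd' : Odd (p ^ n₀) := hodd.pow
    have heven : Even (p ^ n₀ - 1) := by
      obtain ⟨c, hc⟩ := hodd'
      exact ⟨c, by omega⟩
    rw [hpq] at heven
    have h2 : 2 ∣ q ^ m := even_iff_two_dvd.mp heven
    have h3 : 2 ∣ q := Nat.Prime.dvd_of_dvd_pow Nat.prime_two h2
    exact ((Nat.prime_dvd_prime_iff_eq Nat.prime_two hq.out).mp h3).symm
  rcases hor with h | h
  · exact h hq2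
  · apply hnc
    rw [← map_mul, ← map_mul, h u' hu' w' hw']

end Cfsg.Agent.Lib.Helper86.HH
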