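import Mathlib
import Cfsg.Agent.Lib.Helper86.HHEDA
import Cfsg.Agent.S3783

/-!
# S3786, piece MAINA (helper86 project HH): the induction for part (a)

Copy of `Cfsg.Agent.S3783.main` (Cfsg/Agent/S3783.lean, l. 682-803) with the hypothesis `hab`
replaced by `hcase` (which passes to quotients: the first alternative does not mention `G`; Sylow
`2`-subgroups of a quotient are images, as in `habq` there) and `exp_drop` replaced by
`exp_drop_a` (in the branch `pPrimeCore p G = ⊥`, `pCore p G ≠ ⊥`, where `1 ≤ n`).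
-/

set_option autoImplicit false
set_option linter.style.haveILetI false

namespace Cfsg.Agent.Lib.Helper86.HH

open Cfsg

universe u

theorem main_a (p : ℕ) [Fact p.Prime] (hp2 : p ≠ 2) : ∀ (N : ℕ) (G : Type u) [Group G] [Finite G],
    Nat.card G ≤ N → IsPSolvable p G →
    ((¬ ∃ k : ℕ, p = 2 ^ k + 1) ∨ ∀ S : Sylow 2 G, IsMulCommutative (S : Subgroup G)) →
    ∀ n : ℕ, (∀ (P : Sylow p G), ∀ x ∈ (P : Subgroup G), x ^ p ^ n = 1) →
    Cfsg.Agent.S3790.Chain p (⊥ : Subgroup G) ⊤ n := by
  intro N
  induction N with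
  | zero =>
    intro G _ _ hN
    have := Nat.card_pos (α := G)
    omega
  | succ N ih =>
    intro G _ _ hN hsep hcase n hexp
    have hp : p.Prime := Fact.out
    have hquot : ∀ (M : Subgroup G) [M.Normal], M ≠ ⊥ → Nat.card (G ⧸ M) ≤ N := by
      intro M _ hM
      have h1 := Subgroup.card_eq_card_quotient_mul_card_subgroup M
      have h2 := (Subgroup.one_lt_card_iff_ne_bot M).2 hM
      have h3 : 0 < Nat.card (G ⧸ M) := Nat.card_pos
      nlinarith
    have hcaseq : ∀ (M : Subgroup G) [M.Normal],
        ((¬ ∃ k : ℕ, p = 2 ^ k + 1) ∨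
          ∀ S : Sylow 2 (G ⧸ M), IsMulCommutative (S : Subgroup (G ⧸ M))) := by
      intro M _
      rcases hcase with h | hab
      · exact Or.inl h
      · right
        intro Qb
        obtain ⟨Q, rfl⟩ := Sylow.mapSurjective_surjective (QuotientGroup.mk'_surjective M) 2 Qb
        have hc := hab Q
        refine ⟨⟨fun a b => Subtype.ext ?_⟩⟩
        have ha : (a : G ⧸ M) ∈ (Q : Subgroup G).map (QuotientGroup.mk' M) := by
          rw [← Sylow.coe_mapSurjective]; exact a.2
        have hb : (b : G ⧸ M) ∈ (Q : Subgroup G).map (QuotientGroup.mk' M) := by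
          rw [← Sylow.coe_mapSurjective]; exact b.2
        obtain ⟨a', ha', hae⟩ := ha
        obtain ⟨b', hb', hbe⟩ := hb
        show (a : G ⧸ M) * (b : G ⧸ M) = (b : G ⧸ M) * (a : G ⧸ M)
        rw [← hae, ← hbe, ← map_mul, ← map_mul]
        congr 1
        exact congrArg Subtype.val (hc.is_comm.comm (⟨a', ha'⟩ : (Q : Subgroup G)) ⟨b', hb'⟩)
    by_cases hK : pPrimeCore p G = ⊥
    · haveI hPn : (pCore p G).Normal := Cfsg.Agent.Lib.Helper40.pCore_normal' p
      have hPp : IsPGroup p (pCore p G) := Cfsg.Agent.Lib.Helper40.pCore_isPGroup' p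
      have hC := Cfsg.Agent.Lib.Helper40.centralizer_pCore_le hsep hK
      by_cases hP : pCore p G = ⊥
      · rw [hP] at hC
        have htriv : ∀ g : G, g = 1 := by
          intro g
          have h1 : g ∈ Subgroup.centralizer ((⊥ : Subgroup G) : Set G) := by
            rw [Subgroup.mem_centralizer_iff]
            intro h hh
            rw [SetLike.mem_coe, Subgroup.mem_bot] at hh
            rw [hh]; simp
          exact Subgroup.mem_bot.1 (hC h1)
        have hbt : (⊥ : Subgroup G) = ⊤ := by
          ext g; simp [htriv g]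
        rw [hbt]
        exact ⟨fun _ => ⊤, rfl, rfl, fun _ => inferInstance, fun _ => le_rfl,
          fun k => Cfsg.Agent.S3790.isStep_refl _ (Cfsg.Agent.S3790.stepSet_one p k) ⊤⟩
      · have hn1 : 1 ≤ n := by
          by_contra h0
          have hn0 : n = 0 := by omega
          subst hn0
          apply hP
          rw [eq_bot_iff]
          intro g hg
          obtain ⟨P₀, hP₀⟩ := hPp.exists_le_sylow
          have h1 := hexp P₀ g (hP₀ hg)
          simpa using h1
        have hcard : Nat.card (G ⧸ pCore p G) ≤ N := hquot _ hP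
        have hexp' : ∀ g : G, (∃ k : ℕ, g ^ p ^ k = 1) → g ^ p ^ n = 1 := by
          rintro g ⟨k, hk⟩
          have hZ : IsPGroup p (Subgroup.zpowers g) := by
            rintro ⟨y, hy⟩
            obtain ⟨i, rfl⟩ := Subgroup.mem_zpowers_iff.1 hy
            refine ⟨k, Subtype.ext ?_⟩
            show (g ^ i) ^ p ^ k = 1
            rw [← zpow_natCast, ← zpow_mul, mul_comm, zpow_mul, zpow_natCast, hk, one_zpow]
          obtain ⟨P₀, hP₀⟩ := hZ.exists_le_sylow
          exact hexp P₀ g (hP₀ (Subgroup.mem_zpowers g))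
        have hHsep := Cfsg.Agent.Lib.Helper75.Fratt.isPSolvable_quotient (pCore p G) hsep
        have hdrop := exp_drop_a p hp2 hsep hK hcase n hn1 hexp'
        have hch := ih (G ⧸ pCore p G) hcard hHsep (hcaseq (pCore p G)) (n - 1) (by
          intro Pb x hx
          apply hdrop
          obtain ⟨k, hk⟩ := Pb.2 ⟨x, hx⟩
          exact ⟨k, by simpa using congrArg Subtype.val hk⟩)
        have h1 := Cfsg.Agent.S3783.chain_comap p (pCore p G) (n - 1) hch
        have h2 : Cfsg.Agent.S3790.Chain p (⊥ : Subgroup G) (pCore p G) 1 :=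
          Cfsg.Agent.S3790.chain_of_pstep p ⊥ (pCore p G) inferInstance hPn bot_le (by
            intro x hx
            obtain ⟨k, hk⟩ := hPp ⟨x, hx⟩
            exact ⟨p ^ k, ⟨k, rfl⟩, by
              rw [Subgroup.mem_bot]; simpa using congrArg Subtype.val hk⟩)
        have h3 := Cfsg.Agent.S3790.chain_concat p ⊥ (pCore p G) ⊤ 1 (n - 1) h2 h1
        have e : 1 + (n - 1) = n := by omega
        rw [e] at h3
        exact h3
    · haveI hKn : (pPrimeCore p G).Normal := Cfsg.Agent.Lib.Helper81.pPrimeCore_normal p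
      have hKc : (Nat.card (pPrimeCore p G)).Coprime p :=
        Cfsg.Agent.Lib.Helper81.pPrimeCore_coprime p
      have hcard := hquot _ hK
      have hch := ih (G ⧸ pPrimeCore p G) hcard
        (Cfsg.Agent.Lib.Helper75.Fratt.isPSolvable_quotient (pPrimeCore p G) hsep)
        (hcaseq (pPrimeCore p G)) n (by
          intro Pb x hx
          obtain ⟨P₀, rfl⟩ := Sylow.mapSurjective_surjective
            (QuotientGroup.mk'_surjective (pPrimeCore p G)) p Pb
          rw [Sylow.coe_mapSurjective] at hx
          obtain ⟨x', hx', rfl⟩ := hx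
          rw [← map_pow, hexp P₀ x' hx', map_one])
      have h1 := Cfsg.Agent.S3783.chain_comap p (pPrimeCore p G) n hch
      have h2 : Cfsg.Agent.S3790.Chain p (⊥ : Subgroup G) (pPrimeCore p G) 0 :=
        Cfsg.Agent.S3783.chain_pprime p ⊥ _ inferInstance hKn bot_le (by
          intro x hx
          refine ⟨Nat.card (pPrimeCore p G), hKc, ?_⟩
          rw [Subgroup.mem_bot]
          have h4 := pow_card_eq_one' (G := pPrimeCore p G) (x := ⟨x, hx⟩)
          have h5 : x ^ Nat.card (pPrimeCore p G)
              = ((⟨x, hx⟩ : pPrimeCore p G) ^ Nat.card (pPrimeCore p G) : pPrimeCore p G) := rfl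
          rw [h5, h4]; rfl)
      have h3 := Cfsg.Agent.S3790.chain_concat p ⊥ _ ⊤ 0 n h2 h1
      rw [zero_add] at h3
      exact h3

end Cfsg.Agent.Lib.Helper86.HH
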