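import Mathlib
import Cfsg.Agent.Lib.Helper86.HHEDB
import Cfsg.Agent.S3783

/-!
# S3786, piece MAINB (helper86 project HH): the induction for part (b)

Strong induction on `|G|` as in `Cfsg.Agent.S3783.main` (Cfsg/Agent/S3783.lean, l. 682-803).
* `pPrimeCore p G ≠ ⊥`: pass to `G ⧸ pPrimeCore p G` exactly as there (`chain_pprime`,
  `chain_comap`, `chain_concat` with `0 + 2 * n`).
* `pPrimeCore p G = ⊥`, `P = pCore p G`. If `P = ⊥` then `G` is trivial (as there). Otherwise
  `1 ≤ n`. Let `H = G ⧸ P`, `K = pPrimeCore p H`, `L = (pCore p (H ⧸ K)).comap (mk' K)`,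
  `M1 = K.comap (mk' P)`, `M2 = L.comap (mk' P)` (normal in `G`, `P ≤ M1 ≤ M2`).
  `Chain p ⊥ P 1` (`chain_of_pstep`), `Chain p P M1 0` (`S3783.chain_pprime`: `x ∈ M1` has
  `x ^ |K| ∈ P`, `|K|` prime to `p`), `Chain p M1 M2 1` (`chain_of_pstep`: `mk' K (mk' P x)` lies
  in the `p`-group `pCore p (H ⧸ K)`), and `Chain p M2 ⊤ (2 * (n - 1))` by `S3783.chain_comap` from
  the induction hypothesis for `G ⧸ M2` (smaller since `P ≠ ⊥`; `p`-solvable; a Sylow `p`-subgroup
  of `G ⧸ M2` is the image of a Sylow `p`-subgroup `P₀` of `G`, and for `g ∈ P₀`, `exp_drop_b`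
  applied to `xb = mk' P g` gives `g ^ p ^ (n-1) ∈ M2`). Concatenate: `1 + 0 + 1 + 2 (n-1) = 2 n`.
-/

set_option autoImplicit false

namespace Cfsg.Agent.Lib.Helper86.HH

open Cfsg

universe u

theorem main_b (p : ℕ) [Fact p.Prime] (hp2 : p ≠ 2) : ∀ (N : ℕ) (G : Type u) [Group G] [Finite G],
    Nat.card G ≤ N → IsPSolvable p G →
    ∀ n : ℕ, (∀ (P : Sylow p G), ∀ x ∈ (P : Subgroup G), x ^ p ^ n = 1) →
    Cfsg.Agent.S3790.Chain p (⊥ : Subgroup G) ⊤ (2 * n) := by
  intro N
  induction N with
  | zero =>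
    intro G _ _ hN
    have := Nat.card_pos (α := G)
    omega
  | succ N ih =>
    intro G _ _ hN hsep n hexp
    have hp : p.Prime := Fact.out
    have hquot : ∀ (M : Subgroup G) [M.Normal], M ≠ ⊥ → Nat.card (G ⧸ M) ≤ N := by
      intro M _ hM
      have h1 := Subgroup.card_eq_card_quotient_mul_card_subgroup M
      have h2 := (Subgroup.one_lt_card_iff_ne_bot M).2 hM
      have h3 : 0 < Nat.card (G ⧸ M) := Nat.card_pos
      nlinarith
    by_cases hK : pPrimeCore p G = ⊥
    · have hPn : (pCore p G).Normal := Cfsg.Agent.Lib.Helper40.pCore_normal' p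
      have hPp : IsPGroup p (pCore p G) := Cfsg.Agent.Lib.Helper40.pCore_isPGroup' p
      have hC := Cfsg.Agent.Lib.Helper40.centralizer_pCore_le hsep hK
      by_cases hP : pCore p G = ⊥
      · rw [hP] at hC
        have htriv : ∀ g : G, g = 1 := by
          intro g
          have h1 : g ∈ Subgroup.centralizer ((⊥ : Subgroup G) : Set G) := by
            rw [Subgroup.mem_centralizer_iff]
            intro h hh
            rw [SetLike.mem_coe, Subgroup.mem_bot] at hh
            rw [hh]; simp
          exact Subgroup.mem_bot.1 (hC h1)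
        have hbt : (⊥ : Subgroup G) = ⊤ := by
          ext g; simp [htriv g]
        rw [hbt]
        exact ⟨fun _ => ⊤, rfl, rfl, fun _ => inferInstance, fun _ => le_rfl,
          fun k => Cfsg.Agent.S3790.isStep_refl _ (Cfsg.Agent.S3790.stepSet_one p k) ⊤⟩
      · have hn1 : 1 ≤ n := by
          by_contra h0
          have hn0 : n = 0 := by omega
          subst hn0
          apply hP
          rw [eq_bot_iff]
          intro g hg
          obtain ⟨P₀, hP₀⟩ := hPp.exists_le_sylow
          have h1 := hexp P₀ g (hP₀ hg)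
          simpa using h1
        have hexp' : ∀ g : G, (∃ k : ℕ, g ^ p ^ k = 1) → g ^ p ^ n = 1 := by
          rintro g ⟨k, hk⟩
          have hZ : IsPGroup p (Subgroup.zpowers g) := by
            rintro ⟨y, hy⟩
            obtain ⟨i, rfl⟩ := Subgroup.mem_zpowers_iff.1 hy
            refine ⟨k, Subtype.ext ?_⟩
            show (g ^ i) ^ p ^ k = 1
            rw [← zpow_natCast, ← zpow_mul, mul_comm, zpow_mul, zpow_natCast, hk, one_zpow]
          obtain ⟨P₀, hP₀⟩ := hZ.exists_le_sylow
          exact hexp P₀ g (hP₀ (Subgroup.mem_zpowers g))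
        have hKn : (pPrimeCore p (G ⧸ pCore p G)).Normal :=
          Cfsg.Agent.Lib.Helper81.pPrimeCore_normal p
        have hKc : (Nat.card (pPrimeCore p (G ⧸ pCore p G))).Coprime p :=
          Cfsg.Agent.Lib.Helper81.pPrimeCore_coprime p
        have hLn : (pCore p ((G ⧸ pCore p G) ⧸ pPrimeCore p (G ⧸ pCore p G))).Normal :=
          Cfsg.Agent.Lib.Helper40.pCore_normal' p
        have hLp : IsPGroup p (pCore p ((G ⧸ pCore p G) ⧸ pPrimeCore p (G ⧸ pCore p G))) :=
          Cfsg.Agent.Lib.Helper40.pCore_isPGroup' p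
        obtain ⟨M1, hM1⟩ : ∃ M1 : Subgroup G,
            M1 = (pPrimeCore p (G ⧸ pCore p G)).comap (QuotientGroup.mk' (pCore p G)) :=
          ⟨_, rfl⟩
        obtain ⟨M2, hM2⟩ : ∃ M2 : Subgroup G,
            M2 = ((pCore p ((G ⧸ pCore p G) ⧸ pPrimeCore p (G ⧸ pCore p G))).comap
              (QuotientGroup.mk' (pPrimeCore p (G ⧸ pCore p G)))).comap
                (QuotientGroup.mk' (pCore p G)) := ⟨_, rfl⟩
        have hmem1 : ∀ x : G, x ∈ M1 ↔
            QuotientGroup.mk' (pCore p G) x ∈ pPrimeCore p (G ⧸ pCore p G) := by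
          intro x
          rw [hM1, Subgroup.mem_comap]
        have hmem2 : ∀ x : G, x ∈ M2 ↔
            QuotientGroup.mk' (pPrimeCore p (G ⧸ pCore p G)) (QuotientGroup.mk' (pCore p G) x)
              ∈ pCore p ((G ⧸ pCore p G) ⧸ pPrimeCore p (G ⧸ pCore p G)) := by
          intro x
          rw [hM2, Subgroup.mem_comap, Subgroup.mem_comap]
        have hM1n : M1.Normal := by
          rw [hM1]
          exact hKn.comap _
        have hM2n : M2.Normal := by
          rw [hM2]
          exact (hLn.comap _).comap _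
        have hPM1 : pCore p G ≤ M1 := by
          intro x hx
          rw [hmem1]
          have h1 : QuotientGroup.mk' (pCore p G) x = 1 := (QuotientGroup.eq_one_iff x).2 hx
          rw [h1]
          exact Subgroup.one_mem _
        have hM1M2 : M1 ≤ M2 := by
          intro x hx
          rw [hmem1] at hx
          rw [hmem2]
          have h1 : QuotientGroup.mk' (pPrimeCore p (G ⧸ pCore p G))
              (QuotientGroup.mk' (pCore p G) x) = 1 := (QuotientGroup.eq_one_iff _).2 hx
          rw [h1]
          exact Subgroup.one_mem _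
        have c1 : Cfsg.Agent.S3790.Chain p (⊥ : Subgroup G) (pCore p G) 1 :=
          Cfsg.Agent.S3790.chain_of_pstep p ⊥ (pCore p G) inferInstance hPn bot_le (by
            intro x hx
            obtain ⟨k, hk⟩ := hPp ⟨x, hx⟩
            exact ⟨p ^ k, ⟨k, rfl⟩, by
              rw [Subgroup.mem_bot]; simpa using congrArg Subtype.val hk⟩)
        have c2 : Cfsg.Agent.S3790.Chain p (pCore p G) M1 0 :=
          Cfsg.Agent.S3783.chain_pprime p (pCore p G) M1 hPn hM1n hPM1 (by
            intro x hx
            rw [hmem1] at hx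
            refine ⟨Nat.card (pPrimeCore p (G ⧸ pCore p G)), hKc, ?_⟩
            have h4 := pow_card_eq_one' (G := pPrimeCore p (G ⧸ pCore p G))
              (x := ⟨QuotientGroup.mk' (pCore p G) x, hx⟩)
            have h5 : (QuotientGroup.mk' (pCore p G) x) ^
                Nat.card (pPrimeCore p (G ⧸ pCore p G)) = 1 := congrArg Subtype.val h4
            rw [← map_pow] at h5
            exact (QuotientGroup.eq_one_iff _).1 h5)
        have c3 : Cfsg.Agent.S3790.Chain p M1 M2 1 :=
          Cfsg.Agent.S3790.chain_of_pstep p M1 M2 hM1n hM2n hM1M2 (by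
            intro x hx
            rw [hmem2] at hx
            obtain ⟨k, hk⟩ := hLp ⟨_, hx⟩
            refine ⟨p ^ k, ⟨k, rfl⟩, ?_⟩
            rw [hmem1]
            have h5 : (QuotientGroup.mk' (pPrimeCore p (G ⧸ pCore p G))
                (QuotientGroup.mk' (pCore p G) x)) ^ p ^ k = 1 := congrArg Subtype.val hk
            rw [← map_pow, ← map_pow] at h5
            exact (QuotientGroup.eq_one_iff _).1 h5)
        have hM2bot : M2 ≠ ⊥ := by
          intro h
          apply hP
          rw [eq_bot_iff, ← h]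
          exact hPM1.trans hM1M2
        have hM2n' : M2.Normal := hM2n
        have hcard : Nat.card (G ⧸ M2) ≤ N := hquot M2 hM2bot
        have hsepq := Cfsg.Agent.Lib.Helper75.Fratt.isPSolvable_quotient M2 hsep
        have hch := ih (G ⧸ M2) hcard hsepq (n - 1) (by
          intro Pb x hx
          obtain ⟨P₀, rfl⟩ := Sylow.mapSurjective_surjective
            (QuotientGroup.mk'_surjective M2) p Pb
          rw [Sylow.coe_mapSurjective] at hx
          obtain ⟨g, hg, rfl⟩ := hx
          rw [← map_pow]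
          have hgk : ∃ k : ℕ, g ^ p ^ k = 1 := by
            obtain ⟨k, hk⟩ := P₀.2 ⟨g, hg⟩
            exact ⟨k, by simpa using congrArg Subtype.val hk⟩
          have h6 := exp_drop_b p hp2 hsep hK n hn1 hexp' (QuotientGroup.mk' (pCore p G) g) (by
            obtain ⟨k, hk⟩ := hgk
            exact ⟨k, by rw [← map_pow, hk, map_one]⟩)
          rw [← map_pow] at h6
          exact (QuotientGroup.eq_one_iff _).2 ((hmem2 _).2 h6))
        have c4 := Cfsg.Agent.S3783.chain_comap p M2 (2 * (n - 1)) hch
        have h7 := Cfsg.Agent.S3790.chain_concat p ⊥ (pCore p G) M1 1 0 c1 c2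
        have h8 := Cfsg.Agent.S3790.chain_concat p ⊥ M1 M2 (1 + 0) 1 h7 c3
        have h9 := Cfsg.Agent.S3790.chain_concat p ⊥ M2 ⊤ (1 + 0 + 1) (2 * (n - 1)) h8 c4
        have e : 1 + 0 + 1 + 2 * (n - 1) = 2 * n := by omega
        rw [e] at h9
        exact h9
    · have hKn : (pPrimeCore p G).Normal := Cfsg.Agent.Lib.Helper81.pPrimeCore_normal p
      have hKc : (Nat.card (pPrimeCore p G)).Coprime p :=
        Cfsg.Agent.Lib.Helper81.pPrimeCore_coprime p
      have hcard := hquot _ hK
      have hch := ih (G ⧸ pPrimeCore p G) hcard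
        (Cfsg.Agent.Lib.Helper75.Fratt.isPSolvable_quotient (pPrimeCore p G) hsep) n (by
          intro Pb x hx
          obtain ⟨P₀, rfl⟩ := Sylow.mapSurjective_surjective
            (QuotientGroup.mk'_surjective (pPrimeCore p G)) p Pb
          rw [Sylow.coe_mapSurjective] at hx
          obtain ⟨x', hx', rfl⟩ := hx
          rw [← map_pow, hexp P₀ x' hx', map_one])
      have h1 := Cfsg.Agent.S3783.chain_comap p (pPrimeCore p G) (2 * n) hch
      have h2 : Cfsg.Agent.S3790.Chain p (⊥ : Subgroup G) (pPrimeCore p G) 0 :=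
        Cfsg.Agent.S3783.chain_pprime p ⊥ _ inferInstance hKn bot_le (by
          intro x hx
          refine ⟨Nat.card (pPrimeCore p G), hKc, ?_⟩
          rw [Subgroup.mem_bot]
          have h4 := pow_card_eq_one' (G := pPrimeCore p G) (x := ⟨x, hx⟩)
          have h5 : x ^ Nat.card (pPrimeCore p G)
              = ((⟨x, hx⟩ : pPrimeCore p G) ^ Nat.card (pPrimeCore p G) : pPrimeCore p G) := rfl
          rw [h5, h4]; rfl)
      have h3 := Cfsg.Agent.S3790.chain_concat p ⊥ _ ⊤ 0 (2 * n) h2 h1
      rw [zero_add] at h3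
      exact h3

end Cfsg.Agent.Lib.Helper86.HH
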