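import Cfsg.Agent.Lib.Helper96.HyDefs
import Cfsg.Agent.Lib.Helper30.O72WITT

/-!
Project HY (S5992, helper96), piece WITTHYP: isometries are transitive on hyperbolic subspaces
of a given dimension (classification of quadratic spaces by type + Witt extension).
-/

set_option autoImplicit false
set_option linter.unusedSectionVars false
set_option linter.unusedVariables false

namespace Cfsg.Agent.Lib.Helper86.Hy

open Module Polynomial Cfsg.Agent.Lib.Helper96.Sp Cfsg.Agent.Lib.Helper96.Hy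
  Cfsg.Agent.Lib.Helper47

universe u

section Abstract

variable {F : Type u} [Field F] [Fintype F] {V : Type u} [AddCommGroup V] [Module F V]
  [FiniteDimensional F V] {B : LinearMap.BilinForm F V}

-- PIECE WITTHYP
theorem witt_hyp (p : ℕ) [Fact p.Prime] [CharP F p] (hS : B.IsSymm) (h2 : (2 : F) ≠ 0)
    (hN : ND B ⊤) (htyp : ∀ W : Submodule F V, Hyp B W → 0 < finrank F W → Typ B W 1)
    (W W' : Submodule F V) (hW : Hyp B W) (hW' : Hyp B W')
    (hfin : finrank F W = finrank F W') :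
    ∃ h : V ≃ₗ[F] V, Isom B (h : V →ₗ[F] V) ∧ W.map (h : V →ₗ[F] V) = W' := by
  by_cases h0 : finrank F W = 0
  · have hWb : W = ⊥ := Submodule.finrank_eq_zero.mp h0
    have hWb' : W' = ⊥ := Submodule.finrank_eq_zero.mp (hfin ▸ h0)
    refine ⟨LinearEquiv.refl F V, fun x y => rfl, ?_⟩
    rw [hWb, hWb', Submodule.map_bot]
  · have hpos : 0 < finrank F W := Nat.pos_of_ne_zero h0
    obtain ⟨k, hk, hT⟩ := htyp W hW hpos
    obtain ⟨k', hk', hT'⟩ := htyp W' hW' (hfin ▸ hpos)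
    have hkk : k = k' := by omega
    subst hkk
    obtain ⟨φ, hφ⟩ := (qfacts (F := F) p).isometric k 1 W W' _ _ _ _ (isQuad_sub hS W)
      (nondeg_sub h2 W hW.1) hk (isQuad_sub hS W') (nondeg_sub h2 W' hW'.1) hk' hT hT'
    obtain ⟨g, hg, hgx⟩ := Cfsg.Agent.Lib.Helper98.O72.witt_ext hS h2 hN W W' φ (fun x => hφ x)
    refine ⟨g, hg, ?_⟩
    apply le_antisymm
    · rintro _ ⟨x, hx, rfl⟩
      have h1 := hgx ⟨x, hx⟩
      have h3 : (g : V →ₗ[F] V) x = (φ ⟨x, hx⟩ : V) := h1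
      rw [h3]
      exact (φ ⟨x, hx⟩).2
    · intro y hy
      refine ⟨(φ.symm ⟨y, hy⟩ : V), (φ.symm ⟨y, hy⟩).2, ?_⟩
      have h1 := hgx (φ.symm ⟨y, hy⟩)
      rw [LinearEquiv.apply_symm_apply] at h1
      exact h1

end Abstract

end Cfsg.Agent.Lib.Helper86.Hy
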