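import Mathlib
import Cfsg.Agent.Lib.Helper58.JEDefs
import Cfsg.Agent.Lib.Helper94.JcTH
import Cfsg.Agent.Lib.Helper41.Cores

/-! Project JE (S2948, helper58), piece K2: for `K = KOf Q y` one has `⁅K, J(T)⁆ = K` and
`O₂(K) = K ⊓ Q`. -/

set_option autoImplicit false

namespace Cfsg.Agent.Lib.Helper86.JE

open Cfsg.Agent.Lib.Helper58.JE Cfsg.Agent.Lib.Helper72.JL Cfsg.Agent.Lib.Helper72.SC
  Cfsg.Agent.Lib.Helper78.Jc

open scoped commutatorElement

universe u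

/-- in a subgroup `N` normalized by `q`, `(q * n) ^ j ∈ q ^ j N` -/
private theorem k2_pow {G : Type u} [Group G] (N : Subgroup G) (q : G)
    (hq : ∀ n ∈ N, q⁻¹ * n * q ∈ N) (n : G) (hn : n ∈ N) (j : ℕ) :
    ∃ n' ∈ N, (q * n) ^ j = q ^ j * n' := by
  induction j with
  | zero => exact ⟨1, N.one_mem, by simp⟩
  | succ j ih =>
    obtain ⟨n', hn', h⟩ := ih
    refine ⟨q⁻¹ * n' * q * n, N.mul_mem (hq n' hn') hn, ?_⟩
    rw [pow_succ, h, pow_succ]
    group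

theorem k2 : K2Stmt.{u} := by
  intro G _ _ T L Q C V D A b y hD hY hK
  obtain ⟨hyD, hyC, hy3, hby⟩ := hY
  obtain ⟨hKL, hyK, hKgen, hJK, hQK, hKdec, hKidx⟩ := hK
  have hbJ : b ∈ Cfsg.thompsonSubgroupOf 2 T :=
    Cfsg.Agent.Lib.Helper94.Jc.th_le T A hD.hA hD.hbA
  -- (a)
  have hNK : ⁅KOf Q y, Cfsg.thompsonSubgroupOf 2 T⁆ ≤ KOf Q y := by
    rw [Subgroup.commutator_le]
    intro k hk j hj
    rw [commutatorElement_def]
    have h1 : j * k⁻¹ * j⁻¹ ∈ KOf Q y :=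
      (Subgroup.mem_normalizer_iff.mp (hJK hj) k⁻¹).mp ((KOf Q y).inv_mem hk)
    have h2 : k * j * k⁻¹ * j⁻¹ = k * (j * k⁻¹ * j⁻¹) := by group
    rw [h2]
    exact (KOf Q y).mul_mem hk h1
  have hNnorm : ∀ x ∈ KOf Q y, ∀ n ∈ ⁅KOf Q y, Cfsg.thompsonSubgroupOf 2 T⁆,
      x * n * x⁻¹ ∈ ⁅KOf Q y, Cfsg.thompsonSubgroupOf 2 T⁆ := by
    intro x hx n hn
    rw [Subgroup.commutator_def] at hn ⊢
    induction hn using Subgroup.closure_induction with
    | mem n hn =>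
      obtain ⟨k, hk, j, hj, rfl⟩ := hn
      have h1 : x * ⁅k, j⁆ * x⁻¹ = ⁅x * k, j⁆ * ⁅x, j⁆⁻¹ := by
        simp only [commutatorElement_def]
        group
      rw [h1]
      exact Subgroup.mul_mem _
        (Subgroup.subset_closure ⟨x * k, (KOf Q y).mul_mem hx hk, j, hj, rfl⟩)
        (Subgroup.inv_mem _ (Subgroup.subset_closure ⟨x, hx, j, hj, rfl⟩))
    | one =>
      have h1 : x * 1 * x⁻¹ = 1 := by group
      rw [h1]
      exact Subgroup.one_mem _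
    | mul a b _ _ iha ihb =>
      have h1 : x * (a * b) * x⁻¹ = (x * a * x⁻¹) * (x * b * x⁻¹) := by group
      rw [h1]
      exact Subgroup.mul_mem _ iha ihb
    | inv a _ iha =>
      have h1 : x * a⁻¹ * x⁻¹ = (x * a * x⁻¹)⁻¹ := by group
      rw [h1]
      exact Subgroup.inv_mem _ iha
  have hyN : y ∈ ⁅KOf Q y, Cfsg.thompsonSubgroupOf 2 T⁆ := by
    have h1 : ⁅y, b⁆ ∈ ⁅KOf Q y, Cfsg.thompsonSubgroupOf 2 T⁆ :=
      Subgroup.commutator_mem_commutator hyK hbJ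
    have h2 : ⁅y, b⁆ = y * y := by
      rw [commutatorElement_def]
      have h3 : b * y⁻¹ * b⁻¹ = y := by
        have h4 := congrArg (fun z => z⁻¹) hby
        simpa [mul_assoc] using h4
      calc y * b * y⁻¹ * b⁻¹ = y * (b * y⁻¹ * b⁻¹) := by group
        _ = y * y := by rw [h3]
    rw [h2] at h1
    have h3 : (y * y) * (y * y) = y := by
      calc (y * y) * (y * y) = y ^ 3 * y := by
            simp only [pow_succ, pow_zero, one_mul, mul_assoc]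
        _ = y := by rw [hy3, one_mul]
    have h5 := Subgroup.mul_mem _ h1 h1
    rw [h3] at h5
    exact h5
  have hKN : KOf Q y ≤ ⁅KOf Q y, Cfsg.thompsonSubgroupOf 2 T⁆ := by
    have h1 : Subgroup.closure {g : G | g ∈ KOf Q y ∧ Odd (orderOf g)} ≤
        ⁅KOf Q y, Cfsg.thompsonSubgroupOf 2 T⁆ := by
      rw [Subgroup.closure_le]
      rintro g ⟨hgK, hgodd⟩
      obtain ⟨q, hq, i, rfl⟩ := hKdec g hgK
      have hqK : q ∈ KOf Q y := hq.1
      have hqQ : q ∈ Q := hq.2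
      have hyi : y ^ i ∈ ⁅KOf Q y, Cfsg.thompsonSubgroupOf 2 T⁆ := Subgroup.pow_mem _ hyN i
      obtain ⟨n', hn', hpow⟩ := k2_pow ⁅KOf Q y, Cfsg.thompsonSubgroupOf 2 T⁆ q (fun n hn => by
        have h2 := hNnorm q⁻¹ ((KOf Q y).inv_mem hqK) n hn
        simpa using h2) (y ^ i) hyi (orderOf (q * y ^ i))
      rw [pow_orderOf_eq_one] at hpow
      have hqm : q ^ orderOf (q * y ^ i) ∈ ⁅KOf Q y, Cfsg.thompsonSubgroupOf 2 T⁆ := by
        have h2 : q ^ orderOf (q * y ^ i) = n'⁻¹ := by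
          rw [eq_inv_iff_mul_eq_one]
          exact hpow.symm
        rw [h2]
        exact Subgroup.inv_mem _ hn'
      obtain ⟨n, hn⟩ := (IsPGroup.iff_orderOf.mp hD.hQ2) ⟨q, hqQ⟩
      have hoq : orderOf q = 2 ^ n := by
        rw [← hn]
        exact (Subgroup.orderOf_mk q hqQ).symm
      have hcop : (orderOf (q * y ^ i)).Coprime (orderOf q) := by
        rw [hoq]
        exact Nat.Coprime.pow_right n (Nat.Coprime.symm (Nat.coprime_two_left.mpr hgodd))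
      obtain ⟨k, hk⟩ := exists_pow_eq_self_of_coprime hcop
      have hqN : q ∈ ⁅KOf Q y, Cfsg.thompsonSubgroupOf 2 T⁆ := by
        rw [← hk]
        exact Subgroup.pow_mem _ hqm k
      exact Subgroup.mul_mem _ hqN hyi
    rw [hKgen] at h1
    exact h1
  refine ⟨le_antisymm hNK hKN, ?_⟩
  -- (b)
  have : Fact (Nat.Prime 2) := ⟨Nat.prime_two⟩
  have hle : KOf Q y ⊓ Q ≤ Cfsg.pCoreOf 2 (KOf Q y) := by
    have hnorm : ((KOf Q y ⊓ Q).subgroupOf (KOf Q y)).Normal := by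
      constructor
      intro n hn g
      rw [Subgroup.mem_subgroupOf] at hn ⊢
      simp only [Subgroup.coe_mul, Subgroup.coe_inv]
      refine ⟨(KOf Q y).mul_mem ((KOf Q y).mul_mem g.2 n.2) ((KOf Q y).inv_mem g.2), ?_⟩
      have hgN := hD.hQn (hKL g.2)
      exact (Subgroup.mem_normalizer_iff.mp hgN _).mp hn.2
    have hp : IsPGroup 2 ((KOf Q y ⊓ Q).subgroupOf (KOf Q y)) := by
      have h1 : IsPGroup 2 (KOf Q y ⊓ Q : Subgroup G) := hD.hQ2.to_le inf_le_right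
      exact h1.of_equiv (Subgroup.subgroupOfEquivOfLe inf_le_left).symm
    have h2 := Cfsg.Agent.Lib.Helper41.le_pCore ((KOf Q y ⊓ Q).subgroupOf (KOf Q y)) hp
    have h3 := Subgroup.map_mono (f := (KOf Q y).subtype) h2
    rw [Subgroup.map_subgroupOf_eq_of_le inf_le_left] at h3
    exact h3
  apply le_antisymm _ hle
  have hPK : Cfsg.pCoreOf 2 (KOf Q y) ≤ KOf Q y := by
    unfold Cfsg.pCoreOf
    exact Subgroup.map_subtype_le _
  have hP2 : IsPGroup 2 (Cfsg.pCoreOf 2 (KOf Q y)) := by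
    unfold Cfsg.pCoreOf
    exact (Cfsg.Agent.Lib.Helper41.pCore_isPGroup 2).map (KOf Q y).subtype
  have h1 := Subgroup.relIndex_mul_relIndex (KOf Q y ⊓ Q) (Cfsg.pCoreOf 2 (KOf Q y)) (KOf Q y)
    hle hPK
  rw [hKidx] at h1
  have hd3 : (KOf Q y ⊓ Q).relIndex (Cfsg.pCoreOf 2 (KOf Q y)) ∣ 3 := Dvd.intro _ h1
  have hdP : (KOf Q y ⊓ Q).relIndex (Cfsg.pCoreOf 2 (KOf Q y)) ∣
      Nat.card (Cfsg.pCoreOf 2 (KOf Q y)) := Subgroup.relIndex_dvd_card _ _
  obtain ⟨n, hn⟩ := IsPGroup.iff_card.mp hP2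
  rw [hn] at hdP
  have h1' : (KOf Q y ⊓ Q).relIndex (Cfsg.pCoreOf 2 (KOf Q y)) = 1 := by
    have hc : Nat.Coprime 3 (2 ^ n) := Nat.Coprime.pow_right n (by decide)
    exact Nat.eq_one_of_dvd_coprimes hc hd3 hdP
  exact Subgroup.relIndex_eq_one.mp h1'

end Cfsg.Agent.Lib.Helper86.JE
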