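import Mathlib

/-!
Piece KU-S of helper1's S4648 (Kulshammer) project (helper86): if, up to scalars, there is only one
symmetric functional vanishing on nilpotent elements, then `A / rad A` is a full matrix algebra.
The skeleton of the argument follows helper94's `BrandtAlg1`.
-/

set_option autoImplicit false
set_option linter.style.haveILetI false

namespace Cfsg.Agent.Lib.Helper86.Kuls

universe u v

theorem kuls_simple {F : Type u} {A : Type v} [Field F] [IsAlgClosed F] [Ring A] [Algebra F A]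
    [FiniteDimensional F A] [Nontrivial A]
    (hfun : ∃ φ₀ : A →ₗ[F] F, ∀ φ : A →ₗ[F] F, (∀ x y, φ (x * y) = φ (y * x)) →
      (∀ x, IsNilpotent x → φ x = 0) → ∃ c : F, φ = c • φ₀) :
    ∃ (n : ℕ) (_ : NeZero n) (π : A →ₐ[F] Matrix (Fin n) (Fin n) F),
      Function.Surjective π ∧ ∀ x, π x = 0 → IsNilpotent x := by
  classical
  haveI : IsArtinianRing A := IsArtinianRing.of_finite F A
  have hJnil : IsNilpotent (Ring.jacobson A) := IsSemiprimaryRing.isNilpotent
  obtain ⟨m, d, hd, ⟨e⟩⟩ :=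
    IsSemisimpleRing.exists_algEquiv_pi_matrix_of_isAlgClosed F (A ⧸ Ring.jacobson A)
  obtain ⟨q, hq⟩ : ∃ q : A →ₐ[F] A ⧸ Ring.jacobson A,
      q = Ideal.Quotient.mkₐ F (Ring.jacobson A) := ⟨_, rfl⟩
  have hqsurj : Function.Surjective q := by
    rw [hq]; exact Ideal.Quotient.mkₐ_surjective F _
  have hqJ : ∀ x, q x = 0 ↔ x ∈ Ring.jacobson A := by
    intro x
    rw [hq]
    exact Ideal.Quotient.eq_zero_iff_mem
  obtain ⟨ρ, hρ⟩ : ∃ ρ : A →ₐ[F] (Π i, Matrix (Fin (d i)) (Fin (d i)) F),
      ρ = e.toAlgHom.comp q := ⟨_, rfl⟩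
  have hρsurj : Function.Surjective ρ := by
    rw [hρ]; exact e.surjective.comp hqsurj
  have hρJ : ∀ x, ρ x = 0 ↔ x ∈ Ring.jacobson A := by
    intro x
    rw [← hqJ, hρ]
    show e (q x) = 0 ↔ q x = 0
    exact EmbeddingLike.map_eq_zero_iff
  obtain ⟨N, hN⟩ := hJnil
  have hprod : ∀ l : List A, (∀ x ∈ l, x ∈ Ring.jacobson A) →
      l.prod ∈ Ring.jacobson A ^ l.length := by
    intro l
    induction l with
    | nil =>
      intro _
      rw [List.prod_nil, List.length_nil, Submodule.pow_zero, Ideal.one_eq_top]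
      exact Submodule.mem_top
    | cons a l ih =>
      intro h
      rw [List.prod_cons, List.length_cons, Ideal.IsTwoSided.pow_succ]
      exact Ideal.mul_mem_mul (h a List.mem_cons_self)
        (ih (fun x hx => h x (List.mem_cons_of_mem _ hx)))
  have hJnilp : ∀ x ∈ Ring.jacobson A, IsNilpotent x := by
    intro x hx
    refine ⟨N, ?_⟩
    have h2 := hprod (List.replicate N x) (fun y hy => by
      rw [List.eq_of_mem_replicate hy]; exact hx)
    rw [List.length_replicate, hN, List.prod_replicate, Ideal.zero_eq_bot, Ideal.mem_bot] at h2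
    exact h2
  have hJ1 : (1 : A) ∉ Ring.jacobson A := by
    intro h1
    obtain ⟨k, hk⟩ := hJnilp 1 h1
    rw [one_pow] at hk
    exact one_ne_zero hk
  obtain ⟨φ₀, hφ₀⟩ := hfun
  -- the trace functionals
  have hτ : ∀ i : Fin m, ∃ c : F, ∀ x, Matrix.trace (ρ x i) = c * φ₀ x := by
    intro i
    let τ : A →ₗ[F] F := (Matrix.traceLinearMap (Fin (d i)) F F).comp
      ((LinearMap.proj i).comp ρ.toLinearMap)
    have hτ : ∀ x, τ x = Matrix.trace (ρ x i) := fun x => rfl
    have hsym : ∀ x y, τ (x * y) = τ (y * x) := by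
      intro x y
      rw [hτ, hτ, map_mul, map_mul, Pi.mul_apply, Pi.mul_apply, Matrix.trace_mul_comm]
    have hnil : ∀ x, IsNilpotent x → τ x = 0 := by
      intro x hx
      rw [hτ]
      obtain ⟨k, hk⟩ := hx
      have h1 : IsNilpotent (ρ x i) := by
        refine ⟨k, ?_⟩
        have h4 : ρ x ^ k = 0 := by rw [← map_pow, hk, map_zero]
        have h5 := congrFun h4 i
        rw [Pi.pow_apply] at h5
        exact h5
      exact IsNilpotent.eq_zero (Matrix.isNilpotent_trace_of_isNilpotent h1)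
    obtain ⟨c, hc⟩ := hφ₀ τ hsym hnil
    refine ⟨c, fun x => ?_⟩
    rw [← hτ, hc]
    rfl
  -- exactly one matrix block
  have hm : m = 1 := by
    have hm1 : m ≤ 1 := by
      by_contra hcon
      push Not at hcon
      obtain ⟨i0, i1, hne⟩ : ∃ i0 i1 : Fin m, i0 ≠ i1 :=
        ⟨⟨0, by omega⟩, ⟨1, hcon⟩, fun h => by simpa using congrArg Fin.val h⟩
      obtain ⟨c0, hc0⟩ := hτ i0
      obtain ⟨c1, hc1⟩ := hτ i1
      haveI := hd i0
      haveI := hd i1
      obtain ⟨u, hu⟩ := hρsurj (Pi.single i0 (Matrix.single (0 : Fin (d i0)) 0 (1 : F)))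
      have h0 := hc0 u
      have h1 := hc1 u
      rw [hu, Pi.single_eq_same, Matrix.trace_single_eq_same] at h0
      rw [hu, Pi.single_eq_of_ne hne.symm, Matrix.trace_zero] at h1
      have hφu : φ₀ u ≠ 0 := by
        intro h
        rw [h, mul_zero] at h0
        exact one_ne_zero h0
      have hb1 : c1 = 0 := by
        rcases mul_eq_zero.mp h1.symm with h | h
        · exact h
        · exact absurd h hφu
      obtain ⟨u', hu'⟩ := hρsurj (Pi.single i1 (Matrix.single (0 : Fin (d i1)) 0 (1 : F)))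
      have h2 := hc1 u'
      rw [hu', Pi.single_eq_same, Matrix.trace_single_eq_same, hb1, zero_mul] at h2
      exact one_ne_zero h2
    have hm0 : m ≠ 0 := by
      rintro rfl
      apply hJ1
      rw [← hρJ]
      funext i
      exact i.elim0
    omega
  subst hm
  haveI := hd 0
  obtain ⟨π, hπ⟩ : ∃ π : A →ₐ[F] Matrix (Fin (d 0)) (Fin (d 0)) F, ∀ x, π x = ρ x 0 :=
    ⟨(Pi.evalAlgHom F (fun i : Fin 1 => Matrix (Fin (d i)) (Fin (d i)) F) 0).comp ρ,
      fun x => rfl⟩
  have hπJ : ∀ x, π x = 0 ↔ x ∈ Ring.jacobson A := by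
    intro x
    rw [hπ, ← hρJ]
    constructor
    · intro h
      funext i
      have hi : i = 0 := Subsingleton.elim i 0
      subst hi
      exact h
    · intro h
      rw [h]
      rfl
  refine ⟨d 0, hd 0, π, ?_, ?_⟩
  · intro M
    obtain ⟨a, ha⟩ := hρsurj (Pi.single 0 M)
    exact ⟨a, by rw [hπ, ha, Pi.single_eq_same]⟩
  · intro x hx
    exact hJnilp x ((hπJ x).mp hx)

end Cfsg.Agent.Lib.Helper86.Kuls
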