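import Cfsg.Agent.Lib.Helper86.RootSub8

/-!
# Lines of root subgroups and the graph of line partners
-/

set_option autoImplicit false

namespace Cfsg.Agent.Lib.Helper86

open Cfsg

variable {G : Type*} [Group G] {S : Set (Subgroup G)}

theorem linePartners_symm {A B : Subgroup G} (hA : A ∈ S) (h : B ∈ linePartners S A) :
    A ∈ linePartners S B := by
  obtain ⟨⟨hB, hne, h0⟩, hp⟩ := h
  refine ⟨⟨hA, Ne.symm hne, ?_⟩, ?_⟩
  · rw [commutator_eq_bot_iff'] at h0 ⊢
    exact fun b hb a ha => (h0 a ha b hb).symm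
  · rw [sup_comm]; exact hp

theorem membersIn_conj (hS : IsRootSubgroupSet S) {N F : Subgroup G} (g : G)
    (h : F ∈ membersIn S N) : conjBy F g ∈ membersIn S (conjBy N g) :=
  ⟨hS.conj_mem F h.1 g, conjBy_mono h.2 g⟩

theorem partition_conj (hS : IsRootSubgroupSet S) {N : Subgroup G} (g : G)
    (h : IsSubgroupPartition N (membersIn S N)) :
    IsSubgroupPartition (conjBy N g) (membersIn S (conjBy N g)) := by
  refine ⟨fun F hF => hF.2, ?_, ?_⟩
  · intro x hx hx1
    rw [mem_conjBy] at hx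
    obtain ⟨F, hF, hxF⟩ := h.2.1 _ hx (by
      intro e
      apply hx1
      calc x = g * (g⁻¹ * x * g) * g⁻¹ := by group
        _ = 1 := by rw [e]; group)
    refine ⟨conjBy F g, membersIn_conj hS g hF, ?_⟩
    rw [mem_conjBy]; exact hxF
  · intro C hC D hD hne
    have hC' : conjBy C g⁻¹ ∈ membersIn S N := by
      have := membersIn_conj hS g⁻¹ hC
      rwa [conjBy_inv_cancel] at this
    have hD' : conjBy D g⁻¹ ∈ membersIn S N := by
      have := membersIn_conj hS g⁻¹ hD
      rwa [conjBy_inv_cancel] at this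
    have hne' : conjBy C g⁻¹ ≠ conjBy D g⁻¹ := fun e => hne (conjBy_injective _ e)
    have h0 := h.2.2 _ hC' _ hD' hne'
    rw [eq_bot_iff]
    intro x hx
    rw [Subgroup.mem_inf] at hx
    have hx' : g⁻¹ * x * g ∈ conjBy C g⁻¹ ⊓ conjBy D g⁻¹ := by
      rw [Subgroup.mem_inf]
      constructor
      · have := conj_mem_conjBy hx.1 g⁻¹
        rwa [inv_inv] at this
      · have := conj_mem_conjBy hx.2 g⁻¹
        rwa [inv_inv] at this
    rw [h0, Subgroup.mem_bot] at hx'
    rw [Subgroup.mem_bot]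
    calc x = g * (g⁻¹ * x * g) * g⁻¹ := by group
      _ = 1 := by rw [hx']; group

theorem linePartners_conj (hS : IsRootSubgroupSet S) {A B : Subgroup G}
    (h : B ∈ linePartners S A) (g : G) : conjBy B g ∈ linePartners S (conjBy A g) := by
  obtain ⟨⟨hB, hne, h0⟩, hp⟩ := h
  refine ⟨⟨hS.conj_mem B hB g, fun e => hne (conjBy_injective g e), ?_⟩, ?_⟩
  · have h1 : conjBy ⁅A, B⁆ g = ⁅conjBy A g, conjBy B g⁆ := Subgroup.map_commutator _ _ _
    rw [← h1, h0]
    exact Subgroup.map_bot _
  · rw [← conjBy_sup]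
    exact partition_conj hS g hp

/-- In the commutator case, a conjugate `A^c ≠ A` with `c ∈ C` is a line partner of `A`. -/
theorem cc_conj_linePartner (hS : IsRootSubgroupSet S) {A C E : Subgroup G} (hA : A ∈ S)
    (hE : E ∈ S) (hAE : IsRankOnePair A E) (hcc : RootCommutatorCase S A C) {c : G} (hc : c ∈ C)
    (hne : conjBy A c ≠ A) : conjBy A c ∈ linePartners S A := by
  have hc1 : c ≠ 1 := by
    rintro rfl
    exact hne (conjBy_one A)
  have hle : conjBy A c ≤ A ⊔ ⁅A, C⁆ := cc_line_conj_le hc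
  have hab : ∀ x ∈ A ⊔ ⁅A, C⁆, ∀ y ∈ A ⊔ ⁅A, C⁆, x * y = y * x :=
    sup_commute_of_commute (fun x hx y hy => root_comm hS hA hx hy)
      (fun x hx y hy => root_comm hS hcc.1 hx hy)
      (fun a ha c hc => (hcc.2.1 c hc a (Subgroup.mem_sup_left ha)).symm)
  have hsup : A ⊔ conjBy A c = A ⊔ ⁅A, C⁆ := by
    apply le_antisymm (sup_le le_sup_left hle)
    refine sup_le le_sup_left ?_
    rw [← hcc.2.2.2 c hc hc1, Subgroup.closure_le]
    rintro _ ⟨a, ha, rfl⟩
    have h1 : a * c * a⁻¹ * c⁻¹ = a * (c * a⁻¹ * c⁻¹) := by group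
    show a * c * a⁻¹ * c⁻¹ ∈ A ⊔ conjBy A c
    rw [h1]
    exact Subgroup.mul_mem _ (Subgroup.mem_sup_left ha)
      (Subgroup.mem_sup_right (conj_mem_conjBy (A.inv_mem ha) c))
  refine ⟨⟨hS.conj_mem A hA c, hne, ?_⟩, ?_⟩
  · rw [commutator_eq_bot_iff']
    intro a ha x hx
    exact hab a (Subgroup.mem_sup_left ha) x (hle hx)
  · rw [hsup]
    exact cc_partition_line hS hA hE hAE hcc

theorem eadj_symm {A B : Subgroup G} (h : EAdj S S A B) : EAdj S S B A :=
  ⟨h.2.1, h.1, linePartners_symm h.1 h.2.2⟩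

theorem erel_symm {A B : Subgroup G} (h : Relation.ReflTransGen (EAdj S S) A B) :
    Relation.ReflTransGen (EAdj S S) B A := by
  induction h with
  | refl => exact Relation.ReflTransGen.refl
  | tail _ h2 ih => exact Relation.ReflTransGen.head (eadj_symm h2) ih

theorem eadj_conj (hS : IsRootSubgroupSet S) {A B : Subgroup G} (h : EAdj S S A B) (g : G) :
    EAdj S S (conjBy A g) (conjBy B g) :=
  ⟨hS.conj_mem A h.1 g, hS.conj_mem B h.2.1 g, linePartners_conj hS h.2.2 g⟩

theorem erel_conj (hS : IsRootSubgroupSet S) {A B : Subgroup G}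
    (h : Relation.ReflTransGen (EAdj S S) A B) (g : G) :
    Relation.ReflTransGen (EAdj S S) (conjBy A g) (conjBy B g) := by
  induction h with
  | refl => exact Relation.ReflTransGen.refl
  | tail _ h2 ih => exact ih.tail (eadj_conj hS h2 g)

/-- Conjugation by an element of a member of `S` stays inside the component of the graph of
line partners, provided every rank one pair `(A, B)` has a line partner of `A` in the commutator
case with `B`. -/
theorem erel_conj_elt (hS : IsRootSubgroupSet S) (hpart : ∀ A ∈ S, ∃ E ∈ S, IsRankOnePair A E)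
    (h34 : ∀ A ∈ S, ∀ B ∈ rankOnePartners S A,
      ∃ C ∈ linePartners S A, C ∈ commutatorPartners S B)
    {A C : Subgroup G} (hA : A ∈ S) (hC : C ∈ S) {c : G} (hc : c ∈ C) :
    Relation.ReflTransGen (EAdj S S) A (conjBy A c) := by
  have hcase : ∀ A ∈ S, RootCommutatorCase S A C →
      Relation.ReflTransGen (EAdj S S) A (conjBy A c) := by
    intro A hA hcc
    by_cases hne : conjBy A c = A
    · rw [hne]
    · obtain ⟨E, hE, hAE⟩ := hpart A hA
      exact Relation.ReflTransGen.single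
        ⟨hA, hS.conj_mem A hA c, cc_conj_linePartner hS hA hE hAE hcc hc hne⟩
  rcases hS.pair A hA C hC with h1 | h2 | h3
  · rw [commutator_eq_bot_iff'] at h1
    have : conjBy A c = A := conjBy_of_centralizes (fun x hx => (h1 x hx c hc).symm)
    rw [this]
  · obtain ⟨D, hD, hDC⟩ := h34 A hA C ⟨hC, h2⟩
    have hDS : D ∈ S := hD.1.1
    have ccDC : RootCommutatorCase S D C :=
      root_cc_of_comm_mem hS hDS hC (by rw [Subgroup.commutator_comm D C]; exact hDC.2)
    have s1 : Relation.ReflTransGen (EAdj S S) A D :=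
      Relation.ReflTransGen.single ⟨hA, hDS, hD⟩
    have s2 := hcase D hDS ccDC
    have s3 := erel_conj hS (erel_symm s1) c
    exact (s1.trans s2).trans s3
  · exact hcase A hA h3

theorem erel_conj_all (hS : IsRootSubgroupSet S) (hpart : ∀ A ∈ S, ∃ E ∈ S, IsRankOnePair A E)
    (h34 : ∀ A ∈ S, ∀ B ∈ rankOnePartners S A,
      ∃ C ∈ linePartners S A, C ∈ commutatorPartners S B)
    {A : Subgroup G} (hA : A ∈ S) (g : G) :
    Relation.ReflTransGen (EAdj S S) A (conjBy A g) := by
  have key := iSup_conj_induction (S := S)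
    (T := {C | C ∈ S ∧ Relation.ReflTransGen (EAdj S S) A C}) (by
      rintro B hB b hb C ⟨hC, hAC⟩
      exact ⟨hS.conj_mem C hC b, hAC.trans (erel_conj_elt hS hpart h34 hC hB hb)⟩)
  have hg : g ∈ ⨆ B ∈ S, B := by
    rw [hS.generates]
    exact Subgroup.mem_top g
  exact (key g hg A ⟨hA, Relation.ReflTransGen.refl⟩).2

end Cfsg.Agent.Lib.Helper86
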