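import Mathlib
import Cfsg.Prelude.Def_RootSubgroups
import Cfsg.Agent.Lib.Helper86.RankOne

set_option autoImplicit false

namespace Cfsg.Agent.Lib.Helper86

open Cfsg

variable {G : Type*} [Group G] {A B : Subgroup G}

/-- An element commuting with `A` and `B` elementwise commutes with `A ⊔ B`. -/
theorem commute_sup_of_commute {n : G} (hA : ∀ a ∈ A, n * a = a * n) (hB : ∀ b ∈ B, n * b = b * n) :
    ∀ x ∈ A ⊔ B, n * x = x * n := by
  have hle : A ⊔ B ≤ Subgroup.centralizer ({n} : Set G) := by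
    refine sup_le ?_ ?_
    · intro a ha
      rw [Subgroup.mem_centralizer_singleton_iff]
      exact (hA a ha).symm
    · intro b hb
      rw [Subgroup.mem_centralizer_singleton_iff]
      exact (hB b hb).symm
  intro x hx
  have := hle hx
  rw [Subgroup.mem_centralizer_singleton_iff] at this
  exact this.symm

/-- If `n` normalizes `A` and all conjugates `x⁻¹ n x` (for `x ∈ A ⊔ B`) do, then `n` normalizes
every unipotent subgroup. -/
theorem unip_fixed_of_conj_fixed {N : Subgroup G} (hN : ∀ n ∈ N, ∀ x ∈ A ⊔ B, x⁻¹ * n * x ∈ N)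
    (hNA : ∀ n ∈ N, conjBy A n = A) {C : Subgroup G} (hC : C ∈ unipotentSubgroups A B) :
    ∀ n ∈ N, conjBy C n = C := by
  obtain ⟨x, hx, rfl⟩ := hC
  intro n hn
  rw [conjBy_conjBy]
  have e : n * x = x * (x⁻¹ * n * x) := by group
  rw [e, ← conjBy_conjBy, hNA _ (hN n hn x hx)]

/-- A subgroup `N` of `A ⊔ B`, normalized by `A ⊔ B` and normalizing `A`, centralizes `A ⊔ B`. -/
theorem rk1_normal_central (h : IsRankOnePair A B) {N : Subgroup G}
    (hN : ∀ n ∈ N, ∀ x ∈ A ⊔ B, x⁻¹ * n * x ∈ N)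
    (hNA : ∀ n ∈ N, conjBy A n = A) : ∀ n ∈ N, ∀ x ∈ A ⊔ B, n * x = x * n := by
  have hNB : ∀ n ∈ N, conjBy B n = B := unip_fixed_of_conj_fixed hN hNA (rk1_B_mem_unip h)
  have hN' : ∀ n ∈ N, ∀ x ∈ A ⊔ B, x * n * x⁻¹ ∈ N := by
    intro n hn x hx
    have := hN n hn x⁻¹ (Subgroup.inv_mem _ hx)
    simpa using this
  intro n hn
  apply commute_sup_of_commute
  · intro a ha
    have hc : n * a * n⁻¹ * a⁻¹ ∈ A := by
      refine A.mul_mem ?_ (A.inv_mem ha)
      have := conj_mem_conjBy ha n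
      rwa [hNA n hn] at this
    have hcN : n * a * n⁻¹ * a⁻¹ ∈ N := by
      have h1 := hN' n⁻¹ (N.inv_mem hn) a (Subgroup.mem_sup_left ha)
      have := N.mul_mem hn h1
      simpa [mul_assoc] using this
    have := rk1_normA h hc (hNB _ hcN)
    calc n * a = (n * a * n⁻¹ * a⁻¹) * (a * n) := by group
      _ = a * n := by rw [this, one_mul]
  · intro b hb
    have hc : n * b * n⁻¹ * b⁻¹ ∈ B := by
      refine B.mul_mem ?_ (B.inv_mem hb)
      have := conj_mem_conjBy hb n
      rwa [hNB n hn] at this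
    have hcN : n * b * n⁻¹ * b⁻¹ ∈ N := by
      have h1 := hN' n⁻¹ (N.inv_mem hn) b (Subgroup.mem_sup_right hb)
      have := N.mul_mem hn h1
      simpa [mul_assoc] using this
    have := rk1_normB h hc (hNA _ hcN)
    calc n * b = (n * b * n⁻¹ * b⁻¹) * (b * n) := by group
      _ = b * n := by rw [this, one_mul]

/-- If `n ∈ N` moves `A`, then `B ≤ N ⊔ A`, hence `A ⊔ B ≤ N ⊔ A`. -/
theorem rk1_normal_transitive (h : IsRankOnePair A B) {N : Subgroup G} {n : G} (hn : n ∈ N)
    (hnx : n ∈ A ⊔ B) (hnA : conjBy A n ≠ A) : A ⊔ B ≤ N ⊔ A := by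
  refine sup_le le_sup_right ?_
  have hC : conjBy A n ∈ unipotentSubgroups A B := unip_conj_mem (unip_self_mem A B) hnx
  obtain ⟨a, ⟨ha, hae⟩, -⟩ := rk1_regular h hC (rk1_B_mem_unip h) hnA h.ne.symm
  rw [conjBy_conjBy] at hae
  rw [← hae]
  refine conjBy_le_of_mem le_sup_right ?_
  exact Subgroup.mul_mem _ (Subgroup.mem_sup_right ha) (Subgroup.mem_sup_left hn)

/-- A rank one pair generates a non-abelian group. -/
theorem rk1_center_ne_top {X : Type*} [Group X] {A B : Subgroup X} (h : IsRankOnePair A B) :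
    Subgroup.center X ≠ ⊤ := by
  intro htop
  apply rk1_not_commute h
  intro a _ b _
  have : b ∈ Subgroup.center X := by rw [htop]; trivial
  exact Subgroup.mem_center_iff.mp this a

/-- Normal subgroup dichotomy in a rank one group. -/
theorem rk1_normal_dichotomy {X : Type*} [Group X] {A B : Subgroup X} (h : IsRankOneGroup X A B)
    (N : Subgroup X) (hN : N.Normal) : N ⊔ A = ⊤ ∨ N ≤ Subgroup.center X := by
  obtain ⟨htop, hp⟩ := h
  by_cases hNA : ∀ n ∈ N, conjBy A n = A
  · right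
    have hN' : ∀ n ∈ N, ∀ x ∈ A ⊔ B, x⁻¹ * n * x ∈ N := by
      intro n hn x _
      have := hN.conj_mem n hn x⁻¹
      simpa using this
    intro n hn
    rw [Subgroup.mem_center_iff]
    intro g
    exact (rk1_normal_central hp hN' hNA n hn g (by rw [htop]; trivial)).symm
  · left
    push Not at hNA
    obtain ⟨n, hn, hnA⟩ := hNA
    have := rk1_normal_transitive hp hn (by rw [htop]; trivial) hnA
    rw [htop] at this
    exact top_le_iff.mp this

end Cfsg.Agent.Lib.Helper86
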