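import Mathlib
import Cfsg.Prelude.Def_RootSubgroups
import Cfsg.Agent.Lib.Helper86.RankOne2

set_option autoImplicit false

namespace Cfsg.Agent.Lib.Helper86

open Cfsg

variable {G : Type*} [Group G] {A B : Subgroup G}

/-! ### More on rank one pairs -/

theorem conjBy_of_centralizes {C : Subgroup G} {z : G} (hz : ∀ x ∈ C, z * x = x * z) :
    conjBy C z = C := by
  ext x
  rw [mem_conjBy]
  constructor
  · intro hx
    have := hz _ hx
    have e : x = z * (z⁻¹ * x * z) * z⁻¹ := by group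
    rw [e, this]; simpa using hx
  · intro hx
    have := hz x hx
    have e : z⁻¹ * x * z = z⁻¹ * (x * z) := by group
    rw [e, ← this]; simpa using hx

theorem rk1_conjB_pair (h : IsRankOnePair A B) {a : G} (ha : a ∈ A) (ha1 : a ≠ 1) :
    IsRankOnePair (conjBy B a) B :=
  rk1_pair_of_unip h (rk1_conjB_mem_unip h ha) (rk1_B_mem_unip h) (fun e => ha1 (rk1_normA h ha e))

theorem rk1_conjA_pair (h : IsRankOnePair A B) {b : G} (hb : b ∈ B) (hb1 : b ≠ 1) :
    IsRankOnePair (conjBy A b) A :=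
  rk1_conjB_pair (RankOnePair_symm h) hb hb1

/-- In a rank one pair, commuting elements `a ∈ A`, `b ∈ B`: one of them is trivial. -/
theorem rk1_commuting_elts (h : IsRankOnePair A B) {a b : G} (ha : a ∈ A) (hb : b ∈ B)
    (hab : a * b = b * a) : a = 1 ∨ b = 1 := by
  by_contra hcon
  push Not at hcon
  obtain ⟨ha1, hb1⟩ := hcon
  have hpair : IsRankOnePair B (conjBy B a) := RankOnePair_symm (rk1_conjB_pair h ha ha1)
  have hb' : b ∈ conjBy B a := by
    rw [mem_conjBy]
    have : a⁻¹ * b * a = b := by rw [mul_assoc, ← hab, ← mul_assoc, inv_mul_cancel, one_mul]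
    rw [this]; exact hb
  exact hb1 (rk1_normA hpair hb (conjBy_of_mem hb'))

/-- Different unipotent subgroups meet trivially. -/
theorem rk1_inf_eq_bot (h : IsRankOnePair A B) : A ⊓ B = ⊥ := by
  rw [Subgroup.eq_bot_iff_forall]
  rintro x ⟨hxA, hxB⟩
  exact rk1_normA h hxA (conjBy_of_mem hxB)

/-! ### Sets of abstract root subgroups -/

variable {S : Set (Subgroup G)}

theorem root_comm (hS : IsRootSubgroupSet S) {E : Subgroup G} (hE : E ∈ S) {x y : G}
    (hx : x ∈ E) (hy : y ∈ E) : x * y = y * x := by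
  have := hS.commutative E hE
  exact setLike_mul_comm hx hy

theorem root_exists_ne_one (hS : IsRootSubgroupSet S) {E : Subgroup G} (hE : E ∈ S) :
    ∃ e ∈ E, e ≠ 1 :=
  exists_ne_one_of_ne_bot (hS.ne_bot E hE)

/-- In the commutator case, `f E f⁻¹` commutes with `E` elementwise for `f ∈ F`. -/
theorem root_cc_conj_commute (hS : IsRootSubgroupSet S) {F E : Subgroup G} (hE : E ∈ S)
    (hcc : RootCommutatorCase S F E) {f : G} (hf : f ∈ F) :
    ∀ x ∈ conjBy E f, ∀ e ∈ E, x * e = e * x := by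
  intro x hx e he
  rw [mem_conjBy] at hx
  have hc : f * (f⁻¹ * x * f) * f⁻¹ * (f⁻¹ * x * f)⁻¹ ∈ ⁅F, E⁆ :=
    Subgroup.commutator_mem_commutator hf hx
  have h1 := hcc.2.1 _ hc e (Subgroup.mem_sup_right he)
  have h2 := root_comm hS hE hx he
  have e1 : x = (f * (f⁻¹ * x * f) * f⁻¹ * (f⁻¹ * x * f)⁻¹) * (f⁻¹ * x * f) := by group
  rw [e1, mul_assoc, h2, ← mul_assoc, h1, mul_assoc]

/-- If `f E f⁻¹` and `E` form a rank one pair for some `f ∈ F`, then `F` and `E` form a rank one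
pair. -/
theorem root_pair_of_conj (hS : IsRootSubgroupSet S) {F E : Subgroup G} (hF : F ∈ S) (hE : E ∈ S)
    {f : G} (hf : f ∈ F) (hp : IsRankOnePair (conjBy E f) E) : IsRankOnePair F E := by
  rcases hS.pair F hF E hE with h1 | h2 | h3
  · exfalso
    rw [commutator_eq_bot_iff'] at h1
    apply hp.ne
    exact conjBy_of_centralizes (fun x hx => h1 f hf x hx)
  · exact h2
  · exfalso
    exact rk1_not_commute hp (root_cc_conj_commute hS hE h3 hf)

/-- If `F, E ∈ S`, `(P, E)` is a rank one pair and `F`, `P` share a non-identity element,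
then `F = P`. -/
theorem root_eq_of_common_elt (hS : IsRootSubgroupSet S) {F E P : Subgroup G} (hF : F ∈ S)
    (hE : E ∈ S) (hP : IsRankOnePair P E) {f : G} (hfF : f ∈ F) (hfP : f ∈ P) (hf1 : f ≠ 1) :
    F = P := by
  have hFE : IsRankOnePair F E := root_pair_of_conj hS hF hE hfF (rk1_conjB_pair hP hfP hf1)
  obtain ⟨e, he, -, hee⟩ := hFE.cond_left f hfF hf1
  obtain ⟨e', he', -, hee'⟩ := hP.cond_left f hfP hf1
  have hF_eq : F = conjBy P (e * e'⁻¹) := by
    rw [← conjBy_conjBy, hee', ← hee, conjBy_cancel_inv]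
  by_cases hx : e * e'⁻¹ = 1
  · rw [hx, conjBy_one] at hF_eq; exact hF_eq
  · exfalso
    have hpair : IsRankOnePair (conjBy P (e * e'⁻¹)) P :=
      rk1_conjA_pair hP (E.mul_mem he (E.inv_mem he')) hx
    rw [← hF_eq] at hpair
    exact hf1 (rk1_normA hpair hfF (conjBy_of_mem hfP))

theorem partner_of_not_isolated {A : Subgroup G} (hA : ¬ IsIsolatedIn (FAdj S) S A) (hAS : A ∈ S) :
    ∃ C ∈ S, IsRankOnePair A C := by
  unfold IsIsolatedIn at hA
  push Not at hA
  obtain ⟨C, hC⟩ := hA hAS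
  by_cases h1 : FAdj S A C
  · exact ⟨C, h1.2.1, h1.2.2⟩
  · have h2 := hC h1
    exact ⟨C, h2.1, RankOnePair_symm h2.2.2⟩

/-- A member of `S` with a rank one partner meets every other member trivially. -/
theorem root_inf_eq_bot_or_eq (hS : IsRootSubgroupSet S) {A C : Subgroup G} (hC : C ∈ S)
    (hAC : IsRankOnePair A C) {B : Subgroup G} (hB : B ∈ S) : A ⊓ B = ⊥ ∨ A = B := by
  by_cases hAB : A ⊓ B = ⊥
  · left; exact hAB
  · right
    obtain ⟨x, hx, hx1⟩ := exists_ne_one_of_ne_bot hAB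
    exact (root_eq_of_common_elt hS hB hC hAC hx.2 hx.1 hx1).symm

/-- If `z ≠ 1` centralizes the rank one group `⟨A, B⟩`, no `z a` with `1 ≠ a ∈ A` lies in a member
of `S`. -/
theorem root_central_translate (hS : IsRootSubgroupSet S) {A B : Subgroup G}
    (hB : B ∈ S) (hAB : IsRankOnePair A B) {z : G} (hz : ∀ x ∈ A ⊔ B, z * x = x * z) (hz1 : z ≠ 1)
    {a : G} (ha : a ∈ A) (ha1 : a ≠ 1) {F : Subgroup G} (hF : F ∈ S) (hzaF : z * a ∈ F) : False := by
  have hzc : ∀ {C : Subgroup G}, C ≤ A ⊔ B → conjBy C z = C := fun hC =>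
    conjBy_of_centralizes (fun x hx => hz x (hC hx))
  have hBa_le : conjBy B a ≤ A ⊔ B := conjBy_le_of_mem le_sup_right (Subgroup.mem_sup_left ha)
  have hBza : conjBy B (z * a) = conjBy B a := by
    rw [← conjBy_conjBy, hzc hBa_le]
  have hpBa := rk1_conjB_pair hAB ha ha1
  have hpairFB : IsRankOnePair F B := root_pair_of_conj hS hF hB hzaF (by rw [hBza]; exact hpBa)
  have hza1 : z * a ≠ 1 := by
    intro e
    apply hpBa.ne
    rw [← hBza, e, conjBy_one]
  obtain ⟨b', hb', -, hb'e⟩ := hpairFB.cond_left (z * a) hzaF hza1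
  obtain ⟨b, hb, -, hbe⟩ := hAB.cond_left a ha ha1
  have hBza' : conjBy B (z * a)⁻¹ = conjBy B a⁻¹ := by
    rw [mul_inv_rev, ← conjBy_conjBy]
    congr 1
    rw [conjBy_eq_iff, inv_inv, hzc le_sup_right]
  rw [hBza'] at hb'e
  have hF_eq : F = conjBy A (b' * b⁻¹) := by
    rw [← conjBy_conjBy, hbe, ← hb'e, conjBy_cancel_inv]
  have hAza : conjBy A (z * a) = A := by
    rw [← conjBy_conjBy, conjBy_of_mem ha, hzc le_sup_left]
  by_cases hx : b' * b⁻¹ = 1
  · rw [hx, conjBy_one] at hF_eq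
    rw [hF_eq] at hzaF
    have hzA : z ∈ A := by
      have := A.mul_mem hzaF (A.inv_mem ha)
      simpa using this
    exact hz1 (rk1_normA hAB hzA (hzc le_sup_right))
  · have hpair : IsRankOnePair (conjBy A (b' * b⁻¹)) A :=
      rk1_conjA_pair hAB (B.mul_mem hb' (B.inv_mem hb)) hx
    rw [← hF_eq] at hpair
    exact hza1 (rk1_normA hpair hzaF hAza)

end Cfsg.Agent.Lib.Helper86
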