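import Mathlib
import Cfsg.Prelude.Def_RootSubgroups
import Cfsg.Agent.Lib.Helper86.RootSub

set_option autoImplicit false

namespace Cfsg.Agent.Lib.Helper86

open Cfsg

variable {G : Type*} [Group G] {S : Set (Subgroup G)}

theorem le_cent_zpowers_iff {E : Subgroup G} {x : G} :
    E ≤ Subgroup.centralizer (Subgroup.zpowers x : Set G) ↔ ∀ e ∈ E, e * x = x * e := by
  rw [Subgroup.le_centralizer_iff, Subgroup.zpowers_le, Subgroup.mem_centralizer_iff]
  rfl

/-- A member of `S` inside the rank one group `⟨C, D⟩` having a rank one partner inside it is one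
of the unipotent subgroups of `⟨C, D⟩`. -/
theorem root_mem_unip_of_le (hS : IsRootSubgroupSet S) {A B C D : Subgroup G} (hA : A ∈ S)
    (hAB : IsRankOnePair A B) (hC : C ∈ S) (hCD : IsRankOnePair C D)
    (hle : A ⊔ B ≤ C ⊔ D) : A ∈ unipotentSubgroups C D := by
  have hAle : A ≤ C ⊔ D := le_sup_left.trans hle
  have hΩS : ∀ E ∈ unipotentSubgroups C D, E ∈ S := by
    rintro E ⟨x, -, rfl⟩; exact hS.conj_mem C hC x
  by_contra hAΩ
  have hcen : ∀ E ∈ unipotentSubgroups C D, ∀ a ∈ A, ∀ e ∈ E, a * e = e * a := by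
    intro E hE
    have hES := hΩS E hE
    obtain ⟨E', hE', hEE'⟩ : ∃ E' ∈ unipotentSubgroups C D, E' ≠ E := by
      by_cases hEC : E = C
      · exact ⟨D, rk1_B_mem_unip hCD, by rw [hEC]; exact hCD.ne.symm⟩
      · exact ⟨C, unip_self_mem C D, fun e => hEC e.symm⟩
    have hpEE' : IsRankOnePair E E' := rk1_pair_of_unip hCD hE hE' hEE'.symm
    rcases hS.pair A hA E hES with h1 | h2 | h3
    · exact commutator_eq_bot_iff'.mp h1
    · exfalso
      obtain ⟨a, ha, ha1⟩ := rk1_A_nontriv h2
      obtain ⟨e, he, -, hae⟩ := h2.cond_left a ha ha1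
      apply hAΩ
      have h4 : conjBy E a⁻¹ ∈ unipotentSubgroups C D :=
        unip_conj_mem hE (Subgroup.inv_mem _ (hAle ha))
      rw [← hae] at h4
      have h5 := unip_conj_mem h4 (unip_le_sup hE he)
      rwa [conjBy_cancel_inv] at h5
    · exfalso
      have hnorm : ∀ a ∈ A, conjBy E a = E := by
        intro a ha
        by_contra hne
        have hp : IsRankOnePair (conjBy E a) E :=
          rk1_pair_of_unip hCD (unip_conj_mem hE (hAle ha)) hE hne
        exact rk1_not_commute hp (root_cc_conj_commute hS hES h3 ha)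
      have hFE : ⁅A, E⁆ ≤ E := by
        rw [Subgroup.commutator_le]
        intro a ha e he
        have h6 : a * e * a⁻¹ ∈ conjBy E a := conj_mem_conjBy he a
        rw [hnorm a ha] at h6
        exact E.mul_mem h6 (E.inv_mem he)
      obtain ⟨f, hf, hf1⟩ := root_exists_ne_one hS h3.1
      have hFeq : ⁅A, E⁆ = E := root_eq_of_common_elt hS h3.1 (hΩS E' hE') hpEE' hf (hFE hf) hf1
      have hcomm : ∀ a ∈ A, ∀ e ∈ E, a * e = e * a := by
        intro a ha e he
        have he' : e ∈ ⁅A, E⁆ := by rw [hFeq]; exact he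
        exact (h3.2.1 e he' a (Subgroup.mem_sup_left ha)).symm
      have : ⁅A, E⁆ = ⊥ := commutator_eq_bot_iff'.mpr hcomm
      exact hS.ne_bot _ h3.1 this
  apply rk1_not_commute hAB
  intro a ha b hb
  exact commute_sup_of_commute (hcen C (unip_self_mem C D) a ha) (hcen D (rk1_B_mem_unip hCD) a ha) b
    (hle (Subgroup.mem_sup_right hb))

end Cfsg.Agent.Lib.Helper86
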