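import Mathlib
import Cfsg.Prelude.Def_RootSubgroups
import Cfsg.Agent.Lib.Helper86.RootSub2

set_option autoImplicit false

namespace Cfsg.Agent.Lib.Helper86

open Cfsg

variable {G : Type*} [Group G] {S : Set (Subgroup G)} {A B : Subgroup G}

/-- Decomposition of the elements of a product of two commuting subgroups. -/
theorem mem_sup_of_commute (h : ∀ a ∈ A, ∀ c ∈ B, a * c = c * a) {x : G} (hx : x ∈ A ⊔ B) :
    ∃ a ∈ A, ∃ c ∈ B, x = c * a := by
  rw [← Subgroup.closure_eq A, ← Subgroup.closure_eq B, ← Subgroup.closure_union] at hx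
  induction hx using Subgroup.closure_induction with
  | mem y hy =>
    rcases hy with hy | hy
    · exact ⟨y, hy, 1, B.one_mem, (one_mul y).symm⟩
    · exact ⟨1, A.one_mem, y, hy, (mul_one y).symm⟩
  | one => exact ⟨1, A.one_mem, 1, B.one_mem, (mul_one 1).symm⟩
  | mul y z _ _ ihy ihz =>
    obtain ⟨a, ha, c, hc, rfl⟩ := ihy
    obtain ⟨a', ha', c', hc', rfl⟩ := ihz
    refine ⟨a * a', A.mul_mem ha ha', c * c', B.mul_mem hc hc', ?_⟩
    calc c * a * (c' * a') = c * (a * c') * a' := by group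
      _ = c * (c' * a) * a' := by rw [h a ha c' hc']
      _ = c * c' * (a * a') := by group
  | inv y _ ih =>
    obtain ⟨a, ha, c, hc, rfl⟩ := ih
    refine ⟨a⁻¹, A.inv_mem ha, c⁻¹, B.inv_mem hc, ?_⟩
    rw [mul_inv_rev, h a⁻¹ (A.inv_mem ha) c⁻¹ (B.inv_mem hc)]

/-- `⁅A, B⁆` is normalized by `A ⊔ B`. -/
theorem conjBy_commutator_of_mem_sup {x : G} (hx : x ∈ A ⊔ B) : conjBy ⁅A, B⁆ x = ⁅A, B⁆ := by
  rw [conjBy_eq_self_iff]
  exact (sup_le (Subgroup.normalizer_commutator_ge_left A B) (Subgroup.normalizer_commutator_ge_right A B)) hx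

theorem comm_elt_mem {a b : G} (ha : a ∈ A) (hb : b ∈ B) : a * b * a⁻¹ * b⁻¹ ∈ ⁅A, B⁆ :=
  Subgroup.commutator_mem_commutator ha hb

theorem comm_elt_mem' {a b : G} (ha : a ∈ A) (hb : b ∈ B) : b * a * b⁻¹ * a⁻¹ ∈ ⁅A, B⁆ := by
  have := Subgroup.inv_mem _ (comm_elt_mem (A := A) (B := B) ha hb)
  have e : (a * b * a⁻¹ * b⁻¹)⁻¹ = b * a * b⁻¹ * a⁻¹ := by group
  rwa [e] at this

/-! ### The commutator case -/

theorem cc_symm (h : RootCommutatorCase S A B) : RootCommutatorCase S B A := by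
  have e : ⁅B, A⁆ = ⁅A, B⁆ := Subgroup.commutator_comm B A
  have hset : ∀ {X : Subgroup G} (f g : G → G), (∀ x, g x = (f x)⁻¹) →
      Subgroup.closure (g '' (X : Set G)) = Subgroup.closure (f '' (X : Set G)) := by
    intro X f g hfg
    rw [← Subgroup.closure_inv (f '' (X : Set G))]
    congr 1
    ext y
    simp only [Set.mem_image, Set.mem_inv]
    constructor
    · rintro ⟨x, hx, rfl⟩
      exact ⟨x, hx, by rw [hfg, inv_inv]⟩
    · rintro ⟨x, hx, hy⟩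
      exact ⟨x, hx, by rw [hfg, hy, inv_inv]⟩
  refine ⟨by rw [e]; exact h.1, ?_, ?_, ?_⟩
  · intro c hc x hx
    rw [e] at hc; rw [sup_comm] at hx
    exact h.2.1 c hc x hx
  · intro b hb hb1
    rw [e, ← h.2.2.2 b hb hb1]
    exact hset _ _ (fun x => by group)
  · intro a ha ha1
    rw [e, ← h.2.2.1 a ha ha1]
    exact hset _ _ (fun x => by group)

theorem cc_mul_right (hcc : RootCommutatorCase S A B) {a b b' : G} (ha : a ∈ A) (hb : b ∈ B)
    (hb' : b' ∈ B) :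
    a * (b * b') * a⁻¹ * (b * b')⁻¹ = (a * b * a⁻¹ * b⁻¹) * (a * b' * a⁻¹ * b'⁻¹) := by
  have hcomm := hcc.2.1 _ (comm_elt_mem ha hb') b⁻¹ (Subgroup.mem_sup_right (B.inv_mem hb))
  calc a * (b * b') * a⁻¹ * (b * b')⁻¹ = a * b * a⁻¹ * ((a * b' * a⁻¹ * b'⁻¹) * b⁻¹) := by group
    _ = a * b * a⁻¹ * (b⁻¹ * (a * b' * a⁻¹ * b'⁻¹)) := by rw [hcomm]
    _ = _ := by group

theorem cc_surj_right (hcc : RootCommutatorCase S A B) {a : G} (ha : a ∈ A) (ha1 : a ≠ 1) {c : G}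
    (hc : c ∈ ⁅A, B⁆) : ∃ b ∈ B, a * b * a⁻¹ * b⁻¹ = c := by
  rw [← hcc.2.2.1 a ha ha1] at hc
  induction hc using Subgroup.closure_induction with
  | mem y hy => obtain ⟨b, hb, rfl⟩ := hy; exact ⟨b, hb, rfl⟩
  | one => exact ⟨1, B.one_mem, by group⟩
  | mul y z _ _ ihy ihz =>
    obtain ⟨b, hb, rfl⟩ := ihy
    obtain ⟨b', hb', rfl⟩ := ihz
    exact ⟨b * b', B.mul_mem hb hb', cc_mul_right hcc ha hb hb'⟩
  | inv y _ ih =>
    obtain ⟨b, hb, rfl⟩ := ih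
    refine ⟨b⁻¹, B.inv_mem hb, ?_⟩
    have h1 : (a * b * a⁻¹ * b⁻¹) * (a * b⁻¹ * a⁻¹ * b⁻¹⁻¹) = 1 := by
      rw [← cc_mul_right hcc ha hb (B.inv_mem hb)]; group
    exact eq_inv_of_mul_eq_one_right h1

theorem cc_surj_left (hcc : RootCommutatorCase S A B) {b : G} (hb : b ∈ B) (hb1 : b ≠ 1) {c : G}
    (hc : c ∈ ⁅A, B⁆) : ∃ a ∈ A, a * b * a⁻¹ * b⁻¹ = c := by
  have hc' : c⁻¹ ∈ ⁅B, A⁆ := by
    rw [Subgroup.commutator_comm B A]; exact Subgroup.inv_mem _ hc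
  obtain ⟨a, ha, hab⟩ := cc_surj_right (cc_symm hcc) hb hb1 hc'
  refine ⟨a, ha, ?_⟩
  have e : a * b * a⁻¹ * b⁻¹ = (b * a * b⁻¹ * a⁻¹)⁻¹ := by group
  rw [e, hab, inv_inv]

/-- For `a ∈ A`, `a ≠ 1` and `c ∈ ⁅A, B⁆` there is `b ∈ B` with `b a b⁻¹ = c a`. -/
theorem cc_conj_surj (hcc : RootCommutatorCase S A B) {a : G} (ha : a ∈ A) (ha1 : a ≠ 1) {c : G}
    (hc : c ∈ ⁅A, B⁆) : ∃ b ∈ B, b * a * b⁻¹ = c * a := by
  obtain ⟨b, hb, hab⟩ := cc_surj_right hcc ha ha1 (Subgroup.inv_mem _ hc)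
  refine ⟨b, hb, ?_⟩
  have e : b * a * b⁻¹ = (a * b * a⁻¹ * b⁻¹)⁻¹ * a := by group
  rw [e, hab, inv_inv]

/-- In the commutator case the two subgroups do not commute. -/
theorem cc_not_commute (hS : IsRootSubgroupSet S) (hcc : RootCommutatorCase S A B) :
    ¬ ∀ a ∈ A, ∀ b ∈ B, a * b = b * a := by
  intro h
  exact hS.ne_bot _ hcc.1 (commutator_eq_bot_iff'.mpr h)

/-- If `⁅A, B⁆ ∈ S` then `(A, B)` is not a rank one pair. -/
theorem root_not_rk1_of_comm_mem (hS : IsRootSubgroupSet S) (hA : A ∈ S) (hB : B ∈ S)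
    (hC : ⁅A, B⁆ ∈ S) : ¬ IsRankOnePair A B := by
  intro hAB
  have hNle : ⁅A, B⁆ ≤ A ⊔ B := Subgroup.commutator_le_sup A B
  have hNnorm : ∀ n ∈ ⁅A, B⁆, ∀ x ∈ A ⊔ B, x⁻¹ * n * x ∈ ⁅A, B⁆ := by
    intro n hn x hx
    have h1 := conj_mem_conjBy hn x⁻¹
    rw [conjBy_commutator_of_mem_sup (Subgroup.inv_mem _ hx), inv_inv] at h1
    exact h1
  by_cases hNA : ∀ n ∈ ⁅A, B⁆, conjBy A n = A
  · have hcen := rk1_normal_central hAB hNnorm hNA
    obtain ⟨a, ha, ha1⟩ := rk1_A_nontriv hAB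
    have hp := rk1_conjB_pair hAB ha ha1
    obtain ⟨x, hx, hx1⟩ := rk1_A_nontriv hp
    apply hx1
    apply rk1_normA hp hx
    rw [mem_conjBy] at hx
    have hn : a * (a⁻¹ * x * a) * a⁻¹ * (a⁻¹ * x * a)⁻¹ ∈ ⁅A, B⁆ := comm_elt_mem ha hx
    have e : x = (a * (a⁻¹ * x * a) * a⁻¹ * (a⁻¹ * x * a)⁻¹) * (a⁻¹ * x * a) := by group
    rw [e, ← conjBy_conjBy, conjBy_of_mem hx]
    exact conjBy_of_centralizes (fun y hy => hcen _ hn y (Subgroup.mem_sup_right hy))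
  · push Not at hNA
    obtain ⟨n, hn, hnA⟩ := hNA
    have hle : A ⊔ B ≤ ⁅A, B⁆ ⊔ A := rk1_normal_transitive hAB hn (hNle hn) hnA
    rcases hS.pair _ hC A hA with h1 | h2 | h3
    · rw [commutator_eq_bot_iff'] at h1
      apply rk1_not_commute hAB
      intro a ha b hb
      have hab : ∀ x ∈ ⁅A, B⁆ ⊔ A, a * x = x * a :=
        commute_sup_of_commute (fun x hx => (h1 x hx a ha).symm) (fun x hx => root_comm hS hA ha hx)
      exact hab b (hle (Subgroup.mem_sup_right hb))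
    · obtain ⟨a, ha, ha1⟩ := rk1_A_nontriv hAB
      exact ha1 (rk1_normB h2 ha (conjBy_commutator_of_mem_sup (Subgroup.mem_sup_left ha)))
    · have hne : ¬ ∀ n ∈ ⁅A, B⁆, ∀ a ∈ A, n * a = a * n := cc_not_commute hS h3
      push Not at hne
      obtain ⟨m, hm, a, ha, hma⟩ := hne
      have ha1 : a ≠ 1 := by rintro rfl; simp at hma
      have hz : m * a * m⁻¹ * a⁻¹ ∈ ⁅⁅A, B⁆, A⁆ := comm_elt_mem hm ha
      have hz1 : m * a * m⁻¹ * a⁻¹ ≠ 1 := by
        intro e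
        apply hma
        calc m * a = (m * a * m⁻¹ * a⁻¹) * (a * m) := by group
          _ = a * m := by rw [e, one_mul]
      refine root_central_translate hS hB hAB (z := m * a * m⁻¹ * a⁻¹)
        (fun x hx => h3.2.1 _ hz x (hle hx)) hz1 ha ha1 (hS.conj_mem A hA m) ?_
      have e : m * a * m⁻¹ * a⁻¹ * a = m * a * m⁻¹ := by group
      rw [e]
      exact conj_mem_conjBy ha m

/-- If `⁅A, B⁆ ∈ S` then `(A, B)` is in the commutator case. -/
theorem root_cc_of_comm_mem (hS : IsRootSubgroupSet S) (hA : A ∈ S) (hB : B ∈ S)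
    (hC : ⁅A, B⁆ ∈ S) : RootCommutatorCase S A B := by
  rcases hS.pair A hA B hB with h1 | h2 | h3
  · exact absurd h1 (hS.ne_bot _ hC)
  · exact absurd h2 (root_not_rk1_of_comm_mem hS hA hB hC)
  · exact h3

/-- In the commutator case, if `A` has a rank one partner, non-identity elements of `A` and `B`
do not commute. -/
theorem cc_not_commute_elts (hS : IsRootSubgroupSet S) (hA : A ∈ S) {E : Subgroup G} (hE : E ∈ S)
    (hAE : IsRankOnePair A E) (hcc : RootCommutatorCase S A B) {a b : G} (ha : a ∈ A)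
    (ha1 : a ≠ 1) (hb : b ∈ B) (hb1 : b ≠ 1) : a * b ≠ b * a := by
  intro hab
  obtain ⟨c, hc, hc1⟩ := root_exists_ne_one hS hcc.1
  obtain ⟨a', ha', hca'⟩ := cc_surj_left hcc hb hb1 hc
  have hAb : A = conjBy A b := by
    rcases root_inf_eq_bot_or_eq hS hE hAE (hS.conj_mem A hA b) with h | h
    · exfalso
      have hmem : a ∈ A ⊓ conjBy A b := by
        refine Subgroup.mem_inf.mpr ⟨ha, ?_⟩
        rw [mem_conjBy]
        have e : b⁻¹ * a * b = b⁻¹ * (a * b) := by group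
        rw [e, hab]; simpa using ha
      rw [h] at hmem
      exact ha1 (Subgroup.mem_bot.mp hmem)
    · exact h
  have h1 : b * a' * b⁻¹ ∈ A := by
    have := conj_mem_conjBy ha' b
    rwa [← hAb] at this
  have hcA : c ∈ A := by
    have h2 : a' * (b * a' * b⁻¹)⁻¹ ∈ A := A.mul_mem ha' (A.inv_mem h1)
    have e : a' * (b * a' * b⁻¹)⁻¹ = a' * b * a'⁻¹ * b⁻¹ := by group
    rwa [e, hca'] at h2
  have hAC : A = ⁅A, B⁆ := by
    rcases root_inf_eq_bot_or_eq hS hE hAE hcc.1 with h | h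
    · exfalso
      have hmem : c ∈ A ⊓ ⁅A, B⁆ := Subgroup.mem_inf.mpr ⟨hcA, hc⟩
      rw [h] at hmem
      exact hc1 (Subgroup.mem_bot.mp hmem)
    · exact h
  apply cc_not_commute hS hcc
  intro x hx y hy
  rw [hAC] at hx
  exact hcc.2.1 x hx y (Subgroup.mem_sup_right hy)

/-- In the commutator case, if `A` has a rank one partner, `A ⊓ ⁅A, B⁆ = ⊥`. -/
theorem cc_inf_eq_bot (hS : IsRootSubgroupSet S) {E : Subgroup G} (hE : E ∈ S)
    (hAE : IsRankOnePair A E) (hcc : RootCommutatorCase S A B) : A ⊓ ⁅A, B⁆ = ⊥ := by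
  rcases root_inf_eq_bot_or_eq hS hE hAE hcc.1 with h | h
  · exact h
  · exfalso
    apply cc_not_commute hS hcc
    intro x hx y hy
    rw [h] at hx
    exact hcc.2.1 x hx y (Subgroup.mem_sup_right hy)

theorem cc_mul_left (hcc : RootCommutatorCase S A B) {a a' b : G} (ha : a ∈ A) (ha' : a' ∈ A)
    (hb : b ∈ B) :
    (a * a') * b * (a * a')⁻¹ * b⁻¹ = (a * b * a⁻¹ * b⁻¹) * (a' * b * a'⁻¹ * b⁻¹) := by
  have h1 := hcc.2.1 _ (comm_elt_mem ha' hb) a (Subgroup.mem_sup_left ha)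
  have h2 := hcc.2.1 _ (comm_elt_mem ha' hb) (a * b * a⁻¹ * b⁻¹)
    (Subgroup.commutator_le_sup A B (comm_elt_mem ha hb))
  calc (a * a') * b * (a * a')⁻¹ * b⁻¹ = (a * (a' * b * a'⁻¹ * b⁻¹)) * (b * a⁻¹ * b⁻¹) := by group
    _ = ((a' * b * a'⁻¹ * b⁻¹) * a) * (b * a⁻¹ * b⁻¹) := by rw [h1]
    _ = (a' * b * a'⁻¹ * b⁻¹) * (a * b * a⁻¹ * b⁻¹) := by group
    _ = _ := h2

/-- A member of `S` inside `⁅A, B⁆` equals `⁅A, B⁆` (when `A` has a rank one partner). -/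
theorem cc_sub_eq (hS : IsRootSubgroupSet S) (hA : A ∈ S) {E : Subgroup G} (hE : E ∈ S)
    (hAE : IsRankOnePair A E) (hcc : RootCommutatorCase S A B) {F : Subgroup G}
    (hF : F ∈ S) (hFC : F ≤ ⁅A, B⁆) : F = ⁅A, B⁆ := by
  have hCE : ∀ c ∈ ⁅A, B⁆, c ≠ 1 → ¬ ∀ e ∈ E, c * e = e * c := by
    intro c hc hc1 hce
    obtain ⟨a, ha, ha1⟩ := rk1_A_nontriv hAE
    obtain ⟨b, hb, hba⟩ := cc_conj_surj hcc ha ha1 hc
    refine root_central_translate hS hE hAE (z := c) ?_ hc1 ha ha1 (hS.conj_mem A hA b) ?_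
    · exact commute_sup_of_commute (fun x hx => hcc.2.1 c hc x (Subgroup.mem_sup_left hx)) hce
    · rw [← hba]; exact conj_mem_conjBy ha b
  obtain ⟨f, hf, hf1⟩ := root_exists_ne_one hS hF
  rcases hS.pair _ hcc.1 E hE with h1 | h2 | h3
  · exfalso
    obtain ⟨c, hc, hc1⟩ := root_exists_ne_one hS hcc.1
    exact hCE c hc hc1 (fun e he => commutator_eq_bot_iff'.mp h1 c hc e he)
  · rcases root_inf_eq_bot_or_eq hS hE h2 hF with h | h
    · exfalso
      have : f ∈ ⁅A, B⁆ ⊓ F := Subgroup.mem_inf.mpr ⟨hFC hf, hf⟩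
      rw [h] at this; exact hf1 (Subgroup.mem_bot.mp this)
    · exact h.symm
  · have hFE : RootCommutatorCase S F E := by
      rcases hS.pair F hF E hE with k1 | k2 | k3
      · exfalso
        exact hCE f (hFC hf) hf1 (fun e he => commutator_eq_bot_iff'.mp k1 f hf e he)
      · exfalso
        exact rk1_not_commute (rk1_conjB_pair k2 hf hf1) (root_cc_conj_commute hS hE h3 (hFC hf))
      · exact k3
    have hM : ⁅F, E⁆ = ⁅⁅A, B⁆, E⁆ := by
      rw [← hFE.2.2.1 f hf hf1, ← h3.2.2.1 f (hFC hf) hf1]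
    obtain ⟨e, he, he1⟩ := rk1_B_nontriv hAE
    apply le_antisymm hFC
    intro c hc
    have hce : c * e * c⁻¹ * e⁻¹ ∈ ⁅F, E⁆ := by rw [hM]; exact comm_elt_mem hc he
    obtain ⟨f', hf', hf'e⟩ := cc_surj_left hFE he he1 hce
    have k1 := cc_mul_left h3 hc (Subgroup.inv_mem _ (hFC hf')) he
    have k2 := cc_mul_left h3 (hFC hf') (Subgroup.inv_mem _ (hFC hf')) he
    have k3 : (f' * e * f'⁻¹ * e⁻¹) * (f'⁻¹ * e * f'⁻¹⁻¹ * e⁻¹) = 1 := by rw [← k2]; group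
    have k4 : (c * f'⁻¹) * e * (c * f'⁻¹)⁻¹ * e⁻¹ = 1 := by rw [k1, ← hf'e, k3]
    have hcf : (c * f'⁻¹) * e = e * (c * f'⁻¹) := by
      calc (c * f'⁻¹) * e = ((c * f'⁻¹) * e * (c * f'⁻¹)⁻¹ * e⁻¹) * (e * (c * f'⁻¹)) := by group
        _ = e * (c * f'⁻¹) := by rw [k4, one_mul]
    by_contra hcF
    have hx1 : c * f'⁻¹ ≠ 1 := by
      intro h; apply hcF; rw [mul_inv_eq_one] at h; rw [h]; exact hf'
    exact cc_not_commute_elts hS hE hA (RankOnePair_symm hAE) (cc_symm h3) he he1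
      (Subgroup.mul_mem _ hc (Subgroup.inv_mem _ (hFC hf'))) hx1 hcf.symm

theorem cc_line_conj_le {b : G} (hb : b ∈ B) : conjBy A b ≤ A ⊔ ⁅A, B⁆ := by
  intro x hx
  rw [mem_conjBy] at hx
  have e : x = (b * (b⁻¹ * x * b) * b⁻¹ * (b⁻¹ * x * b)⁻¹) * (b⁻¹ * x * b) := by group
  rw [e]
  exact Subgroup.mul_mem _ (Subgroup.mem_sup_right (comm_elt_mem' hx hb)) (Subgroup.mem_sup_left hx)

/-- The members of `S` in `A ⁅A, B⁆`. -/
theorem cc_members_line (hS : IsRootSubgroupSet S) (hA : A ∈ S) {E : Subgroup G} (hE : E ∈ S)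
    (hAE : IsRankOnePair A E) (hcc : RootCommutatorCase S A B) :
    membersIn S (A ⊔ ⁅A, B⁆) = (fun b : G => conjBy A b) '' (B : Set G) ∪ {⁅A, B⁆} := by
  ext F
  constructor
  · rintro ⟨hF, hFle⟩
    by_cases hFC : F ≤ ⁅A, B⁆
    · right; exact cc_sub_eq hS hA hE hAE hcc hF hFC
    · left
      obtain ⟨f, hf, hfC⟩ := SetLike.not_le_iff_exists.mp hFC
      obtain ⟨a, ha, c, hc, rfl⟩ := mem_sup_of_commute (A := A) (B := ⁅A, B⁆)
        (fun a ha c hc => (hcc.2.1 c hc a (Subgroup.mem_sup_left ha)).symm) (hFle hf)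
      have ha1 : a ≠ 1 := by rintro rfl; apply hfC; simpa using hc
      obtain ⟨b, hb, hba⟩ := cc_conj_surj hcc ha ha1 hc
      refine ⟨b, hb, ?_⟩
      have hne : c * a ≠ 1 := by
        intro h; apply hfC; rw [h]; exact Subgroup.one_mem _
      rcases root_inf_eq_bot_or_eq hS (hS.conj_mem E hE b) (rk1_conj hAE b) hF with h | h
      · exfalso
        have : c * a ∈ conjBy A b ⊓ F :=
          Subgroup.mem_inf.mpr ⟨by rw [← hba]; exact conj_mem_conjBy ha b, hf⟩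
        rw [h] at this; exact hne (Subgroup.mem_bot.mp this)
      · exact h
  · rintro (⟨b, hb, rfl⟩ | rfl)
    · exact ⟨hS.conj_mem A hA b, cc_line_conj_le hb⟩
    · exact ⟨hcc.1, le_sup_right⟩

/-- The members of `S` in `A ⁅A, B⁆` partition it. -/
theorem cc_partition_line (hS : IsRootSubgroupSet S) (hA : A ∈ S) {E : Subgroup G} (hE : E ∈ S)
    (hAE : IsRankOnePair A E) (hcc : RootCommutatorCase S A B) :
    IsSubgroupPartition (A ⊔ ⁅A, B⁆) (membersIn S (A ⊔ ⁅A, B⁆)) := by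
  refine ⟨fun F hF => hF.2, ?_, ?_⟩
  · intro x hx hx1
    obtain ⟨a, ha, c, hc, rfl⟩ := mem_sup_of_commute (A := A) (B := ⁅A, B⁆)
      (fun a ha c hc => (hcc.2.1 c hc a (Subgroup.mem_sup_left ha)).symm) hx
    by_cases ha1 : a = 1
    · subst ha1
      exact ⟨⁅A, B⁆, ⟨hcc.1, le_sup_right⟩, by simpa using hc⟩
    · obtain ⟨b, hb, hba⟩ := cc_conj_surj hcc ha ha1 hc
      exact ⟨conjBy A b, ⟨hS.conj_mem A hA b, cc_line_conj_le hb⟩,
        by rw [← hba]; exact conj_mem_conjBy ha b⟩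
  · intro F hF F' hF' hne
    have hFS := hF.1
    have hF'S := hF'.1
    rw [cc_members_line hS hA hE hAE hcc] at hF hF'
    rcases hF with ⟨b, hb, rfl⟩ | hFC
    · rcases root_inf_eq_bot_or_eq hS (hS.conj_mem E hE b) (rk1_conj hAE b) hF'S with h | h
      · exact h
      · exact absurd h hne
    · rcases hF' with ⟨b, hb, rfl⟩ | hF'C
      · rcases root_inf_eq_bot_or_eq hS (hS.conj_mem E hE b) (rk1_conj hAE b) hFS with h | h
        · rw [inf_comm]; exact h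
        · exact absurd h.symm hne
      · exact absurd (hFC.trans hF'C.symm) hne

end Cfsg.Agent.Lib.Helper86
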