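import Mathlib
import Cfsg.Prelude.Def_RootSubgroups
import Cfsg.Agent.Lib.Helper86.RootSub3

set_option autoImplicit false

namespace Cfsg.Agent.Lib.Helper86

open Cfsg

variable {G : Type*} [Group G] {S : Set (Subgroup G)}

/-- If `(C, D)` is a rank one pair, `f` centralizes `C` and `1 ≠ c ∈ C`, then `f D f⁻¹` and
`(f c) D (f c)⁻¹` cannot both commute with `D`. -/
theorem root_adj_line {C D : Subgroup G} (hCD : IsRankOnePair C D) {f c : G}
    (hf : ∀ x ∈ C, f * x = x * f) (hc : c ∈ C) (hc1 : c ≠ 1)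
    (h1 : ∀ x ∈ conjBy D f, ∀ d ∈ D, x * d = d * x)
    (h2 : ∀ x ∈ conjBy D (f * c), ∀ d ∈ D, x * d = d * x) : False := by
  have hCf : conjBy C f = C := conjBy_of_centralizes hf
  have hp : IsRankOnePair C (conjBy D f) := by
    have := rk1_conj hCD f
    rwa [hCf] at this
  apply rk1_not_commute hp
  have hDc : conjBy D c⁻¹ ∈ unipotentSubgroups C D := rk1_conjB_mem_unip hCD (C.inv_mem hc)
  have hne : D ≠ conjBy D c⁻¹ :=
    fun e => hc1 (inv_eq_one.mp (rk1_normA hCD (C.inv_mem hc) e.symm))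
  have hsup : D ⊔ conjBy D c⁻¹ = C ⊔ D := rk1_sup_of_unip hCD (rk1_B_mem_unip hCD) hDc hne
  intro a ha b hb
  have hb2 : ∀ y ∈ conjBy D c⁻¹, b * y = y * b := by
    intro y hy
    have hy' : c * y * c⁻¹ ∈ D := by
      rw [mem_conjBy] at hy; simpa using hy
    have hb' : c * b * c⁻¹ ∈ conjBy D (f * c) := by
      have : f * c = c * f := hf c hc
      rw [this, ← conjBy_conjBy]; exact conj_mem_conjBy hb c
    have := h2 _ hb' _ hy'
    have e1 : c * b * c⁻¹ * (c * y * c⁻¹) = c * (b * y) * c⁻¹ := by group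
    have e2 : c * y * c⁻¹ * (c * b * c⁻¹) = c * (y * b) * c⁻¹ := by group
    rw [e1, e2] at this
    exact mul_left_cancel (mul_right_cancel this)
  have := commute_sup_of_commute (fun d hd => h1 b hb d hd) hb2 a
    (by rw [hsup]; exact Subgroup.mem_sup_left ha)
  exact this.symm

/-- If `(F, D)` is not a rank one pair then `f D f⁻¹` commutes with `D` for `f ∈ F`. -/
theorem root_conj_commute_of_not_rk1 (hS : IsRootSubgroupSet S) {F D : Subgroup G} (hF : F ∈ S)
    (hD : D ∈ S) (hn : ¬ IsRankOnePair F D) {f : G} (hf : f ∈ F) :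
    ∀ x ∈ conjBy D f, ∀ d ∈ D, x * d = d * x := by
  rcases hS.pair F hF D hD with h1 | h2 | h3
  · rw [commutator_eq_bot_iff'] at h1
    have : conjBy D f = D := conjBy_of_centralizes (fun x hx => h1 f hf x hx)
    rw [this]
    intro x hx d hd
    exact root_comm hS hD hx hd
  · exact absurd h2 hn
  · exact root_cc_conj_commute hS hD h3 hf

/-! ### The graph of rank one pairs -/

theorem fadj_symm {A B : Subgroup G} (h : FAdj S A B) : FAdj S B A :=
  ⟨h.2.1, h.1, RankOnePair_symm h.2.2⟩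

theorem frel_symm {A B : Subgroup G} (h : Relation.ReflTransGen (FAdj S) A B) :
    Relation.ReflTransGen (FAdj S) B A := by
  induction h with
  | refl => exact Relation.ReflTransGen.refl
  | tail _ h2 ih => exact Relation.ReflTransGen.head (fadj_symm h2) ih

theorem frel_of_pair {A B : Subgroup G} (hA : A ∈ S) (hB : B ∈ S) (h : IsRankOnePair A B) :
    Relation.ReflTransGen (FAdj S) A B :=
  Relation.ReflTransGen.single ⟨hA, hB, h⟩

theorem frel_mem {A B : Subgroup G} (hA : A ∈ S) (h : Relation.ReflTransGen (FAdj S) A B) :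
    B ∈ S := by
  induction h with
  | refl => exact hA
  | tail _ h2 _ => exact h2.2.1

theorem comp_eq_of_frel {A B : Subgroup G} (h : Relation.ReflTransGen (FAdj S) A B) :
    componentOf (FAdj S) S A = componentOf (FAdj S) S B := by
  ext C
  constructor
  · rintro ⟨hC, hAC⟩
    exact ⟨hC, (frel_symm h).trans hAC⟩
  · rintro ⟨hC, hBC⟩
    exact ⟨hC, h.trans hBC⟩

theorem partner_of_frel_ne {A A' : Subgroup G} (h : Relation.ReflTransGen (FAdj S) A A')
    (hne : A' ≠ A) : ∃ E ∈ S, IsRankOnePair A E := by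
  rcases Relation.ReflTransGen.cases_head h with h1 | ⟨c, hc, -⟩
  · exact absurd h1.symm hne
  · exact ⟨c, hc.2.1, hc.2.2⟩

theorem partner_of_comp_ne {A : Subgroup G}
    (h : ∃ A' ∈ componentOf (FAdj S) S A, A' ≠ A) : ∃ E ∈ S, IsRankOnePair A E := by
  obtain ⟨A', hA', hne⟩ := h
  exact partner_of_frel_ne hA'.2 hne

/-- Conjugation by an element of a member of `S` stays inside the connected component, when all
members concerned have rank one partners. -/
theorem frel_conj (hS : IsRootSubgroupSet S) (hpart : ∀ A ∈ S, ∃ E ∈ S, IsRankOnePair A E)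
    {A B : Subgroup G} (hA : A ∈ S) (hB : B ∈ S) {b : G} (hb : b ∈ B) :
    Relation.ReflTransGen (FAdj S) A (conjBy A b) := by
  by_cases hb1 : b = 1
  · rw [hb1, conjBy_one]
  rcases hS.pair A hA B hB with h1 | h2 | h3
  · rw [commutator_eq_bot_iff'] at h1
    have : conjBy A b = A := conjBy_of_centralizes (fun x hx => (h1 x hx b hb).symm)
    rw [this]
  · exact frel_of_pair hA (hS.conj_mem A hA b) (RankOnePair_symm (rk1_conjA_pair h2 hb hb1))
  · obtain ⟨E, hE, hAE⟩ := hpart A hA
    obtain ⟨D, hD, hCD⟩ := hpart _ h3.1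
    obtain ⟨a, ha, ha1⟩ := rk1_A_nontriv hAE
    have hc : b * a * b⁻¹ * a⁻¹ ∈ ⁅A, B⁆ := comm_elt_mem' ha hb
    have hc1 : b * a * b⁻¹ * a⁻¹ ≠ 1 := by
      intro e
      apply cc_not_commute_elts hS hA hE hAE h3 ha ha1 hb hb1
      calc a * b = (b * a * b⁻¹ * a⁻¹)⁻¹ * (b * a) := by group
        _ = b * a := by rw [e, inv_one, one_mul]
    have hfc : a * (b * a * b⁻¹ * a⁻¹) = b * a * b⁻¹ := by
      have := h3.2.1 _ hc a (Subgroup.mem_sup_left ha)
      rw [← this]; group
    have hCb : conjBy ⁅A, B⁆ b = ⁅A, B⁆ :=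
      conjBy_of_centralizes (fun x hx => (h3.2.1 x hx b (Subgroup.mem_sup_right hb)).symm)
    have hCb' : conjBy ⁅A, B⁆ b⁻¹ = ⁅A, B⁆ := by
      rw [conjBy_eq_iff, inv_inv, hCb]
    have hAbS : conjBy A b ∈ S := hS.conj_mem A hA b
    by_cases hAD : IsRankOnePair A D
    · have s1 := frel_of_pair hA hD hAD
      have s2 := frel_of_pair hD h3.1 (RankOnePair_symm hCD)
      have p3 : IsRankOnePair ⁅A, B⁆ (conjBy D b) := by
        have := rk1_conj hCD b
        rwa [hCb] at this
      have s3 := frel_of_pair h3.1 (hS.conj_mem D hD b) p3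
      have s4 := frel_of_pair (hS.conj_mem D hD b) hAbS (RankOnePair_symm (rk1_conj hAD b))
      exact ((s1.trans s2).trans s3).trans s4
    · have hAbD : IsRankOnePair (conjBy A b) D := by
        by_contra hn
        refine root_adj_line hCD (f := a) (c := b * a * b⁻¹ * a⁻¹)
          (fun x hx => (h3.2.1 x hx a (Subgroup.mem_sup_left ha)).symm) hc hc1
          (root_conj_commute_of_not_rk1 hS hA hD hAD ha) ?_
        rw [hfc]
        exact root_conj_commute_of_not_rk1 hS hAbS hD hn (conj_mem_conjBy ha b)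
      have p1 : IsRankOnePair A (conjBy D b⁻¹) := by
        have := rk1_conj hAbD b⁻¹
        rwa [conjBy_inv_cancel] at this
      have s1 := frel_of_pair hA (hS.conj_mem D hD b⁻¹) p1
      have p2 : IsRankOnePair (conjBy D b⁻¹) ⁅A, B⁆ := by
        have := rk1_conj (RankOnePair_symm hCD) b⁻¹
        rwa [hCb'] at this
      have s2 := frel_of_pair (hS.conj_mem D hD b⁻¹) h3.1 p2
      have s3 := frel_of_pair h3.1 hD hCD
      have s4 := frel_of_pair hD hAbS (RankOnePair_symm hAbD)
      exact ((s1.trans s2).trans s3).trans s4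

/-- Induction over the subgroup generated by the members of `S`. -/
theorem iSup_conj_induction {T : Set (Subgroup G)}
    (h : ∀ B ∈ S, ∀ b ∈ B, ∀ A ∈ T, conjBy A b ∈ T) :
    ∀ g ∈ ⨆ B ∈ S, B, ∀ A ∈ T, conjBy A g ∈ T := by
  let K : Subgroup G :=
    { carrier := {g | (∀ A ∈ T, conjBy A g ∈ T) ∧ (∀ A ∈ T, conjBy A g⁻¹ ∈ T)}
      mul_mem' := by
        rintro x y ⟨hx1, hx2⟩ ⟨hy1, hy2⟩
        refine ⟨fun A hA => ?_, fun A hA => ?_⟩
        · rw [← conjBy_conjBy]; exact hx1 _ (hy1 A hA)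
        · rw [mul_inv_rev, ← conjBy_conjBy]; exact hy2 _ (hx2 A hA)
      one_mem' := by
        refine ⟨fun A hA => ?_, fun A hA => ?_⟩
        · rw [conjBy_one]; exact hA
        · rw [inv_one, conjBy_one]; exact hA
      inv_mem' := by
        rintro x ⟨hx1, hx2⟩
        refine ⟨hx2, fun A hA => ?_⟩
        rw [inv_inv]; exact hx1 A hA }
  have hle : (⨆ B ∈ S, B) ≤ K := by
    refine iSup₂_le ?_
    intro B hB b hb
    exact ⟨fun A hA => h B hB b hb A hA, fun A hA => h B hB b⁻¹ (B.inv_mem hb) A hA⟩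
  intro g hg
  exact (hle hg).1

end Cfsg.Agent.Lib.Helper86
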