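import Mathlib
import Cfsg.Prelude.Def_RootSubgroups
import Cfsg.Agent.Lib.Helper86.RootSub4

set_option autoImplicit false

namespace Cfsg.Agent.Lib.Helper86

open Cfsg

variable {G H : Type*} [Group G] [Group H]

theorem map_conjBy (f : G →* H) (A : Subgroup G) (g : G) :
    (conjBy A g).map f = conjBy (A.map f) (f g) := by
  ext x
  simp only [conjBy, Subgroup.mem_map]
  constructor
  · rintro ⟨y, ⟨a, ha, rfl⟩, rfl⟩
    exact ⟨f a, ⟨a, ha, rfl⟩, by simp⟩
  · rintro ⟨y, ⟨a, ha, rfl⟩, rfl⟩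
    exact ⟨(MulAut.conj g).toMonoidHom a, ⟨a, ha, rfl⟩, by simp⟩

theorem isNilpotent_of_isMulCommutative {K : Subgroup G} (h : IsMulCommutative K) :
    Group.IsNilpotent K :=
  ⟨⟨1, Subgroup.upperCentralSeries_one_eq_top_iff.mpr h⟩⟩

/-- If the kernel of `f` meets `B` nontrivially, the images of `A` and `B` coincide. -/
theorem rk1_map_eq_of_ker {A B : Subgroup G} (hAB : IsRankOnePair A B) (f : G →* H) {b : G}
    (hb : b ∈ B) (hb1 : b ≠ 1) (hbk : f b = 1) : A.map f = B.map f := by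
  have hbA : conjBy A b ≠ A := fun e => hb1 (rk1_normB hAB hb e)
  have hker : b ∈ f.ker := MonoidHom.mem_ker.mpr hbk
  have hmapker : f.ker.map f = ⊥ := (Subgroup.map_eq_bot_iff _).mpr le_rfl
  apply le_antisymm
  · -- some element of the kernel inside `A ⊔ B` moves `B`
    have hex : ∃ n ∈ f.ker ⊓ (A ⊔ B), conjBy B n ≠ B := by
      by_contra hcon
      push Not at hcon
      have hN : ∀ n ∈ f.ker ⊓ (A ⊔ B), ∀ x ∈ B ⊔ A, x⁻¹ * n * x ∈ f.ker ⊓ (A ⊔ B) := by
        intro n hn x hx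
        rw [sup_comm] at hx
        rw [Subgroup.mem_inf] at hn ⊢
        refine ⟨?_, Subgroup.mul_mem _ (Subgroup.mul_mem _ (Subgroup.inv_mem _ hx) hn.2) hx⟩
        have := (MonoidHom.normal_ker f).conj_mem n hn.1 x⁻¹
        simpa using this
      have h1 := unip_fixed_of_conj_fixed hN hcon (rk1_B_mem_unip (RankOnePair_symm hAB)) b
        (Subgroup.mem_inf.mpr ⟨hker, Subgroup.mem_sup_right hb⟩)
      exact hbA h1
    obtain ⟨n, hn, hnB⟩ := hex
    rw [Subgroup.mem_inf] at hn
    have hle := rk1_normal_transitive (RankOnePair_symm hAB) (N := f.ker) hn.1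
      (by rw [sup_comm]; exact hn.2) hnB
    have h2 : (B ⊔ A).map f ≤ (f.ker ⊔ B).map f := Subgroup.map_mono hle
    rw [Subgroup.map_sup, Subgroup.map_sup, hmapker, bot_sup_eq] at h2
    exact le_sup_right.trans h2
  · have hle := rk1_normal_transitive hAB (N := f.ker) hker (Subgroup.mem_sup_right hb) hbA
    have h2 : (A ⊔ B).map f ≤ (f.ker ⊔ A).map f := Subgroup.map_mono hle
    rw [Subgroup.map_sup, Subgroup.map_sup, hmapker, bot_sup_eq] at h2
    exact le_sup_right.trans h2

/-- The image of a rank one pair of abelian subgroups is a rank one pair, unless the two images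
coincide. -/
theorem rk1_map_pair {A B : Subgroup G} (hAB : IsRankOnePair A B) (hA : IsMulCommutative A)
    (hB : IsMulCommutative B) (f : G →* H) :
    A.map f = B.map f ∨ IsRankOnePair (A.map f) (B.map f) := by
  by_cases hEq : A.map f = B.map f
  · exact Or.inl hEq
  right
  have hA' : IsMulCommutative (A.map f) := inferInstance
  have hB' : IsMulCommutative (B.map f) := inferInstance
  refine ⟨hEq, isNilpotent_of_isMulCommutative hA', isNilpotent_of_isMulCommutative hB', ?_, ?_⟩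
  · rintro a' ⟨a, ha, rfl⟩ ha1
    have ha1' : a ≠ 1 := by rintro rfl; exact ha1 (map_one f)
    obtain ⟨b, hb, hb1, hab⟩ := hAB.cond_left a ha ha1'
    refine ⟨f b, ⟨b, hb, rfl⟩, ?_, ?_⟩
    · intro hfb
      exact hEq (rk1_map_eq_of_ker hAB f hb hb1 hfb)
    · rw [← map_inv, ← map_inv, ← map_conjBy, ← map_conjBy, hab]
  · rintro b' ⟨b, hb, rfl⟩ hb1
    have hb1' : b ≠ 1 := by rintro rfl; exact hb1 (map_one f)
    obtain ⟨a, ha, ha1, hab⟩ := hAB.cond_right b hb hb1'
    refine ⟨f a, ⟨a, ha, rfl⟩, ?_, ?_⟩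
    · intro hfa
      exact hEq (rk1_map_eq_of_ker (RankOnePair_symm hAB) f ha ha1 hfa).symm
    · rw [← map_inv, ← map_inv, ← map_conjBy, ← map_conjBy, hab]

end Cfsg.Agent.Lib.Helper86
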