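import Mathlib
import Cfsg.Prelude.Def_RootSubgroups
import Cfsg.Agent.Lib.Helper86.RootSub5

set_option autoImplicit false

namespace Cfsg.Agent.Lib.Helper86

open Cfsg

variable {G : Type*} [Group G] {S : Set (Subgroup G)}

theorem commutator_sup_left_of_commute {A C B : Subgroup G}
    (hAC : ∀ a ∈ A, ∀ c ∈ C, a * c = c * a) (hCB : ∀ c ∈ C, ∀ b ∈ B, c * b = b * c) :
    ⁅A ⊔ C, B⁆ = ⁅A, B⁆ := by
  apply le_antisymm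
  · rw [Subgroup.commutator_le]
    intro n hn b hb
    obtain ⟨a, ha, c, hc, rfl⟩ := mem_sup_of_commute hAC hn
    have hca : Commute c a := (hAC a ha c hc).symm
    have hcb : Commute c b := hCB c hc b hb
    have h3 : c * (a * b * a⁻¹) = (a * b * a⁻¹) * c :=
      ((hca.mul_right hcb).mul_right hca.inv_right).eq
    have e : c * a * b * (c * a)⁻¹ * b⁻¹ = a * b * a⁻¹ * b⁻¹ := by
      calc c * a * b * (c * a)⁻¹ * b⁻¹ = c * (a * b * a⁻¹) * c⁻¹ * b⁻¹ := by group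
        _ = (a * b * a⁻¹) * c * c⁻¹ * b⁻¹ := by rw [h3]
        _ = a * b * a⁻¹ * b⁻¹ := by group
    show c * a * b * (c * a)⁻¹ * b⁻¹ ∈ ⁅A, B⁆
    rw [e]
    exact comm_elt_mem ha hb
  · exact Subgroup.commutator_mono le_sup_left le_rfl

theorem conjBy_eq_of_forall_le {N K : Subgroup G} (h : ∀ k ∈ K, conjBy N k ≤ N) {k : G}
    (hk : k ∈ K) : conjBy N k = N := by
  apply le_antisymm (h k hk)
  have := conjBy_mono (h k⁻¹ (K.inv_mem hk)) k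
  rwa [conjBy_cancel_inv] at this

theorem conjBy_eq_of_mem_sup {N K L : Subgroup G} (hK : ∀ k ∈ K, conjBy N k ≤ N)
    (hL : ∀ k ∈ L, conjBy N k ≤ N) {x : G} (hx : x ∈ K ⊔ L) : conjBy N x = N := by
  rw [conjBy_eq_self_iff]
  have h1 : K ≤ Subgroup.normalizer (N : Set G) := fun k hk =>
    conjBy_eq_self_iff.mp (conjBy_eq_of_forall_le hK hk)
  have h2 : L ≤ Subgroup.normalizer (N : Set G) := fun k hk =>
    conjBy_eq_self_iff.mp (conjBy_eq_of_forall_le hL hk)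
  exact (sup_le h1 h2) hx

/-- The configuration `C = [A, B]`, `A = [D, C]` of root subgroups: `(B, D)` is a rank one pair
acting on `N = A C` as on a natural module. -/
theorem cc_chain_main (hS : IsRootSubgroupSet S) {A B C D : Subgroup G} (hA : A ∈ S) (hB : B ∈ S)
    (hC : C ∈ S) (hD : D ∈ S) (hAB : ⁅A, B⁆ = C) (hDC : ⁅D, C⁆ = A) :
    IsRankOnePair B D ∧ A ⊓ C = ⊥ ∧ (∀ x ∈ B ⊔ D, conjBy (A ⊔ C) x = A ⊔ C) ∧
    {E | ∃ x ∈ B ⊔ D, E = conjBy C x} = (fun b : G => conjBy A b) '' (B : Set G) ∪ {C} := by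
  subst hAB
  have hCS' : ⁅D, ⁅A, B⁆⁆ ∈ S := by rw [hDC]; exact hA
  have ccAB : RootCommutatorCase S A B := root_cc_of_comm_mem hS hA hB hC
  have ccDC : RootCommutatorCase S D ⁅A, B⁆ := root_cc_of_comm_mem hS hD hC hCS'
  have hCA : ∀ c ∈ ⁅A, B⁆, ∀ a ∈ A, c * a = a * c := fun c hc a ha =>
    ccAB.2.1 c hc a (Subgroup.mem_sup_left ha)
  have hAC : ∀ a ∈ A, ∀ c ∈ ⁅A, B⁆, a * c = c * a := fun a ha c hc => (hCA c hc a ha).symm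
  have hCB : ∀ c ∈ ⁅A, B⁆, ∀ b ∈ B, c * b = b * c := fun c hc b hb =>
    ccAB.2.1 c hc b (Subgroup.mem_sup_right hb)
  have hAD : ∀ a ∈ A, ∀ d ∈ D, a * d = d * a := fun a ha d hd =>
    ccDC.2.1 a (by rw [hDC]; exact ha) d (Subgroup.mem_sup_left hd)
  obtain ⟨a₀, ha₀, ha₀1⟩ := root_exists_ne_one hS hA
  have surjD : ∀ d ∈ D, d ≠ 1 → ∀ a ∈ A, ∃ c ∈ ⁅A, B⁆, d * c * d⁻¹ * c⁻¹ = a :=
    fun d hd hd1 a ha => cc_surj_right ccDC hd hd1 (by rw [hDC]; exact ha)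
  have surjB : ∀ b ∈ B, b ≠ 1 → ∀ c ∈ ⁅A, B⁆, ∃ a ∈ A, a * b * a⁻¹ * b⁻¹ = c :=
    fun b hb hb1 c hc => cc_surj_left ccAB hb hb1 hc
  have hinf : A ⊓ ⁅A, B⁆ = ⊥ := by
    rw [eq_bot_iff]
    intro x hx
    rw [Subgroup.mem_inf] at hx
    rw [Subgroup.mem_bot]
    by_contra hx1
    obtain ⟨d, hd, hdx⟩ := cc_surj_left ccDC hx.2 hx1 (c := a₀) (by rw [hDC]; exact ha₀)
    apply ha₀1
    rw [← hdx, ← hAD x hx.1 d hd]
    group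
  -- invariance of N
  have hNB' : ∀ b ∈ B, conjBy (A ⊔ ⁅A, B⁆) b ≤ A ⊔ ⁅A, B⁆ := by
    intro b hb
    rw [conjBy_sup]
    refine sup_le (cc_line_conj_le hb) ?_
    rw [conjBy_of_centralizes (C := ⁅A, B⁆) (z := b) (fun x hx => (hCB x hx b hb).symm)]
    exact le_sup_right
  have hND' : ∀ d ∈ D, conjBy (A ⊔ ⁅A, B⁆) d ≤ A ⊔ ⁅A, B⁆ := by
    intro d hd
    rw [conjBy_sup]
    refine sup_le ?_ ?_
    · rw [conjBy_of_centralizes (C := A) (z := d) (fun x hx => (hAD x hx d hd).symm)]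
      exact le_sup_left
    · have := cc_line_conj_le (A := ⁅A, B⁆) (B := D) hd
      rw [Subgroup.commutator_comm ⁅A, B⁆ D, hDC, sup_comm] at this
      exact this
  have hNX : ∀ x ∈ B ⊔ D, conjBy (A ⊔ ⁅A, B⁆) x = A ⊔ ⁅A, B⁆ := fun x hx =>
    conjBy_eq_of_mem_sup hNB' hND' hx
  have hNB : ⁅A ⊔ ⁅A, B⁆, B⁆ = ⁅A, B⁆ := commutator_sup_left_of_commute hAC hCB
  have hND : ⁅A ⊔ ⁅A, B⁆, D⁆ = A := by
    rw [sup_comm, commutator_sup_left_of_commute hCA hAD, Subgroup.commutator_comm, hDC]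
  have hconjC : ∀ x ∈ B ⊔ D, conjBy ⁅A, B⁆ x = ⁅A ⊔ ⁅A, B⁆, conjBy B x⁆ := by
    intro x hx
    have h1 : conjBy ⁅A ⊔ ⁅A, B⁆, B⁆ x = ⁅conjBy (A ⊔ ⁅A, B⁆) x, conjBy B x⁆ :=
      Subgroup.map_commutator _ _ _
    rw [hNX x hx, hNB] at h1
    exact h1
  have hconjA : ∀ x ∈ B ⊔ D, conjBy A x = ⁅A ⊔ ⁅A, B⁆, conjBy D x⁆ := by
    intro x hx
    have h1 : conjBy ⁅A ⊔ ⁅A, B⁆, D⁆ x = ⁅conjBy (A ⊔ ⁅A, B⁆) x, conjBy D x⁆ :=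
      Subgroup.map_commutator _ _ _
    rw [hNX x hx, hND] at h1
    exact h1
  -- the rank one pair
  have hrk : IsRankOnePair B D := by
    by_contra hn
    have hn' : ¬ IsRankOnePair D B := fun h => hn (RankOnePair_symm h)
    obtain ⟨b₀, hb₀, hb₀1⟩ := root_exists_ne_one hS hB
    obtain ⟨d₀, hd₀, hd₀1⟩ := root_exists_ne_one hS hD
    have hgB : ∀ b ∈ B, (d₀ * b₀ * d₀⁻¹) * b = b * (d₀ * b₀ * d₀⁻¹) := fun b hb =>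
      root_conj_commute_of_not_rk1 hS hD hB hn' hd₀ _ (conj_mem_conjBy hb₀ d₀) b hb
    have hgX : d₀ * b₀ * d₀⁻¹ ∈ B ⊔ D :=
      Subgroup.mul_mem _ (Subgroup.mul_mem _ (Subgroup.mem_sup_right hd₀)
        (Subgroup.mem_sup_left hb₀)) (Subgroup.inv_mem _ (Subgroup.mem_sup_right hd₀))
    have hgC : conjBy ⁅A, B⁆ (d₀ * b₀ * d₀⁻¹) = ⁅A, B⁆ := by
      rw [hconjC _ hgX, conjBy_of_centralizes (C := B) (z := d₀ * b₀ * d₀⁻¹) hgB, hNB]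
    have hd₀inv : d₀⁻¹ ≠ 1 := fun h => hd₀1 (inv_eq_one.mp h)
    -- d₀ commutes with [b₀, a] for all a ∈ A
    have h1 : ∀ a ∈ A, d₀ * (b₀ * a * b₀⁻¹ * a⁻¹) = (b₀ * a * b₀⁻¹ * a⁻¹) * d₀ := by
      intro a ha
      obtain ⟨c, hc, hca⟩ := surjD d₀⁻¹ (D.inv_mem hd₀) hd₀inv a ha
      rw [inv_inv] at hca
      subst hca
      have hcb : c⁻¹ * b₀⁻¹ * c = b₀⁻¹ := by
        have := hCB c hc b₀ hb₀
        calc c⁻¹ * b₀⁻¹ * c = (b₀ * c)⁻¹ * c := by group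
          _ = (c * b₀)⁻¹ * c := by rw [this]
          _ = b₀⁻¹ := by group
      have key : d₀ * b₀ * d₀⁻¹ * c * (d₀ * b₀ * d₀⁻¹)⁻¹ =
          d₀ * (b₀ * (d₀⁻¹ * c * d₀ * c⁻¹) * b₀⁻¹ * (d₀⁻¹ * c * d₀ * c⁻¹)⁻¹) * d₀⁻¹ * c := by
        symm
        calc d₀ * (b₀ * (d₀⁻¹ * c * d₀ * c⁻¹) * b₀⁻¹ * (d₀⁻¹ * c * d₀ * c⁻¹)⁻¹) * d₀⁻¹ * c
            = d₀ * b₀ * d₀⁻¹ * c * d₀ * (c⁻¹ * b₀⁻¹ * c) * d₀⁻¹ := by group
          _ = d₀ * b₀ * d₀⁻¹ * c * (d₀ * b₀ * d₀⁻¹)⁻¹ := by rw [hcb]; group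
      have hmem : d₀ * b₀ * d₀⁻¹ * c * (d₀ * b₀ * d₀⁻¹)⁻¹ ∈ ⁅A, B⁆ := by
        have := conj_mem_conjBy hc (d₀ * b₀ * d₀⁻¹)
        rwa [hgC] at this
      set c₄ := b₀ * (d₀⁻¹ * c * d₀ * c⁻¹) * b₀⁻¹ * (d₀⁻¹ * c * d₀ * c⁻¹)⁻¹ with hc₄
      have ha₃ : d₀⁻¹ * c * d₀ * c⁻¹ ∈ A := by
        have := comm_elt_mem (A := D) (B := ⁅A, B⁆) (D.inv_mem hd₀) hc
        rwa [hDC, inv_inv] at this
      have hc₄mem : c₄ ∈ ⁅A, B⁆ := comm_elt_mem' ha₃ hb₀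
      have h2 : d₀ * c₄ * d₀⁻¹ ∈ ⁅A, B⁆ := by
        have h3 : d₀ * c₄ * d₀⁻¹ = (d₀ * b₀ * d₀⁻¹ * c * (d₀ * b₀ * d₀⁻¹)⁻¹) * c⁻¹ := by
          rw [key]; group
        rw [h3]
        exact Subgroup.mul_mem _ hmem (Subgroup.inv_mem _ hc)
      have h4 : d₀ * c₄ * d₀⁻¹ * c₄⁻¹ ∈ A ⊓ ⁅A, B⁆ := by
        rw [Subgroup.mem_inf]
        refine ⟨?_, Subgroup.mul_mem _ h2 (Subgroup.inv_mem _ hc₄mem)⟩
        have := comm_elt_mem (A := D) (B := ⁅A, B⁆) hd₀ hc₄mem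
        rwa [hDC] at this
      rw [hinf, Subgroup.mem_bot] at h4
      calc d₀ * c₄ = (d₀ * c₄ * d₀⁻¹ * c₄⁻¹) * c₄ * d₀ := by group
        _ = c₄ * d₀ := by rw [h4, one_mul]
    have h2 : ∀ c ∈ ⁅A, B⁆, d₀ * c = c * d₀ := by
      intro c hc
      obtain ⟨a, ha, hac⟩ := surjB b₀ hb₀ hb₀1 c⁻¹ (Subgroup.inv_mem _ hc)
      have e : c = b₀ * a * b₀⁻¹ * a⁻¹ := by
        rw [← inv_inv c, ← hac]; group
      rw [e]
      exact h1 a ha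
    obtain ⟨c, hc, hca⟩ := surjD d₀ hd₀ hd₀1 a₀ ha₀
    apply ha₀1
    rw [← hca, h2 c hc]
    group
  refine ⟨hrk, hinf, hNX, ?_⟩
  ext E
  simp only [Set.mem_ofPred_eq, Set.mem_union, Set.mem_image, SetLike.mem_coe,
    Set.mem_singleton_iff]
  constructor
  · rintro ⟨x, hx, rfl⟩
    have hu : conjBy B x ∈ unipotentSubgroups B D := ⟨x, hx, rfl⟩
    rcases rk1_unip_cases hrk hu with h | ⟨b, hb, h⟩
    · right
      rw [hconjC x hx, h, hNB]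
    · left
      refine ⟨b, hb, ?_⟩
      rw [hconjC x hx, h, ← hconjA b (Subgroup.mem_sup_left hb)]
  · rintro (⟨b, hb, rfl⟩ | rfl)
    · obtain ⟨x, hx, hxe⟩ := rk1_conjB_mem_unip hrk hb
      refine ⟨x, hx, ?_⟩
      rw [hconjC x hx, ← hxe, ← hconjA b (Subgroup.mem_sup_left hb)]
    · exact ⟨1, Subgroup.one_mem _, (conjBy_one _).symm⟩

end Cfsg.Agent.Lib.Helper86
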