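import Mathlib
import Cfsg.Prelude.Def_RootSubgroups
import Cfsg.Agent.Lib.Helper86.RootSub6

set_option autoImplicit false

namespace Cfsg.Agent.Lib.Helper86

open Cfsg

variable {G : Type*} [Group G] {S : Set (Subgroup G)}

/-- Commutators modulo a subgroup `N` normalized by `R`: closure in the left argument. -/
theorem comm_mem_of_sup_left {N R K₁ K₂ L : Subgroup G}
    (hN : ∀ r ∈ R, ∀ n ∈ N, r * n * r⁻¹ ∈ N) (hK₁ : K₁ ≤ R) (hK₂ : K₂ ≤ R)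
    (h₁ : ∀ k ∈ K₁, ∀ l ∈ L, k * l * k⁻¹ * l⁻¹ ∈ N)
    (h₂ : ∀ k ∈ K₂, ∀ l ∈ L, k * l * k⁻¹ * l⁻¹ ∈ N) :
    ∀ k ∈ K₁ ⊔ K₂, ∀ l ∈ L, k * l * k⁻¹ * l⁻¹ ∈ N := by
  let T : Subgroup G :=
    { carrier := {k | k ∈ R ∧ ∀ l ∈ L, k * l * k⁻¹ * l⁻¹ ∈ N}
      mul_mem' := by
        rintro x y ⟨hx, hx'⟩ ⟨hy, hy'⟩
        refine ⟨R.mul_mem hx hy, fun l hl => ?_⟩
        have e : x * y * l * (x * y)⁻¹ * l⁻¹ =
            (x * (y * l * y⁻¹ * l⁻¹) * x⁻¹) * (x * l * x⁻¹ * l⁻¹) := by group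
        rw [e]
        exact N.mul_mem (hN x hx _ (hy' l hl)) (hx' l hl)
      one_mem' := ⟨R.one_mem, fun l hl => by simp⟩
      inv_mem' := by
        rintro x ⟨hx, hx'⟩
        refine ⟨R.inv_mem hx, fun l hl => ?_⟩
        have e : x⁻¹ * l * x⁻¹⁻¹ * l⁻¹ = x⁻¹ * (x * l * x⁻¹ * l⁻¹)⁻¹ * x⁻¹⁻¹ := by group
        rw [e]
        exact hN x⁻¹ (R.inv_mem hx) _ (N.inv_mem (hx' l hl)) }
  have hT₁ : K₁ ≤ T := fun k hk => ⟨hK₁ hk, h₁ k hk⟩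
  have hT₂ : K₂ ≤ T := fun k hk => ⟨hK₂ hk, h₂ k hk⟩
  intro k hk
  exact ((sup_le hT₁ hT₂) hk).2

theorem comm_mem_swap {N : Subgroup G} {k l : G} (h : k * l * k⁻¹ * l⁻¹ ∈ N) :
    l * k * l⁻¹ * k⁻¹ ∈ N := by
  have e : l * k * l⁻¹ * k⁻¹ = (k * l * k⁻¹ * l⁻¹)⁻¹ := by group
  rw [e]
  exact N.inv_mem h

/-- Commutators modulo a subgroup `N` normalized by `R`: closure in the right argument. -/
theorem comm_mem_of_sup_right {N R K L₁ L₂ : Subgroup G}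
    (hN : ∀ r ∈ R, ∀ n ∈ N, r * n * r⁻¹ ∈ N) (hL₁ : L₁ ≤ R) (hL₂ : L₂ ≤ R)
    (h₁ : ∀ k ∈ K, ∀ l ∈ L₁, k * l * k⁻¹ * l⁻¹ ∈ N)
    (h₂ : ∀ k ∈ K, ∀ l ∈ L₂, k * l * k⁻¹ * l⁻¹ ∈ N) :
    ∀ k ∈ K, ∀ l ∈ L₁ ⊔ L₂, k * l * k⁻¹ * l⁻¹ ∈ N := by
  intro k hk l hl
  exact comm_mem_swap (comm_mem_of_sup_left (L := K) hN hL₁ hL₂
    (fun l hl k hk => comm_mem_swap (h₁ k hk l hl))
    (fun l hl k hk => comm_mem_swap (h₂ k hk l hl)) l hl k hk)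

/-- A subgroup `K` with `[K, R] ≤ N ≤ K`-type control is normalized by `R`. -/
theorem normalized_of_comm_mem {N K R : Subgroup G} (hNK : N ≤ K)
    (h : ∀ k ∈ K, ∀ r ∈ R, k * r * k⁻¹ * r⁻¹ ∈ N) : ∀ r ∈ R, ∀ k ∈ K, r * k * r⁻¹ ∈ K := by
  intro r hr k hk
  have e : r * k * r⁻¹ = (k * r * k⁻¹ * r⁻¹)⁻¹ * k := by group
  rw [e]
  exact K.mul_mem (K.inv_mem (hNK (h k hk r hr))) hk

/-- A central series of length four. -/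
theorem nilpotent_of_series4 {R H₁ H₂ H₃ : Subgroup G}
    (h1 : ∀ x ∈ H₁, ∀ r ∈ R, x * r * x⁻¹ * r⁻¹ = 1)
    (h2 : ∀ x ∈ H₂, ∀ r ∈ R, x * r * x⁻¹ * r⁻¹ ∈ H₁)
    (h3 : ∀ x ∈ H₃, ∀ r ∈ R, x * r * x⁻¹ * r⁻¹ ∈ H₂)
    (h4 : ∀ x ∈ R, ∀ r ∈ R, x * r * x⁻¹ * r⁻¹ ∈ H₃) : Group.IsNilpotent ↥R := by
  rw [Subgroup.nilpotent_iff_finite_ascending_central_series]
  refine ⟨4, fun i => match i with
    | 0 => ⊥
    | 1 => H₁.subgroupOf R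
    | 2 => H₂.subgroupOf R
    | 3 => H₃.subgroupOf R
    | _ => ⊤, ⟨rfl, ?_⟩, rfl⟩
  intro x n hx g
  match n, hx with
  | 0, hx =>
    have hx' : (x : G) ∈ H₁ := hx
    show x * g * x⁻¹ * g⁻¹ ∈ (⊥ : Subgroup R)
    rw [Subgroup.mem_bot]
    apply Subtype.ext
    simpa using h1 x hx' g g.2
  | 1, hx =>
    have hx' : (x : G) ∈ H₂ := hx
    show x * g * x⁻¹ * g⁻¹ ∈ H₁.subgroupOf R
    rw [Subgroup.mem_subgroupOf]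
    simpa using h2 x hx' g g.2
  | 2, hx =>
    have hx' : (x : G) ∈ H₃ := hx
    show x * g * x⁻¹ * g⁻¹ ∈ H₂.subgroupOf R
    rw [Subgroup.mem_subgroupOf]
    simpa using h3 x hx' g g.2
  | 3, hx =>
    show x * g * x⁻¹ * g⁻¹ ∈ H₃.subgroupOf R
    rw [Subgroup.mem_subgroupOf]
    simpa using h4 x x.2 g g.2
  | (k + 4), hx => exact Subgroup.mem_top _

theorem comm_mem_of_commute (N : Subgroup G) {x y : G} (h : x * y = y * x) :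
    x * y * x⁻¹ * y⁻¹ ∈ N := by
  have e : x * y * x⁻¹ * y⁻¹ = 1 := by rw [h]; group
  rw [e]
  exact N.one_mem

theorem comm_mem_of_sup3_right {N K A B C : Subgroup G}
    (hN : ∀ r ∈ A ⊔ B ⊔ C, ∀ n ∈ N, r * n * r⁻¹ ∈ N)
    (hA : ∀ k ∈ K, ∀ a ∈ A, k * a * k⁻¹ * a⁻¹ ∈ N)
    (hB : ∀ k ∈ K, ∀ b ∈ B, k * b * k⁻¹ * b⁻¹ ∈ N)
    (hC : ∀ k ∈ K, ∀ c ∈ C, k * c * k⁻¹ * c⁻¹ ∈ N) :
    ∀ k ∈ K, ∀ r ∈ A ⊔ B ⊔ C, k * r * k⁻¹ * r⁻¹ ∈ N :=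
  comm_mem_of_sup_right hN le_sup_left le_sup_right
    (comm_mem_of_sup_right hN (le_sup_of_le_left le_sup_left) (le_sup_of_le_left le_sup_right)
      hA hB) hC

theorem commute_of_conj_commute {x y g : G} (h1 : x * (g * y * g⁻¹) = (g * y * g⁻¹) * x)
    (h2 : x * g = g * x) : x * y = y * x := by
  have c1 : Commute x (g * y * g⁻¹) := h1
  have c2 : Commute x g := h2
  have c3 := (c2.inv_right.mul_right c1).mul_right c2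
  have e : g⁻¹ * (g * y * g⁻¹) * g = y := by group
  rw [e] at c3
  exact c3.eq

theorem sup_commute_of_commute {H K : Subgroup G} (hH : ∀ x ∈ H, ∀ y ∈ H, x * y = y * x)
    (hK : ∀ x ∈ K, ∀ y ∈ K, x * y = y * x) (hHK : ∀ x ∈ H, ∀ y ∈ K, x * y = y * x) :
    ∀ x ∈ H ⊔ K, ∀ y ∈ H ⊔ K, x * y = y * x := by
  intro x hx y hy
  have h1 : ∀ h ∈ H, ∀ y ∈ H ⊔ K, h * y = y * h := fun h hh =>
    commute_sup_of_commute (n := h) (hH h hh) (hHK h hh)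
  have h2 : ∀ k ∈ K, ∀ y ∈ H ⊔ K, k * y = y * k := fun k hk =>
    commute_sup_of_commute (n := k) (fun h hh => (hHK h hh k hk).symm) (hK k hk)
  exact (commute_sup_of_commute (n := y) (fun h hh => (h1 h hh y hy).symm)
    (fun k hk => (h2 k hk y hy).symm) x hx).symm

/-- Two abelian subgroups whose commutator is central in their join generate a group of class
at most two. -/
theorem class_two_sup {H K : Subgroup G} (hH : ∀ x ∈ H, ∀ y ∈ H, x * y = y * x)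
    (hK : ∀ x ∈ K, ∀ y ∈ K, x * y = y * x)
    (hc : ∀ z ∈ ⁅H, K⁆, ∀ x ∈ H ⊔ K, z * x = x * z) :
    ⁅⁅H ⊔ K, H ⊔ K⁆, H ⊔ K⁆ = ⊥ := by
  have hN : ∀ r ∈ H ⊔ K, ∀ n ∈ ⁅H, K⁆, r * n * r⁻¹ ∈ ⁅H, K⁆ := by
    intro r hr n hn
    have e : r * n * r⁻¹ = n := by rw [← hc n hn r hr]; group
    rw [e]
    exact hn
  have h1 : ∀ x ∈ H ⊔ K, ∀ y ∈ H ⊔ K, x * y * x⁻¹ * y⁻¹ ∈ ⁅H, K⁆ := by
    refine comm_mem_of_sup_left hN le_sup_left le_sup_right ?_ ?_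
    · exact comm_mem_of_sup_right hN le_sup_left le_sup_right
        (fun h hh h' hh' => comm_mem_of_commute _ (hH h hh h' hh'))
        (fun h hh k hk => comm_elt_mem hh hk)
    · exact comm_mem_of_sup_right hN le_sup_left le_sup_right
        (fun k hk h hh => comm_elt_mem' hh hk)
        (fun k hk k' hk' => comm_mem_of_commute _ (hK k hk k' hk'))
  have h2 : ⁅H ⊔ K, H ⊔ K⁆ ≤ ⁅H, K⁆ := Subgroup.commutator_le.mpr h1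
  rw [commutator_eq_bot_iff']
  intro z hz x hx
  exact hc z (h2 hz) x hx

/-- Half of the analysis of the configuration `[A, C] = 1`, `[B, C] ∈ S`. -/
theorem cc_two_half (hS : IsRootSubgroupSet S) {A B C : Subgroup G} (hA : A ∈ S) (hC : C ∈ S)
    (ccBC : RootCommutatorCase S B C) (hac : ∀ a ∈ A, ∀ c ∈ C, a * c = c * a) :
    (∀ z ∈ ⁅A, ⁅B, C⁆⁆, ∀ x ∈ A ⊔ ⁅B, C⁆, z * x = x * z) ∧
    (∀ z ∈ ⁅A, ⁅B, C⁆⁆, ∀ c ∈ C, z * c = c * z) ∧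
    (∀ b ∈ B, b ≠ 1 → ⁅A, conjBy C b⁆ = ⁅A, ⁅B, C⁆⁆) ∧
    (∀ z ∈ ⁅A, ⁅B, C⁆⁆, ∃ a ∈ A, ∃ q ∈ ⁅B, C⁆, z = a * q * a⁻¹ * q⁻¹) := by
  have hQS : ⁅B, C⁆ ∈ S := ccBC.1
  have hQC : ∀ q ∈ ⁅B, C⁆, ∀ c ∈ C, q * c = c * q := fun q hq c hc =>
    ccBC.2.1 q hq c (Subgroup.mem_sup_right hc)
  obtain ⟨c₀, hc₀, hc₀1⟩ := root_exists_ne_one hS hC
  obtain ⟨q₀, hq₀, hq₀1⟩ := root_exists_ne_one hS hQS
  have hnr : ¬ IsRankOnePair A ⁅B, C⁆ := by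
    intro h
    have hq₀' : q₀ ∈ ⁅C, B⁆ := by rw [Subgroup.commutator_comm]; exact hq₀
    obtain ⟨b', hb', hbe⟩ := cc_conj_surj (cc_symm ccBC) hc₀ hc₀1 hq₀'
    have hmem : c₀ * q₀ ∈ conjBy C b' := by
      rw [← hQC q₀ hq₀ c₀ hc₀, ← hbe]
      exact conj_mem_conjBy hc₀ b'
    exact root_central_translate hS hA (RankOnePair_symm h) (z := c₀)
      (commute_sup_of_commute (fun q hq => (hQC q hq c₀ hc₀).symm)
        (fun a ha => (hac a ha c₀ hc₀).symm)) hc₀1 hq₀ hq₀1 (hS.conj_mem C hC b') hmem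
  have hZ : ∀ z ∈ ⁅A, ⁅B, C⁆⁆, ∀ x ∈ A ⊔ ⁅B, C⁆, z * x = x * z := by
    rcases hS.pair A hA ⁅B, C⁆ hQS with h | h | h
    · intro z hz
      rw [h, Subgroup.mem_bot] at hz
      subst hz
      intro x _
      simp
    · exact absurd h hnr
    · exact h.2.1
  have hrep : ∀ z ∈ ⁅A, ⁅B, C⁆⁆, ∃ a ∈ A, ∃ q ∈ ⁅B, C⁆, z = a * q * a⁻¹ * q⁻¹ := by
    rcases hS.pair A hA ⁅B, C⁆ hQS with h | h | h
    · intro z hz
      rw [h, Subgroup.mem_bot] at hz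
      exact ⟨1, A.one_mem, 1, Subgroup.one_mem _, by simp [hz]⟩
    · exact absurd h hnr
    · intro z hz
      obtain ⟨a₀, ha₀, ha₀1⟩ := root_exists_ne_one hS hA
      obtain ⟨q, hq, hqe⟩ := cc_surj_right h ha₀ ha₀1 hz
      exact ⟨a₀, ha₀, q, hq, hqe.symm⟩
  have hZC : ∀ z ∈ ⁅A, ⁅B, C⁆⁆, ∀ c ∈ C, z * c = c * z := by
    intro z hz c hc
    have hz' : z ∈ A ⊔ ⁅B, C⁆ := Subgroup.commutator_le_sup A ⁅B, C⁆ hz
    exact (commute_sup_of_commute (n := c) (fun a ha => (hac a ha c hc).symm)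
      (fun q hq => (hQC q hq c hc).symm) z hz').symm
  have h3 : ∀ b ∈ B, b ≠ 1 → ⁅A, conjBy C b⁆ = ⁅A, ⁅B, C⁆⁆ := by
    intro b hb hb1
    have key : ∀ a ∈ A, ∀ c ∈ C, a * (b * c * b⁻¹) * a⁻¹ * (b * c * b⁻¹)⁻¹ =
        a * (b * c * b⁻¹ * c⁻¹) * a⁻¹ * (b * c * b⁻¹ * c⁻¹)⁻¹ := by
      intro a ha c hc
      have h1 : c * a⁻¹ * c⁻¹ = a⁻¹ := by
        have := hac a ha c hc
        calc c * a⁻¹ * c⁻¹ = c * (c * a)⁻¹ := by group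
          _ = c * (a * c)⁻¹ := by rw [this]
          _ = a⁻¹ := by group
      calc a * (b * c * b⁻¹) * a⁻¹ * (b * c * b⁻¹)⁻¹
          = a * (b * c * b⁻¹ * c⁻¹) * (c * a⁻¹ * c⁻¹) * (b * c * b⁻¹ * c⁻¹)⁻¹ := by group
        _ = _ := by rw [h1]
    apply le_antisymm
    · rw [Subgroup.commutator_le]
      intro a ha x hx
      rw [mem_conjBy] at hx
      obtain ⟨c, hc, rfl⟩ : ∃ c ∈ C, x = b * c * b⁻¹ := ⟨b⁻¹ * x * b, hx, by group⟩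
      show a * (b * c * b⁻¹) * a⁻¹ * (b * c * b⁻¹)⁻¹ ∈ _
      rw [key a ha c hc]
      exact comm_elt_mem ha (comm_elt_mem hb hc)
    · rw [Subgroup.commutator_le]
      intro a ha q hq
      obtain ⟨c, hc, hce⟩ := cc_surj_right ccBC hb hb1 hq
      show a * q * a⁻¹ * q⁻¹ ∈ _
      rw [← hce, ← key a ha c hc]
      exact comm_elt_mem ha (conj_mem_conjBy hc b)
  exact ⟨hZ, hZC, h3, hrep⟩

end Cfsg.Agent.Lib.Helper86
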