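import Mathlib
import Cfsg.Prelude.Def_RootSubgroups
import Cfsg.Agent.Lib.Helper86.RootSub7

set_option autoImplicit false

namespace Cfsg.Agent.Lib.Helper86

open Cfsg

variable {G : Type*} [Group G] {S : Set (Subgroup G)}

/-- If `(A, C)` is a rank one pair, `D` commutes with `A`, the products of `A` and `D` lie in
root subgroups and `(C, D)` is in the commutator case, then `[A, [C, D]] = D`. -/
theorem partner_comm_eq (hS : IsRootSubgroupSet S) {A C D : Subgroup G} (hA : A ∈ S) (hC : C ∈ S)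
    (hD : D ∈ S) (hAC : IsRankOnePair A C) (hAD : ∀ a ∈ A, ∀ d ∈ D, a * d = d * a)
    (hinf : A ⊓ D = ⊥) (ccCD : RootCommutatorCase S C D)
    (hcov : ∀ a ∈ A, ∀ d ∈ D, a * d ≠ 1 → ∃ F ∈ S, a * d ∈ F) :
    RootCommutatorCase S A ⁅C, D⁆ ∧ ⁅A, ⁅C, D⁆⁆ = D := by
  have hES : ⁅C, D⁆ ∈ S := ccCD.1
  have hEC : ∀ e ∈ ⁅C, D⁆, ∀ c ∈ C, e * c = c * e := fun e he c hc =>
    ccCD.2.1 e he c (Subgroup.mem_sup_left hc)
  have hED : ∀ e ∈ ⁅C, D⁆, ∀ d ∈ D, e * d = d * e := fun e he d hd =>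
    ccCD.2.1 e he d (Subgroup.mem_sup_right hd)
  obtain ⟨a, ha, ha1⟩ := rk1_A_nontriv hAC
  obtain ⟨c, hc, hc1, hp⟩ := hAC.cond_left a ha ha1
  obtain ⟨d₀, hd₀, hd₀1⟩ := root_exists_ne_one hS hD
  have hane : ∀ d ∈ D, a * d ≠ 1 := by
    intro d hd h1
    have : a ∈ A ⊓ D := Subgroup.mem_inf.mpr
      ⟨ha, by rw [mul_eq_one_iff_eq_inv.mp h1]; exact D.inv_mem hd⟩
    rw [hinf, Subgroup.mem_bot] at this
    exact ha1 this
  have hnr : ¬ IsRankOnePair A ⁅C, D⁆ := by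
    intro h
    obtain ⟨F, hF, hmem⟩ := hcov a ha d₀ hd₀ (hane d₀ hd₀)
    rw [hAD a ha d₀ hd₀] at hmem
    exact root_central_translate hS hES h (z := d₀)
      (commute_sup_of_commute (fun a' ha' => (hAD a' ha' d₀ hd₀).symm)
        (fun e he => (hED e he d₀ hd₀).symm)) hd₀1 ha ha1 hF hmem
  have hZ : ∀ z ∈ ⁅A, ⁅C, D⁆⁆, ∀ x ∈ A ⊔ ⁅C, D⁆, z * x = x * z := by
    rcases hS.pair A hA ⁅C, D⁆ hES with h | h | h
    · intro z hz
      rw [h, Subgroup.mem_bot] at hz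
      subst hz
      intro x _
      simp
    · exact absurd h hnr
    · exact h.2.1
  have hsurj : ∀ w ∈ ⁅A, ⁅C, D⁆⁆, ∃ e₁ ∈ ⁅C, D⁆, e₁ * a * e₁⁻¹ = w * a := by
    rcases hS.pair A hA ⁅C, D⁆ hES with h | h | h
    · intro w hw
      rw [h, Subgroup.mem_bot] at hw
      exact ⟨1, Subgroup.one_mem _, by rw [hw]; group⟩
    · exact absurd h hnr
    · intro w hw
      exact cc_conj_surj h ha ha1 hw
  have hconj : conjBy A (a * c⁻¹) = C := by rw [← conjBy_conjBy, hp, conjBy_cancel_inv]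
  have main : ∀ d ∈ D, ∀ e w : G, e = c⁻¹ * d * c * d⁻¹ → w = a * e * a⁻¹ * e⁻¹ → w * d = 1 := by
    intro d hd e w he_def hw_def
    have he : e ∈ ⁅C, D⁆ := by
      rw [he_def]
      have := comm_elt_mem (A := C) (B := D) (C.inv_mem hc) hd
      rwa [inv_inv] at this
    have hw : w ∈ ⁅A, ⁅C, D⁆⁆ := by
      rw [hw_def]
      exact comm_elt_mem ha he
    by_contra hz1
    have hzA : ∀ a' ∈ A, (w * d) * a' = a' * (w * d) := by
      intro a' ha'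
      have h1 := hZ w hw a' (Subgroup.mem_sup_left ha')
      have h2 := hAD a' ha' d hd
      calc w * d * a' = w * (d * a') := by group
        _ = w * (a' * d) := by rw [h2]
        _ = (w * a') * d := by group
        _ = (a' * w) * d := by rw [h1]
        _ = a' * (w * d) := by group
    have hzC : ∀ c' ∈ C, (w * d) * c' = c' * (w * d) := by
      intro c' hc'
      have hx : ((a * c⁻¹) * d * (a * c⁻¹)⁻¹) * c' = c' * ((a * c⁻¹) * d * (a * c⁻¹)⁻¹) := by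
        have hc'A : (a * c⁻¹)⁻¹ * c' * (a * c⁻¹) ∈ A := by
          rw [← hconj] at hc'
          exact mem_conjBy.mp hc'
        have := hAD _ hc'A d hd
        calc (a * c⁻¹) * d * (a * c⁻¹)⁻¹ * c'
            = (a * c⁻¹) * (d * ((a * c⁻¹)⁻¹ * c' * (a * c⁻¹))) * (a * c⁻¹)⁻¹ := by group
          _ = (a * c⁻¹) * (((a * c⁻¹)⁻¹ * c' * (a * c⁻¹)) * d) * (a * c⁻¹)⁻¹ := by rw [this]
          _ = c' * ((a * c⁻¹) * d * (a * c⁻¹)⁻¹) := by group
      have hx_eq : (a * c⁻¹) * d * (a * c⁻¹)⁻¹ = e * (w * d) := by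
        have h1 : a * d * a⁻¹ = d := by
          have := hAD a ha d hd
          calc a * d * a⁻¹ = (a * d) * a⁻¹ := by group
            _ = (d * a) * a⁻¹ := by rw [this]
            _ = d := by group
        have h2 : w * e = e * w := hZ w hw e (Subgroup.mem_sup_right he)
        calc (a * c⁻¹) * d * (a * c⁻¹)⁻¹
            = (a * e * a⁻¹ * e⁻¹) * e * (a * d * a⁻¹) := by rw [he_def]; group
          _ = w * e * d := by rw [h1, ← hw_def]
          _ = (e * w) * d := by rw [h2]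
          _ = e * (w * d) := by group
      have hec : e * c' = c' * e := hEC e he c' hc'
      rw [hx_eq] at hx
      calc w * d * c' = e⁻¹ * (e * (w * d) * c') := by group
        _ = e⁻¹ * (c' * (e * (w * d))) := by rw [hx]
        _ = e⁻¹ * ((c' * e) * (w * d)) := by group
        _ = e⁻¹ * ((e * c') * (w * d)) := by rw [hec]
        _ = c' * (w * d) := by group
    obtain ⟨e₁, he₁, he₁e⟩ := hsurj w hw
    obtain ⟨F, hF, hmem⟩ := hcov a ha d hd (hane d hd)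
    have hmem' : (w * d) * a ∈ conjBy F e₁ := by
      have h1 := hAD a ha d hd
      have hcomm : Commute e₁⁻¹ d := (show Commute e₁ d from hED e₁ he₁ d hd).inv_left
      have e3 : (w * d) * a = e₁ * (a * d) * e₁⁻¹ := by
        calc w * d * a = w * (d * a) := by group
          _ = w * (a * d) := by rw [h1]
          _ = (w * a) * d := by group
          _ = (e₁ * a * e₁⁻¹) * d := by rw [he₁e]
          _ = e₁ * a * (e₁⁻¹ * d) := by group
          _ = e₁ * a * (d * e₁⁻¹) := by rw [hcomm.eq]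
          _ = e₁ * (a * d) * e₁⁻¹ := by group
      rw [e3]
      exact conj_mem_conjBy hmem e₁
    exact root_central_translate hS hC hAC (z := w * d) (commute_sup_of_commute hzA hzC) hz1
      ha ha1 (hS.conj_mem F hF e₁) hmem'
  have hDle : D ≤ ⁅A, ⁅C, D⁆⁆ := by
    intro d hd
    have h1 := main d hd _ _ rfl rfl
    have he : c⁻¹ * d * c * d⁻¹ ∈ ⁅C, D⁆ := by
      have := comm_elt_mem (A := C) (B := D) (C.inv_mem hc) hd
      rwa [inv_inv] at this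
    have hw : a * (c⁻¹ * d * c * d⁻¹) * a⁻¹ * (c⁻¹ * d * c * d⁻¹)⁻¹ ∈ ⁅A, ⁅C, D⁆⁆ :=
      comm_elt_mem ha he
    rw [eq_inv_of_mul_eq_one_right h1]
    exact Subgroup.inv_mem _ hw
  have hne_bot : ⁅A, ⁅C, D⁆⁆ ≠ ⊥ := by
    intro h
    apply hd₀1
    have := hDle hd₀
    rwa [h, Subgroup.mem_bot] at this
  have hcc : RootCommutatorCase S A ⁅C, D⁆ := by
    rcases hS.pair A hA ⁅C, D⁆ hES with h | h | h
    · exact absurd h hne_bot
    · exact absurd h hnr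
    · exact h
  refine ⟨hcc, le_antisymm ?_ hDle⟩
  intro x hx
  obtain ⟨e', he', hxe⟩ := cc_surj_right hcc ha ha1 hx
  have hci : c⁻¹ ≠ 1 := fun h => hc1 (inv_eq_one.mp h)
  obtain ⟨d, hd, hde⟩ := cc_surj_right ccCD (C.inv_mem hc) hci he'
  rw [inv_inv] at hde
  have h1 := main d hd e' x hde.symm hxe.symm
  rw [mul_eq_one_iff_eq_inv.mp h1]
  exact D.inv_mem hd

/-- On a line `N₀` (an abelian subgroup partitioned by its root subgroups), a member `F` with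
rank one partner `C` determines a second member `D` with `[C, D] ∈ S` and `[F, [C, D]] = D`. -/
theorem line_aux (hS : IsRootSubgroupSet S) (hpart : ∀ A ∈ S, ∃ C ∈ S, IsRankOnePair A C)
    {N₀ : Subgroup G} (hN₀ : IsSubgroupPartition N₀ (membersIn S N₀))
    (hab : ∀ x ∈ N₀, ∀ y ∈ N₀, x * y = y * x) {F F₂ : Subgroup G} (hF : F ∈ membersIn S N₀)
    (hF₂ : F₂ ∈ membersIn S N₀) (hne : F ≠ F₂) (hsup : F ⊔ F₂ = N₀) {C : Subgroup G}
    (hC : C ∈ S) (hFC : IsRankOnePair F C) :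
    ∃ D ∈ membersIn S N₀, D ≠ F ∧ F ⊔ D = N₀ ∧ RootCommutatorCase S C D ∧
      RootCommutatorCase S F ⁅C, D⁆ ∧ ⁅F, ⁅C, D⁆⁆ = D := by
  obtain ⟨hFS, hFle⟩ := hF
  obtain ⟨hF₂S, hF₂le⟩ := hF₂
  have hinf : ∀ D' ∈ membersIn S N₀, D' ≠ F → F ⊓ D' = ⊥ := fun D' hD' hne' =>
    hN₀.2.2 F ⟨hFS, hFle⟩ D' hD' (Ne.symm hne')
  have hcov : ∀ D' ∈ membersIn S N₀, ∀ a ∈ F, ∀ d ∈ D', a * d ≠ 1 → ∃ F' ∈ S, a * d ∈ F' := by
    intro D' hD' a ha d hd hne1
    obtain ⟨F', hF', hmem⟩ := hN₀.2.1 (a * d) (N₀.mul_mem (hFle ha) (hD'.2 hd)) hne1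
    exact ⟨F', hF'.1, hmem⟩
  have key0 : ∀ D' ∈ membersIn S N₀, D' ≠ F → ¬ (∀ d ∈ D', ∀ c ∈ C, d * c = c * d) := by
    intro D' hD' hne' hcomm
    obtain ⟨d₀, hd₀, hd₀1⟩ := root_exists_ne_one hS hD'.1
    obtain ⟨f₀, hf₀, hf₀1⟩ := root_exists_ne_one hS hFS
    have hne1 : f₀ * d₀ ≠ 1 := by
      intro h1
      have : f₀ ∈ F ⊓ D' := Subgroup.mem_inf.mpr
        ⟨hf₀, by rw [mul_eq_one_iff_eq_inv.mp h1]; exact D'.inv_mem hd₀⟩
      rw [hinf D' hD' hne', Subgroup.mem_bot] at this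
      exact hf₀1 this
    obtain ⟨F', hF', hmem⟩ := hcov D' hD' f₀ hf₀ d₀ hd₀ hne1
    have hcomm2 : f₀ * d₀ = d₀ * f₀ := hab f₀ (hFle hf₀) d₀ (hD'.2 hd₀)
    rw [hcomm2] at hmem
    exact root_central_translate hS hC hFC (z := d₀)
      (commute_sup_of_commute (fun f hf => hab d₀ (hD'.2 hd₀) f (hFle hf))
        (fun c hc => hcomm d₀ hd₀ c hc)) hd₀1 hf₀ hf₀1 hF' hmem
  have hD : ∃ D ∈ membersIn S N₀, D ≠ F ∧ RootCommutatorCase S C D ∧
      ∃ f₂ ∈ F₂, f₂ ≠ 1 ∧ f₂ ∈ F ⊔ D := by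
    rcases hS.pair C hC F₂ hF₂S with h | h | h
    · exfalso
      exact key0 F₂ ⟨hF₂S, hF₂le⟩ (Ne.symm hne)
        (fun d hd c hc => (commutator_eq_bot_iff'.mp h c hc d hd).symm)
    · obtain ⟨f, hf, hf1⟩ := root_exists_ne_one hS hFS
      obtain ⟨c, hc, hc1, hp1⟩ := hFC.cond_left f hf hf1
      obtain ⟨f₂, hf₂, hf₂1, hp2⟩ := h.cond_left c hc hc1
      have hd1 : f₂ * f⁻¹ ≠ 1 := by
        intro h1
        have h2 : f₂ = f := mul_inv_eq_one.mp h1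
        have hmem : f ∈ F ⊓ F₂ := Subgroup.mem_inf.mpr ⟨hf, h2 ▸ hf₂⟩
        rw [hinf F₂ ⟨hF₂S, hF₂le⟩ (Ne.symm hne), Subgroup.mem_bot] at hmem
        exact hf1 hmem
      obtain ⟨D, hD, hdD⟩ := hN₀.2.1 (f₂ * f⁻¹)
        (N₀.mul_mem (hF₂le hf₂) (N₀.inv_mem (hFle hf))) hd1
      have hDF : D ≠ F := by
        intro h2
        rw [h2] at hdD
        have h3 : f₂ ∈ F := by
          have := F.mul_mem hdD hf
          rwa [inv_mul_cancel_right] at this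
        have hmem : f₂ ∈ F ⊓ F₂ := Subgroup.mem_inf.mpr ⟨h3, hf₂⟩
        rw [hinf F₂ ⟨hF₂S, hF₂le⟩ (Ne.symm hne), Subgroup.mem_bot] at hmem
        exact hf₂1 hmem
      have hcc' : ∀ x ∈ conjBy C (f₂ * f⁻¹), ∀ y ∈ C, x * y = y * x := by
        intro x hx y hy
        have hx' : x ∈ conjBy F (f₂ * c⁻¹) := by
          rw [← conjBy_conjBy, hp1, conjBy_conjBy]
          exact hx
        have hy' : y ∈ conjBy F₂ (f₂ * c⁻¹) := by
          rw [← conjBy_conjBy, ← hp2, conjBy_cancel_inv]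
          exact hy
        rw [mem_conjBy] at hx' hy'
        have := hab _ (hFle hx') _ (hF₂le hy')
        calc x * y = (f₂ * c⁻¹) * (((f₂ * c⁻¹)⁻¹ * x * (f₂ * c⁻¹)) *
              ((f₂ * c⁻¹)⁻¹ * y * (f₂ * c⁻¹))) * (f₂ * c⁻¹)⁻¹ := by group
          _ = (f₂ * c⁻¹) * (((f₂ * c⁻¹)⁻¹ * y * (f₂ * c⁻¹)) *
              ((f₂ * c⁻¹)⁻¹ * x * (f₂ * c⁻¹))) * (f₂ * c⁻¹)⁻¹ := by rw [this]
          _ = y * x := by group
      have hccCD : RootCommutatorCase S C D := by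
        rcases hS.pair C hC D hD.1 with h3 | h3 | h3
        · exfalso
          exact key0 D hD hDF (fun d hd c hc => (commutator_eq_bot_iff'.mp h3 c hc d hd).symm)
        · exfalso
          have h4 := rk1_conjB_pair (RankOnePair_symm h3) hdD hd1
          exact rk1_not_commute h4 hcc'
        · exact h3
      refine ⟨D, hD, hDF, hccCD, f₂, hf₂, hf₂1, ?_⟩
      have e : f₂ = (f₂ * f⁻¹) * f := by group
      rw [e]
      exact Subgroup.mul_mem _ (Subgroup.mem_sup_right hdD) (Subgroup.mem_sup_left hf)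
    · obtain ⟨f₂, hf₂, hf₂1⟩ := root_exists_ne_one hS hF₂S
      exact ⟨F₂, ⟨hF₂S, hF₂le⟩, Ne.symm hne, h, f₂, hf₂, hf₂1, Subgroup.mem_sup_right hf₂⟩
  obtain ⟨D, hD, hDF, hccCD, f₂, hf₂, hf₂1, hf₂FD⟩ := hD
  obtain ⟨hccFE, hFE⟩ := partner_comm_eq hS hFS hC hD.1 hFC
    (fun a ha d hd => hab a (hFle ha) d (hD.2 hd)) (hinf D hD hDF) hccCD (hcov D hD)
  refine ⟨D, hD, hDF, ?_, hccCD, hccFE, hFE⟩
  apply le_antisymm (sup_le hFle hD.2)
  rw [← hsup]
  refine sup_le le_sup_left ?_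
  have hpartition := cc_partition_line hS hFS hC hFC hccFE
  rw [hFE] at hpartition
  obtain ⟨G', hG', hf₂G'⟩ := hpartition.2.1 f₂ hf₂FD hf₂1
  obtain ⟨C₂, hC₂, hF₂C₂⟩ := hpart F₂ hF₂S
  rcases root_inf_eq_bot_or_eq hS hC₂ hF₂C₂ hG'.1 with h5 | h5
  · exfalso
    have : f₂ ∈ F₂ ⊓ G' := Subgroup.mem_inf.mpr ⟨hf₂, hf₂G'⟩
    rw [h5, Subgroup.mem_bot] at this
    exact hf₂1 this
  · rw [h5]
    exact hG'.2

/-- The root subgroup `E` with `[F, E] = D` acts on the line `F D`: it fixes `D` and is regular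
on the other points. -/
theorem line_triple (hS : IsRootSubgroupSet S) {N₀ F D E C : Subgroup G} (hF : F ∈ S)
    (hC : C ∈ S) (hFC : IsRankOnePair F C) (hE : E ∈ S) (hcc : RootCommutatorCase S F E)
    (hFE : ⁅F, E⁆ = D) (hsup : F ⊔ D = N₀) :
    E ∈ normalizingMembers S N₀ ∧ (∀ e ∈ E, conjBy D e = D) ∧
    (∀ F' ∈ membersIn S N₀, F' ≠ D → ∃ e ∈ E, F' = conjBy F e) ∧
    (∀ e ∈ E, e ≠ 1 → conjBy F e ≠ F) := by
  subst hFE
  subst hsup
  have hDe : ∀ e ∈ E, conjBy ⁅F, E⁆ e = ⁅F, E⁆ := fun e he =>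
    conjBy_of_centralizes (fun x hx => (hcc.2.1 x hx e (Subgroup.mem_sup_right he)).symm)
  refine ⟨⟨hE, ?_⟩, hDe, ?_, ?_⟩
  · intro e he
    refine conjBy_eq_self_iff.mp (conjBy_eq_of_forall_le (K := E) (fun k hk => ?_) he)
    rw [conjBy_sup, hDe k hk]
    exact sup_le (cc_line_conj_le hk) le_sup_right
  · intro F' hF' hne
    rw [cc_members_line hS hF hC hFC hcc] at hF'
    rcases hF' with ⟨e, he, rfl⟩ | h
    · exact ⟨e, he, rfl⟩
    · exact absurd h hne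
  · intro e he he1 hconj
    obtain ⟨f, hf, hf1⟩ := root_exists_ne_one hS hF
    have h1 : e * f * e⁻¹ ∈ F := by
      have := conj_mem_conjBy hf e
      rwa [hconj] at this
    have h2 : e * f * e⁻¹ * f⁻¹ ∈ F ⊓ ⁅F, E⁆ :=
      Subgroup.mem_inf.mpr ⟨F.mul_mem h1 (F.inv_mem hf), comm_elt_mem' hf he⟩
    rw [cc_inf_eq_bot hS hC hFC hcc, Subgroup.mem_bot] at h2
    apply cc_not_commute_elts hS hF hC hFC hcc hf hf1 he he1
    calc f * e = (e * f * e⁻¹ * f⁻¹)⁻¹ * (e * f) := by group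
      _ = e * f := by rw [h2, inv_one, one_mul]

end Cfsg.Agent.Lib.Helper86
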