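import Cfsg.Agent.Lib.Helper86.Line
import Cfsg.Agent.S5038

/-!
# Lines of root subgroups: conjugacy of the points of a line through `A`
-/

set_option autoImplicit false

namespace Cfsg.Agent.Lib.Helper86

open Cfsg

variable {G : Type*} [Group G] {S : Set (Subgroup G)}

/-- In the commutator case the commutator is a line partner. -/
theorem cc_comm_linePartner (hS : IsRootSubgroupSet S) {A C E : Subgroup G} (hA : A ∈ S)
    (hE : E ∈ S) (hAE : IsRankOnePair A E) (hcc : RootCommutatorCase S A C) :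
    ⁅A, C⁆ ∈ linePartners S A := by
  refine ⟨⟨hcc.1, ?_, ?_⟩, cc_partition_line hS hA hE hAE hcc⟩
  · intro h
    have hinf := cc_inf_eq_bot hS hE hAE hcc
    rw [h, inf_idem] at hinf
    exact hS.ne_bot A hA hinf
  · rw [commutator_eq_bot_iff']
    intro a ha c hc
    exact (hcc.2.1 c hc a (Subgroup.mem_sup_left ha)).symm

/-- In the commutator case, non-identity elements of `C` move `A`. -/
theorem cc_conj_ne (hS : IsRootSubgroupSet S) {A C E : Subgroup G} (hA : A ∈ S)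
    (hE : E ∈ S) (hAE : IsRankOnePair A E) (hcc : RootCommutatorCase S A C) {c : G} (hc : c ∈ C)
    (hc1 : c ≠ 1) : conjBy A c ≠ A := by
  intro h
  obtain ⟨a, ha, ha1⟩ := root_exists_ne_one hS hA
  apply cc_not_commute_elts hS hA hE hAE hcc ha ha1 hc hc1
  have h1 : c * a * c⁻¹ ∈ A := by
    have := conj_mem_conjBy ha c
    rwa [h] at this
  have h2 : c * a * c⁻¹ * a⁻¹ ∈ A ⊓ ⁅A, C⁆ :=
    Subgroup.mem_inf.mpr ⟨A.mul_mem h1 (A.inv_mem ha), comm_elt_mem' ha hc⟩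
  rw [cc_inf_eq_bot hS hE hAE hcc, Subgroup.mem_bot] at h2
  calc a * c = (c * a * c⁻¹ * a⁻¹)⁻¹ * (c * a) := by group
    _ = c * a := by rw [h2, inv_one, one_mul]

theorem not_isolated_of_partner (hpart : ∀ A ∈ S, ∃ E ∈ S, IsRankOnePair A E) :
    ∀ A ∈ S, ¬ IsIsolatedIn (FAdj S) S A := by
  intro A' hA' hiso
  obtain ⟨E', hE', hAE'⟩ := hpart A' hA'
  exact (hiso.2 E').1 ⟨hA', hE', hAE'⟩

/-- Every line partner of `A` is conjugate to `A` under any subgroup `R` containing the line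
partners of `A` and one rank one partner `B` of `A`. -/
theorem linePartner_conj_mem (hS : IsRootSubgroupSet S)
    (hpart : ∀ A ∈ S, ∃ E ∈ S, IsRankOnePair A E)
    {A B : Subgroup G} (hA : A ∈ S) (hB : B ∈ S) (hAB : IsRankOnePair A B) {R : Subgroup G}
    (hR : ∀ C ∈ linePartners S A, C ≤ R) (hBR : B ≤ R) {D₀ : Subgroup G}
    (hD₀ : D₀ ∈ linePartners S A) : ∃ r ∈ R, D₀ = conjBy A r := by
  obtain ⟨⟨hD₀S, hD₀A, hAD₀⟩, hpartn⟩ := hD₀
  have hab : ∀ x ∈ A ⊔ D₀, ∀ y ∈ A ⊔ D₀, x * y = y * x :=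
    sup_commute_of_commute (fun x hx y hy => root_comm hS hA hx hy)
      (fun x hx y hy => root_comm hS hD₀S hx hy) (commutator_eq_bot_iff'.mp hAD₀)
  have hAL : A ∈ membersIn S (A ⊔ D₀) := ⟨hA, le_sup_left⟩
  have hDL : D₀ ∈ membersIn S (A ⊔ D₀) := ⟨hD₀S, le_sup_right⟩
  obtain ⟨D, hD, hDA, hADsup, ccBD, ccAE, hAE⟩ :=
    line_aux hS hpart hpartn hab hAL hDL (Ne.symm hD₀A) rfl hB hAB
  obtain ⟨hEn, hEfix, hEtr, hEreg⟩ := line_triple hS hA hB hAB ccBD.1 ccAE hAE hADsup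
  have hDlp : D ∈ linePartners S A := by
    refine ⟨⟨hD.1, hDA, ?_⟩, ?_⟩
    · rw [commutator_eq_bot_iff']
      intro a ha d hd
      exact hab a (Subgroup.mem_sup_left ha) d (hD.2 hd)
    · rw [hADsup]
      exact hpartn
  have hER : ⁅B, D⁆ ≤ R := (Subgroup.commutator_le_sup B D).trans (sup_le hBR (hR D hDlp))
  by_cases hDD : D₀ = D
  swap
  · obtain ⟨e, he, h⟩ := hEtr D₀ hDL hDD
    exact ⟨e, hER he, h⟩
  rw [hDD]
  have hF := not_isolated_of_partner hpart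
  obtain ⟨x, -, hAx, hDx⟩ := Cfsg.Agent.S5038.result hS hF hA hDlp A ⟨hA, le_sup_left⟩ D
    ⟨hD.1, le_sup_right⟩ D ⟨hD.1, le_sup_right⟩ A ⟨hA, le_sup_left⟩ (Ne.symm hDA) hDA
  obtain ⟨ED, hED, hDED⟩ := hpart D hD.1
  have ccDB : RootCommutatorCase S D B := cc_symm ccBD
  have hlp1 : ⁅D, B⁆ ∈ linePartners S D := cc_comm_linePartner hS hD.1 hED hDED ccDB
  have hlp2 : conjBy ⁅D, B⁆ x ∈ linePartners S A := by
    have := linePartners_conj hS hlp1 x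
    rwa [hDx] at this
  have hcomm : ⁅D, conjBy ⁅D, B⁆ x⁆ = A := by
    have h1 : conjBy ⁅A, ⁅D, B⁆⁆ x = ⁅conjBy A x, conjBy ⁅D, B⁆ x⁆ :=
      Subgroup.map_commutator _ _ _
    rw [hAx] at h1
    rw [← h1, Subgroup.commutator_comm D B, hAE, hDx]
  have ccDD₁ : RootCommutatorCase S D (conjBy ⁅D, B⁆ x) :=
    root_cc_of_comm_mem hS hD.1 hlp2.1.1 (by rw [hcomm]; exact hA)
  obtain ⟨d₁, hd₁, hd₁1⟩ := root_exists_ne_one hS hlp2.1.1
  have hne : conjBy D d₁ ≠ D := cc_conj_ne hS hD.1 hED hDED ccDD₁ hd₁ hd₁1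
  have hmem : conjBy D d₁ ∈ membersIn S (A ⊔ D₀) := by
    refine ⟨hS.conj_mem D hD.1 d₁, ?_⟩
    have := cc_line_conj_le (A := D) (B := conjBy ⁅D, B⁆ x) hd₁
    rw [hcomm] at this
    rw [← hADsup, sup_comm]
    exact this
  obtain ⟨e, he, h⟩ := hEtr _ hmem hne
  refine ⟨d₁⁻¹ * e, R.mul_mem (R.inv_mem (hR _ hlp2 hd₁)) (hER he), ?_⟩
  rw [← conjBy_conjBy, ← h, conjBy_inv_cancel]

end Cfsg.Agent.Lib.Helper86
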