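import Mathlib
import Cfsg.Prelude.Def_RootSubgroups
import Cfsg.Agent.Lib.Helper86.RootSub7

set_option autoImplicit false

namespace Cfsg.Agent.Lib.Helper86

open Cfsg

section Quad

variable {X : Type*} [Group X] {N : Type*} [AddCommGroup N] [DistribMulAction X N]

/-- The endomorphism `n ↦ x • n` of `N`. -/
abbrev actEnd (N : Type*) [AddCommGroup N] [DistribMulAction X N] (x : X) : AddMonoid.End N :=
  DistribMulAction.toAddMonoidEnd X N x

theorem actEnd_mul (x y : X) : actEnd N (x * y) = actEnd N x * actEnd N y := map_mul _ _ _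

theorem actEnd_one : actEnd N (1 : X) = 1 := map_one _

theorem actEnd_inv_mul (x : X) : actEnd N x⁻¹ * actEnd N x = 1 := by
  rw [← actEnd_mul, inv_mul_cancel, actEnd_one]

theorem actEnd_mul_inv (x : X) : actEnd N x * actEnd N x⁻¹ = 1 := by
  rw [← actEnd_mul, mul_inv_cancel, actEnd_one]

/-- `H` acts quadratically on `N`. -/
def QuadOn (N : Type*) [AddCommGroup N] [DistribMulAction X N] (H : Subgroup X) : Prop :=
  ∀ x ∈ H, ∀ y ∈ H, (actEnd N y - 1) * (actEnd N x - 1) = 0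

theorem quadOn_of_forall {H : Subgroup X}
    (hq : ∀ a ∈ H, ∀ a' ∈ H, ∀ n : N, a' • (a • n - n) = a • n - n) : QuadOn N H := by
  intro x hx y hy
  ext n
  show y • (x • n - n) - (x • n - n) = 0
  rw [hq x hx y hy n, sub_self]

theorem quadOn_apply {H : Subgroup X} (h : QuadOn N H) {x y : X} (hx : x ∈ H) (hy : y ∈ H)
    (n : N) : y • (x • n - n) = x • n - n := by
  have := congrArg (fun f : AddMonoid.End N => f n) (h x hx y hy)
  exact sub_eq_zero.mp this

theorem actEnd_conj_sub_one (g x : X) :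
    actEnd N x - 1 = actEnd N g * (actEnd N (g⁻¹ * x * g) - 1) * actEnd N g⁻¹ := by
  have e1 : actEnd N x = actEnd N g * actEnd N (g⁻¹ * x * g) * actEnd N g⁻¹ := by
    rw [← actEnd_mul, ← actEnd_mul]
    congr 1
    group
  rw [mul_sub, sub_mul, mul_one, actEnd_mul_inv, ← e1]

theorem quadOn_conj {H : Subgroup X} (h : QuadOn N H) (g : X) : QuadOn N (conjBy H g) := by
  intro x hx y hy
  rw [mem_conjBy] at hx hy
  rw [actEnd_conj_sub_one g x, actEnd_conj_sub_one g y]
  have e := h _ hx _ hy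
  have e2 := actEnd_inv_mul (N := N) g
  calc actEnd N g * (actEnd N (g⁻¹ * y * g) - 1) * actEnd N g⁻¹ *
        (actEnd N g * (actEnd N (g⁻¹ * x * g) - 1) * actEnd N g⁻¹)
      = actEnd N g * (actEnd N (g⁻¹ * y * g) - 1) * (actEnd N g⁻¹ * actEnd N g) *
          (actEnd N (g⁻¹ * x * g) - 1) * actEnd N g⁻¹ := by simp only [mul_assoc]
    _ = actEnd N g * ((actEnd N (g⁻¹ * y * g) - 1) * (actEnd N (g⁻¹ * x * g) - 1)) *
          actEnd N g⁻¹ := by rw [e2, mul_one]; simp only [mul_assoc]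
    _ = 0 := by rw [e, mul_zero, zero_mul]

theorem fixed_of_mul_eq_zero {A B : Subgroup X} (hAB : A ⊔ B = ⊤) (T : AddMonoid.End N)
    (hA : ∀ a ∈ A, (actEnd N a - 1) * T = 0) (hB : ∀ b ∈ B, (actEnd N b - 1) * T = 0)
    (n : N) (x : X) : x • T n = T n := by
  have h1 : A ≤ MulAction.stabilizer X (T n) := by
    intro a ha
    rw [MulAction.mem_stabilizer_iff]
    have := congrArg (fun f : AddMonoid.End N => f n) (hA a ha)
    exact sub_eq_zero.mp this
  have h2 : B ≤ MulAction.stabilizer X (T n) := by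
    intro b hb
    rw [MulAction.mem_stabilizer_iff]
    have := congrArg (fun f : AddMonoid.End N => f n) (hB b hb)
    exact sub_eq_zero.mp this
  have h3 := sup_le h1 h2
  rw [hAB] at h3
  exact h3 (Subgroup.mem_top x)

/-- The elements of `X` acting trivially modulo the fixed points. -/
def fixSub (X : Type*) [Group X] (N : Type*) [AddCommGroup N] [DistribMulAction X N] :
    Subgroup X where
  carrier := {x | ∀ n : N, ∀ y : X, y • (x • n - n) = x • n - n}
  one_mem' := by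
    intro n y
    simp
  mul_mem' := by
    intro x₁ x₂ h₁ h₂ n y
    have e : (x₁ * x₂) • n - n = (x₁ • (x₂ • n) - x₂ • n) + (x₂ • n - n) := by
      rw [mul_smul]; abel
    rw [e, smul_add, h₁ (x₂ • n) y, h₂ n y]
  inv_mem' := by
    intro x hx n y
    have e : x⁻¹ • n - n = -(x • (x⁻¹ • n) - x⁻¹ • n) := by
      rw [smul_inv_smul]; abel
    rw [e, smul_neg, hx (x⁻¹ • n) y]

theorem mem_fixSub {x : X} :
    x ∈ fixSub X N ↔ ∀ n : N, ∀ y : X, y • (x • n - n) = x • n - n := Iff.rfl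

theorem fixSub_normal : (fixSub X N).Normal := by
  refine ⟨fun x hx g => ?_⟩
  intro n y
  have e : (g * x * g⁻¹) • n - n = x • (g⁻¹ • n) - g⁻¹ • n := by
    rw [mul_smul, mul_smul]
    have := hx (g⁻¹ • n) g
    rw [smul_sub, smul_inv_smul] at this
    exact this
  rw [e]
  exact hx (g⁻¹ • n) y

theorem quad_ring_A {R : Type*} [Ring R] (α β α' : R) (h1 : α' * α = 0) (hβ : β * β = 0)
    (h3' : α' * (1 + β) * (1 - α) * β = 0) :
    α' * ((1 - α) * (1 - β) * (1 + α) - (1 - β) * (1 + α) * (1 + β)) = 0 := by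
  linear_combination (norm := noncomm_ring)
    -h3' - h1 * α + h1 * β * α - h1 + 2 * α' * hβ - h1 * β

theorem quad_ring_B {R : Type*} [Ring R] (α β β' : R) (h1 : β' * β = 0)
    (h3' : β' * (1 + α) * (1 - β) * α = 0) :
    β' * ((1 - α) * (1 - β) * (1 + α) - (1 - β) * (1 + α) * (1 + β)) = 0 := by
  linear_combination (norm := noncomm_ring) -h3' - h1 + h1 * β + h1 * α * β - h1 * α

theorem quad_ring_C {R : Type*} [Ring R] (α β α' : R) (hα : α * α = 0) (hβ : β * β = 0)
    (hQ : ((1 - β) * (1 + α') * (1 + β) - 1) * ((1 - α) * (1 + β) * (1 + α) - 1) = 0) :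
    α' * (1 + β) * (1 - α) * β = 0 := by
  linear_combination (norm := noncomm_ring) (1 + β) * hQ * (1 - α) +
    (α' * (1 + β) * (1 - α) * (1 + β)) * hα +
    hβ * ((1 + α') * (1 + β) * ((1 - α) * β - (1 - α) * (1 + β) * (α * α)))

theorem actEnd_inv_of_sq {x : X} (h : (actEnd N x - 1) * (actEnd N x - 1) = 0) :
    actEnd N x⁻¹ = 1 - (actEnd N x - 1) := by
  have h1 : actEnd N x⁻¹ * actEnd N x = 1 := actEnd_inv_mul x
  have h2 : actEnd N x * (1 - (actEnd N x - 1)) = 1 := by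
    linear_combination (norm := noncomm_ring) -h
  calc actEnd N x⁻¹ = actEnd N x⁻¹ * (actEnd N x * (1 - (actEnd N x - 1))) := by
        rw [h2, mul_one]
    _ = 1 - (actEnd N x - 1) := by rw [← mul_assoc, h1, one_mul]

/-- A rank one group with a quadratically acting unipotent subgroup which does not itself act
quadratically is special. -/
theorem special_of_quadOn {A B : Subgroup X} (h : IsRankOneGroup X A B) (hq : QuadOn N A)
    (hX : ∃ x y : X, ∃ n : N, y • (x • n - n) ≠ x • n - n) : IsSpecialRankOnePair A B := by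
  obtain ⟨hAB, hrk⟩ := h
  have hqB : QuadOn N B := by
    obtain ⟨a₀, ha₀, ha₀1⟩ := rk1_A_nontriv hrk
    obtain ⟨b₀, hb₀, -, hp⟩ := hrk.cond_left a₀ ha₀ ha₀1
    have e : conjBy (conjBy A b₀⁻¹) a₀ = B := by rw [hp, conjBy_cancel_inv]
    rw [← e]
    exact quadOn_conj (quadOn_conj hq _) _
  have hdich := rk1_normal_dichotomy ⟨hAB, hrk⟩ (fixSub X N) fixSub_normal
  have hdich' := rk1_normal_dichotomy ⟨(sup_comm B A).trans hAB, RankOnePair_symm hrk⟩
    (fixSub X N) fixSub_normal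
  by_cases hcen : fixSub X N ≤ Subgroup.center X
  · refine ⟨hrk, ?_⟩
    intro a ha ha1 b hb hb1 hab'
    have hαα : (actEnd N a - 1) * (actEnd N a - 1) = 0 := hq a ha a ha
    have hββ : (actEnd N b - 1) * (actEnd N b - 1) = 0 := hqB b hb b hb
    have hρai := actEnd_inv_of_sq hαα
    have hρbi := actEnd_inv_of_sq hββ
    have hqU : QuadOn N (conjBy A b⁻¹) := quadOn_conj hq b⁻¹
    have hu₁ : ∀ a' ∈ A, b⁻¹ * a' * b ∈ conjBy A b⁻¹ := fun a' ha' => by
      have := conj_mem_conjBy ha' b⁻¹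
      rwa [inv_inv] at this
    have hu₂ : ∀ b' ∈ B, a⁻¹ * b' * a ∈ conjBy A b⁻¹ := fun b' hb' => by
      rw [hab']
      have := conj_mem_conjBy hb' a⁻¹
      rwa [inv_inv] at this
    have hρ1 : ∀ y : X, actEnd N (b⁻¹ * y * b) =
        (1 - (actEnd N b - 1)) * (1 + (actEnd N y - 1)) * (1 + (actEnd N b - 1)) := by
      intro y
      rw [actEnd_mul, actEnd_mul, hρbi]
      noncomm_ring
    have hρ2 : ∀ y : X, actEnd N (a⁻¹ * y * a) =
        (1 - (actEnd N a - 1)) * (1 + (actEnd N y - 1)) * (1 + (actEnd N a - 1)) := by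
      intro y
      rw [actEnd_mul, actEnd_mul, hρai]
      noncomm_ring
    have hρ3 : actEnd N (a⁻¹ * b⁻¹ * a) =
        (1 - (actEnd N a - 1)) * (1 - (actEnd N b - 1)) * (1 + (actEnd N a - 1)) := by
      rw [actEnd_mul, actEnd_mul, hρai, hρbi]
      noncomm_ring
    have FA : ∀ a' ∈ A, (actEnd N a' - 1) *
        (actEnd N (a⁻¹ * b⁻¹ * a) - actEnd N (b⁻¹ * a * b)) = 0 := by
      intro a' ha'
      have h1 : (actEnd N a' - 1) * (actEnd N a - 1) = 0 := hq a ha a' ha'
      have hQ := hqU (a⁻¹ * b * a) (hu₂ b hb) (b⁻¹ * a' * b) (hu₁ a' ha')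
      rw [hρ1, hρ2] at hQ
      rw [hρ3, hρ1]
      exact quad_ring_A _ _ _ h1 hββ (quad_ring_C _ _ _ hαα hββ hQ)
    have FB : ∀ b' ∈ B, (actEnd N b' - 1) *
        (actEnd N (a⁻¹ * b⁻¹ * a) - actEnd N (b⁻¹ * a * b)) = 0 := by
      intro b' hb'
      have h1 : (actEnd N b' - 1) * (actEnd N b - 1) = 0 := hqB b hb b' hb'
      have hQ := hqU (b⁻¹ * a * b) (hu₁ a ha) (a⁻¹ * b' * a) (hu₂ b' hb')
      rw [hρ1, hρ2] at hQ
      rw [hρ3, hρ1]
      exact quad_ring_B _ _ _ h1 (quad_ring_C _ _ _ hββ hαα hQ)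
    have hfix := fixed_of_mul_eq_zero hAB
      (actEnd N (a⁻¹ * b⁻¹ * a) - actEnd N (b⁻¹ * a * b)) FA FB
    have hg : (b⁻¹ * a * b)⁻¹ * (a⁻¹ * b⁻¹ * a) ∈ fixSub X N := by
      intro n y
      have e : ((b⁻¹ * a * b)⁻¹ * (a⁻¹ * b⁻¹ * a)) • n - n =
          (actEnd N (a⁻¹ * b⁻¹ * a) - actEnd N (b⁻¹ * a * b)) n := by
        have h3 := hfix n (b⁻¹ * a * b)⁻¹
        have h4 : (actEnd N (a⁻¹ * b⁻¹ * a) - actEnd N (b⁻¹ * a * b)) n =
            (a⁻¹ * b⁻¹ * a) • n - (b⁻¹ * a * b) • n := rfl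
        rw [h4] at h3 ⊢
        rw [smul_sub, inv_smul_smul, ← mul_smul] at h3
        exact h3
      rw [e]
      exact hfix n y
    have hgc := hcen hg
    rw [Subgroup.mem_center_iff] at hgc
    have hgU : (b⁻¹ * a * b)⁻¹ * (a⁻¹ * b⁻¹ * a) ∈ conjBy A b⁻¹ :=
      Subgroup.mul_mem _ (Subgroup.inv_mem _ (hu₁ a ha)) (by
        have := hu₂ b⁻¹ (B.inv_mem hb)
        exact this)
    have hgA : (b⁻¹ * a * b)⁻¹ * (a⁻¹ * b⁻¹ * a) ∈ A := by
      rw [mem_conjBy, inv_inv] at hgU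
      have e : b * ((b⁻¹ * a * b)⁻¹ * (a⁻¹ * b⁻¹ * a)) * b⁻¹ =
          (b⁻¹ * a * b)⁻¹ * (a⁻¹ * b⁻¹ * a) := by
        rw [hgc b]
        group
      rwa [e] at hgU
    have hg1 := rk1_normA hrk hgA (conjBy_of_centralizes (fun x _ => (hgc x).symm))
    exact inv_mul_eq_one.mp hg1
  · exfalso
    have hA' : fixSub X N ⊔ A = ⊤ := hdich.resolve_right hcen
    have hB' : fixSub X N ⊔ B = ⊤ := hdich'.resolve_right hcen
    have hAle : A ≤ fixSub X N := by
      intro a' ha' n y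
      have hmem : a' ∈ ((fixSub X N ⊔ B : Subgroup X) : Set X) := by
        rw [hB']
        trivial
      have := fixSub_normal (X := X) (N := N)
      rw [Subgroup.normal_mul] at hmem
      obtain ⟨k, hk, b', hb', rfl⟩ := Set.mem_mul.mp hmem
      have e : (k * b') • n - n = (k • (b' • n) - b' • n) + (b' • n - n) := by
        rw [mul_smul]; abel
      have h1 : A ≤ MulAction.stabilizer X ((k * b') • n - n) := fun a₁ ha₁ => by
        rw [MulAction.mem_stabilizer_iff]
        exact quadOn_apply hq ha' ha₁ n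
      have h2 : B ≤ MulAction.stabilizer X ((k * b') • n - n) := fun b₁ hb₁ => by
        rw [MulAction.mem_stabilizer_iff, e, smul_add, hk (b' • n) b₁,
          quadOn_apply hqB hb' hb₁ n]
      have h3 := sup_le h1 h2
      rw [hAB] at h3
      exact h3 (Subgroup.mem_top y)
    have htop : fixSub X N = ⊤ := by rw [← hA', sup_eq_left.mpr hAle]
    obtain ⟨x, y, n, hne⟩ := hX
    have hx : x ∈ fixSub X N := by rw [htop]; trivial
    exact hne (hx n y)

end Quad

end Cfsg.Agent.Lib.Helper86
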