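import Mathlib
import Cfsg.Prelude.Def_RootSubgroups
import Cfsg.Agent.Lib.Helper86.Quad

set_option autoImplicit false

namespace Cfsg.Agent.Lib.Helper86

open Cfsg

section Quad2

variable {X : Type*} [Group X] {N : Type*} [AddCommGroup N] [DistribMulAction X N]

theorem quadOn_right {A B : Subgroup X} (hrk : IsRankOnePair A B) (hq : QuadOn N A) :
    QuadOn N B := by
  obtain ⟨a₀, ha₀, ha₀1⟩ := rk1_A_nontriv hrk
  obtain ⟨b₀, hb₀, -, hp⟩ := hrk.cond_left a₀ ha₀ ha₀1
  have e : conjBy (conjBy A b₀⁻¹) a₀ = B := by rw [hp, conjBy_cancel_inv]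
  rw [← e]
  exact quadOn_conj (quadOn_conj hq _) _

/-- If a unipotent subgroup acts quadratically but the rank one group does not, the elements
acting trivially modulo the fixed points are central. -/
theorem fixSub_le_center {A B : Subgroup X} (h : IsRankOneGroup X A B) (hq : QuadOn N A)
    (hX : ∃ x y : X, ∃ n : N, y • (x • n - n) ≠ x • n - n) :
    fixSub X N ≤ Subgroup.center X := by
  obtain ⟨hAB, hrk⟩ := h
  have hqB : QuadOn N B := quadOn_right hrk hq
  have hdich := rk1_normal_dichotomy ⟨hAB, hrk⟩ (fixSub X N) fixSub_normal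
  have hdich' := rk1_normal_dichotomy ⟨(sup_comm B A).trans hAB, RankOnePair_symm hrk⟩
    (fixSub X N) fixSub_normal
  by_contra hcen
  have hA' : fixSub X N ⊔ A = ⊤ := hdich.resolve_right hcen
  have hB' : fixSub X N ⊔ B = ⊤ := hdich'.resolve_right hcen
  have hAle : A ≤ fixSub X N := by
    intro a' ha' n y
    have hmem : a' ∈ ((fixSub X N ⊔ B : Subgroup X) : Set X) := by
      rw [hB']
      trivial
    have := fixSub_normal (X := X) (N := N)
    rw [Subgroup.normal_mul] at hmem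
    obtain ⟨k, hk, b', hb', rfl⟩ := Set.mem_mul.mp hmem
    have e : (k * b') • n - n = (k • (b' • n) - b' • n) + (b' • n - n) := by
      rw [mul_smul]; abel
    have h1 : A ≤ MulAction.stabilizer X ((k * b') • n - n) := fun a₁ ha₁ => by
      rw [MulAction.mem_stabilizer_iff]
      exact quadOn_apply hq ha' ha₁ n
    have h2 : B ≤ MulAction.stabilizer X ((k * b') • n - n) := fun b₁ hb₁ => by
      rw [MulAction.mem_stabilizer_iff, e, smul_add, hk (b' • n) b₁,
        quadOn_apply hqB hb' hb₁ n]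
    have h3 := sup_le h1 h2
    rw [hAB] at h3
    exact h3 (Subgroup.mem_top y)
  have htop : fixSub X N = ⊤ := by rw [← hA', sup_eq_left.mpr hAle]
  obtain ⟨x, y, n, hne⟩ := hX
  have hx : x ∈ fixSub X N := by rw [htop]; trivial
  exact hne (hx n y)

theorem quad_ring_C' {R : Type*} [Ring R] (α β α' β'' : R) (hα : α * α = 0) (hβ : β * β = 0)
    (hQ : ((1 - β) * (1 + α') * (1 + β) - 1) * ((1 - α) * (1 + β'') * (1 + α) - 1) = 0) :
    α' * (1 + β) * (1 - α) * β'' = 0 := by
  linear_combination (norm := noncomm_ring) (1 + β) * hQ * (1 - α) +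
    (α' * (1 + β) * (1 - α) * (1 + β'')) * hα +
    hβ * ((1 + α') * (1 + β) * ((1 - α) * β'' - (1 - α) * (1 + β'') * (α * α)))

/-- The basic relation for a pair of partners `a`, `b` in a quadratic module. -/
theorem quad_partner_rel {A B : Subgroup X} (hq : QuadOn N A) (hqB : QuadOn N B) {a b : X}
    (ha : a ∈ A) (hb : b ∈ B) (hab' : conjBy A b⁻¹ = conjBy B a⁻¹) {a' b'' : X} (ha' : a' ∈ A)
    (hb'' : b'' ∈ B) :
    (actEnd N a' - 1) * (actEnd N b'' - 1) =
      (actEnd N a' - 1) * (actEnd N b - 1) * (actEnd N a - 1) * (actEnd N b'' - 1) := by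
  have hαα := hq a ha a ha
  have hββ := hqB b hb b hb
  have hρai := actEnd_inv_of_sq hαα
  have hρbi := actEnd_inv_of_sq hββ
  have hqU : QuadOn N (conjBy A b⁻¹) := quadOn_conj hq b⁻¹
  have hu₁ : b⁻¹ * a' * b ∈ conjBy A b⁻¹ := by
    have := conj_mem_conjBy ha' b⁻¹
    rwa [inv_inv] at this
  have hu₂ : a⁻¹ * b'' * a ∈ conjBy A b⁻¹ := by
    rw [hab']
    have := conj_mem_conjBy hb'' a⁻¹
    rwa [inv_inv] at this
  have hρ1 : actEnd N (b⁻¹ * a' * b) =
      (1 - (actEnd N b - 1)) * (1 + (actEnd N a' - 1)) * (1 + (actEnd N b - 1)) := by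
    rw [actEnd_mul, actEnd_mul, hρbi]
    noncomm_ring
  have hρ2 : actEnd N (a⁻¹ * b'' * a) =
      (1 - (actEnd N a - 1)) * (1 + (actEnd N b'' - 1)) * (1 + (actEnd N a - 1)) := by
    rw [actEnd_mul, actEnd_mul, hρai]
    noncomm_ring
  have hQ := hqU (a⁻¹ * b'' * a) hu₂ (b⁻¹ * a' * b) hu₁
  rw [hρ1, hρ2] at hQ
  have h3 := quad_ring_C' _ _ _ _ hαα hββ hQ
  have h1 : (actEnd N a' - 1) * (actEnd N a - 1) = 0 := hq a ha a' ha'
  have h2 : (actEnd N b - 1) * (actEnd N b'' - 1) = 0 := hqB b'' hb'' b hb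
  linear_combination (norm := noncomm_ring) h3 - (actEnd N a' - 1) * h2 +
    h1 * (actEnd N b'' - 1)

theorem one_add_pow_of_sq_zero {R : Type*} [Ring R] {α : R} (h : α * α = 0) (k : ℕ) :
    (1 + α) ^ k = 1 + (k : R) * α := by
  induction k with
  | zero => simp
  | succ k ih =>
    rw [pow_succ, ih]
    have h2 : (k : R) * α * α = 0 := by rw [mul_assoc, h, mul_zero]
    push_cast
    linear_combination (norm := noncomm_ring) h2

theorem actEnd_pow (x : X) (k : ℕ) : actEnd N (x ^ k) = actEnd N x ^ k :=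
  map_pow (DistribMulAction.toAddMonoidEnd X N) x k

theorem actEnd_pow_of_sq {x : X} (h : (actEnd N x - 1) * (actEnd N x - 1) = 0) (k : ℕ) :
    actEnd N (x ^ k) = 1 + (k : AddMonoid.End N) * (actEnd N x - 1) := by
  rw [actEnd_pow]
  calc actEnd N x ^ k = (1 + (actEnd N x - 1)) ^ k := by
        congr 1
        abel
    _ = 1 + (k : AddMonoid.End N) * (actEnd N x - 1) := one_add_pow_of_sq_zero h k

theorem actEnd_injective_of_faithful (hf : ∀ x : X, (∀ v : N, x • v = v) → x = 1) {x y : X}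
    (h : actEnd N x = actEnd N y) : x = y := by
  have h1 : x * y⁻¹ = 1 := by
    apply hf
    intro v
    have := congrArg (fun f : AddMonoid.End N => f (y⁻¹ • v)) h
    have e : x • y⁻¹ • v = y • y⁻¹ • v := this
    rw [mul_smul, e, smul_inv_smul]
  exact mul_inv_eq_one.mp h1

theorem commute_of_quad_faithful (hf : ∀ x : X, (∀ v : N, x • v = v) → x = 1) {x y : X}
    (h1 : (actEnd N x - 1) * (actEnd N y - 1) = 0) (h2 : (actEnd N y - 1) * (actEnd N x - 1) = 0) :
    x * y = y * x := by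
  apply actEnd_injective_of_faithful hf
  rw [actEnd_mul, actEnd_mul]
  linear_combination (norm := noncomm_ring) h1 - h2

/-- In a module on which `A` acts quadratically but `X` does not, a non-identity element of `A`
with `a₁ ^ p = 1` forces `A` to have exponent `p`. -/
theorem quad_exponent {A B : Subgroup X} (h : IsRankOneGroup X A B) (hq : QuadOn N A)
    (hX : ∃ x y : X, ∃ n : N, y • (x • n - n) ≠ x • n - n) {p : ℕ} {a₁ : X} (ha₁ : a₁ ∈ A)
    (ha₁1 : a₁ ≠ 1) (hp : a₁ ^ p = 1) : ∀ a' ∈ A, a' ^ p = 1 := by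
  have hcen := fixSub_le_center h hq hX
  obtain ⟨hAB, hrk⟩ := h
  have hqB : QuadOn N B := quadOn_right hrk hq
  obtain ⟨b₁, hb₁, -, hp₁⟩ := hrk.cond_left a₁ ha₁ ha₁1
  have hα₁ : (p : AddMonoid.End N) * (actEnd N a₁ - 1) = 0 := by
    have e1 := actEnd_pow_of_sq (hq a₁ ha₁ a₁ ha₁) p
    rw [hp, actEnd_one] at e1
    have e2 : (1 : AddMonoid.End N) + (p : AddMonoid.End N) * (actEnd N a₁ - 1) = 1 + 0 := by
      rw [← e1, add_zero]
    exact add_left_cancel e2
  intro a' ha'
  by_cases ha'1 : a' = 1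
  · rw [ha'1, one_pow]
  obtain ⟨b', hb', -, hp'⟩ := hrk.cond_left a' ha' ha'1
  have c1 : (p : AddMonoid.End N) * ((actEnd N a' - 1) * (actEnd N b' - 1)) = 0 := by
    rw [quad_partner_rel hq hqB ha₁ hb₁ hp₁ ha' hb']
    calc (p : AddMonoid.End N) *
          ((actEnd N a' - 1) * (actEnd N b₁ - 1) * (actEnd N a₁ - 1) * (actEnd N b' - 1))
        = ((p : AddMonoid.End N) * (actEnd N a' - 1)) * (actEnd N b₁ - 1) * (actEnd N a₁ - 1) *
            (actEnd N b' - 1) := by simp only [mul_assoc]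
      _ = ((actEnd N a' - 1) * (p : AddMonoid.End N)) * (actEnd N b₁ - 1) * (actEnd N a₁ - 1) *
            (actEnd N b' - 1) := by rw [Nat.cast_comm]
      _ = (actEnd N a' - 1) * ((p : AddMonoid.End N) * (actEnd N b₁ - 1)) * (actEnd N a₁ - 1) *
            (actEnd N b' - 1) := by simp only [mul_assoc]
      _ = (actEnd N a' - 1) * ((actEnd N b₁ - 1) * (p : AddMonoid.End N)) * (actEnd N a₁ - 1) *
            (actEnd N b' - 1) := by rw [Nat.cast_comm p (actEnd N b₁ - 1)]
      _ = (actEnd N a' - 1) * (actEnd N b₁ - 1) * ((p : AddMonoid.End N) * (actEnd N a₁ - 1)) *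
            (actEnd N b' - 1) := by simp only [mul_assoc]
      _ = 0 := by rw [hα₁, mul_zero, zero_mul]
  have hT : ∀ x : X, x ∈ A ∨ x ∈ B → (actEnd N x - 1) * ((p : AddMonoid.End N) *
      ((actEnd N a' - 1) - (actEnd N a' - 1) * (actEnd N b' - 1) * (actEnd N a' - 1))) = 0 := by
    intro x hx
    have e : (actEnd N x - 1) * ((actEnd N a' - 1) -
        (actEnd N a' - 1) * (actEnd N b' - 1) * (actEnd N a' - 1)) = 0 := by
      rcases hx with hx | hx
      · have h1 : (actEnd N x - 1) * (actEnd N a' - 1) = 0 := hq a' ha' x hx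
        linear_combination (norm := noncomm_ring) h1 -
          h1 * ((actEnd N b' - 1) * (actEnd N a' - 1))
      · have h2 := quad_partner_rel hqB hq hb' ha' hp'.symm hx ha'
        linear_combination (norm := noncomm_ring) h2
    rw [← mul_assoc, ← Nat.cast_comm, mul_assoc, e, mul_zero]
  have hpα : (p : AddMonoid.End N) * (actEnd N a' - 1) = (p : AddMonoid.End N) *
      ((actEnd N a' - 1) - (actEnd N a' - 1) * (actEnd N b' - 1) * (actEnd N a' - 1)) := by
    have c2 : (p : AddMonoid.End N) *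
        ((actEnd N a' - 1) * (actEnd N b' - 1) * (actEnd N a' - 1)) = 0 := by
      rw [← mul_assoc, c1, zero_mul]
    rw [mul_sub (p : AddMonoid.End N) (actEnd N a' - 1)
      ((actEnd N a' - 1) * (actEnd N b' - 1) * (actEnd N a' - 1)), c2, sub_zero]
  have hfix := fixed_of_mul_eq_zero hAB ((p : AddMonoid.End N) *
      ((actEnd N a' - 1) - (actEnd N a' - 1) * (actEnd N b' - 1) * (actEnd N a' - 1)))
    (fun x hx => hT x (Or.inl hx)) (fun x hx => hT x (Or.inr hx))
  have hmem : a' ^ p ∈ fixSub X N := by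
    intro n y
    have e : (a' ^ p) • n - n = ((p : AddMonoid.End N) *
        ((actEnd N a' - 1) - (actEnd N a' - 1) * (actEnd N b' - 1) * (actEnd N a' - 1))) n := by
      rw [← hpα]
      have e1 := actEnd_pow_of_sq (hq a' ha' a' ha') p
      have e2 : (a' ^ p) • n - n = (actEnd N (a' ^ p) - 1) n := rfl
      rw [e2, e1, add_sub_cancel_left]
    rw [e]
    exact hfix n y
  have hc := hcen hmem
  rw [Subgroup.mem_center_iff] at hc
  exact rk1_normA hrk (A.pow_mem ha' p) (conjBy_of_centralizes (fun x _ => (hc x).symm))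

end Quad2

end Cfsg.Agent.Lib.Helper86
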