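import Mathlib
import Cfsg.Prelude.Def_RootSubgroups
import Cfsg.Agent.Lib.Helper86.Quad2
import Cfsg.Agent.Lib.Helper86.RootSub8

set_option autoImplicit false

namespace Cfsg.Agent.Lib.Helper86

open Cfsg

section Transfer

variable {G : Type*} [Group G]

theorem conjBy_subgroupOf (H K : Subgroup G) (g : K) :
    conjBy (H.subgroupOf K) g = (conjBy H (g : G)).subgroupOf K := by
  ext x
  rw [mem_conjBy, Subgroup.mem_subgroupOf, Subgroup.mem_subgroupOf, mem_conjBy]
  rfl

theorem rk1cond_subtype {A B K : Subgroup G} (hB : B ≤ K) (h : RankOneCondition A B) :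
    RankOneCondition (A.subgroupOf K) (B.subgroupOf K) := by
  intro a ha ha1
  rw [Subgroup.mem_subgroupOf] at ha
  obtain ⟨b, hb, hb1, hp⟩ := h (a : G) ha (fun h1 => ha1 (Subtype.ext h1))
  refine ⟨⟨b, hB hb⟩, Subgroup.mem_subgroupOf.mpr hb,
    fun h1 => hb1 (congrArg Subtype.val h1), ?_⟩
  rw [conjBy_subgroupOf, conjBy_subgroupOf]
  show (conjBy A b⁻¹).subgroupOf K = (conjBy B (a : G)⁻¹).subgroupOf K
  rw [hp]

/-- A rank one pair in `G` gives a rank one group structure on the subgroup it generates. -/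
theorem rk1_subtype {A B : Subgroup G} (h : IsRankOnePair A B) :
    IsRankOneGroup ↥(A ⊔ B) (A.subgroupOf (A ⊔ B)) (B.subgroupOf (A ⊔ B)) := by
  have hA : A ≤ A ⊔ B := le_sup_left
  have hB : B ≤ A ⊔ B := le_sup_right
  refine ⟨?_, ?_, ?_, ?_, rk1cond_subtype hB h.cond_left, rk1cond_subtype hA h.cond_right⟩
  · rw [← Subgroup.subgroupOf_sup hA hB, Subgroup.subgroupOf_self]
  · intro heq
    rw [Subgroup.subgroupOf_inj, inf_of_le_left hA, inf_of_le_left hB] at heq
    exact h.ne heq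
  · have := h.nilpotent_left
    exact Group.nilpotent_of_mulEquiv (Subgroup.subgroupOfEquivOfLe hA).symm
  · have := h.nilpotent_right
    exact Group.nilpotent_of_mulEquiv (Subgroup.subgroupOfEquivOfLe hB).symm

theorem special_of_subtype {A B : Subgroup G} (h : IsRankOnePair A B)
    (hs : IsSpecialRankOnePair (A.subgroupOf (A ⊔ B)) (B.subgroupOf (A ⊔ B))) :
    IsSpecialRankOnePair A B := by
  refine ⟨h, ?_⟩
  intro a ha ha1 b hb hb1 hp
  have hA : A ≤ A ⊔ B := le_sup_left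
  have hB : B ≤ A ⊔ B := le_sup_right
  have := hs.2 ⟨a, hA ha⟩ (Subgroup.mem_subgroupOf.mpr ha)
    (fun h1 => ha1 (congrArg Subtype.val h1)) ⟨b, hB hb⟩ (Subgroup.mem_subgroupOf.mpr hb)
    (fun h1 => hb1 (congrArg Subtype.val h1)) (by
      rw [conjBy_subgroupOf, conjBy_subgroupOf]
      show (conjBy A b⁻¹).subgroupOf (A ⊔ B) = (conjBy B a⁻¹).subgroupOf (A ⊔ B)
      rw [hp])
  exact congrArg Subtype.val this

/-- A rank one pair normalizing an abelian subgroup `Nn` on which `A` acts quadratically by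
conjugation, while `⟨A, B⟩` does not, is special. -/
theorem special_of_conj_action {A B Nn : Subgroup G} (hrk : IsRankOnePair A B)
    (hNab : ∀ x ∈ Nn, ∀ y ∈ Nn, x * y = y * x)
    (hnorm : ∀ x ∈ A ⊔ B, ∀ n ∈ Nn, x * n * x⁻¹ ∈ Nn)
    (hq : ∀ a ∈ A, ∀ a' ∈ A, ∀ n ∈ Nn,
      a' * (a * n * a⁻¹ * n⁻¹) * a'⁻¹ = a * n * a⁻¹ * n⁻¹)
    (hX : ∃ x ∈ A ⊔ B, ∃ y ∈ A ⊔ B, ∃ n ∈ Nn,
      y * (x * n * x⁻¹ * n⁻¹) * y⁻¹ ≠ x * n * x⁻¹ * n⁻¹) :
    IsSpecialRankOnePair A B := by
  letI : CommGroup ↥Nn :=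
    { (inferInstance : Group ↥Nn) with
      mul_comm := fun x y => Subtype.ext (hNab x x.2 y y.2) }
  letI : DistribMulAction ↥(A ⊔ B) (Additive ↥Nn) :=
    { smul := fun x n => Additive.ofMul
        ⟨(x : G) * ((Additive.toMul n : ↥Nn) : G) * (x : G)⁻¹, hnorm x x.2 _ (Additive.toMul n).2⟩
      one_smul := fun n => by
        apply Additive.toMul.injective
        apply Subtype.ext
        show ((1 : ↥(A ⊔ B)) : G) * ((Additive.toMul n : ↥Nn) : G) * ((1 : ↥(A ⊔ B)) : G)⁻¹ = _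
        simp
      mul_smul := fun x y n => by
        apply Additive.toMul.injective
        apply Subtype.ext
        show ((x * y : ↥(A ⊔ B)) : G) * ((Additive.toMul n : ↥Nn) : G) *
          ((x * y : ↥(A ⊔ B)) : G)⁻¹ =
          (x : G) * ((y : G) * ((Additive.toMul n : ↥Nn) : G) * (y : G)⁻¹) * (x : G)⁻¹
        simp [mul_assoc]
      smul_zero := fun x => by
        apply Additive.toMul.injective
        apply Subtype.ext
        show (x : G) * ((1 : ↥Nn) : G) * (x : G)⁻¹ = ((1 : ↥Nn) : G)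
        simp
      smul_add := fun x n m => by
        apply Additive.toMul.injective
        apply Subtype.ext
        show (x : G) * ((Additive.toMul n * Additive.toMul m : ↥Nn) : G) * (x : G)⁻¹ =
          ((x : G) * ((Additive.toMul n : ↥Nn) : G) * (x : G)⁻¹) *
            ((x : G) * ((Additive.toMul m : ↥Nn) : G) * (x : G)⁻¹)
        simp [mul_assoc] }
  have hφ_inj : ∀ n m : Additive ↥Nn,
      ((Additive.toMul n : ↥Nn) : G) = ((Additive.toMul m : ↥Nn) : G) → n = m := fun n m h => by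
    apply Additive.toMul.injective
    exact Subtype.ext h
  have hφ_smul : ∀ (x : ↥(A ⊔ B)) (n : Additive ↥Nn),
      ((Additive.toMul (x • n) : ↥Nn) : G) =
        (x : G) * ((Additive.toMul n : ↥Nn) : G) * (x : G)⁻¹ := fun x n => rfl
  have hφ_sub : ∀ n m : Additive ↥Nn, ((Additive.toMul (n - m) : ↥Nn) : G) =
      ((Additive.toMul n : ↥Nn) : G) * ((Additive.toMul m : ↥Nn) : G)⁻¹ := fun n m => by
    rw [toMul_sub, div_eq_mul_inv]
    rfl
  apply special_of_subtype hrk
  apply special_of_quadOn (N := Additive ↥Nn) (rk1_subtype hrk)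
  · apply quadOn_of_forall
    intro a ha a' ha' n
    apply hφ_inj
    rw [hφ_smul, hφ_sub, hφ_smul]
    exact hq (a : G) (Subgroup.mem_subgroupOf.mp ha) (a' : G) (Subgroup.mem_subgroupOf.mp ha')
      _ (Additive.toMul n).2
  · obtain ⟨x, hx, y, hy, n, hn, hne⟩ := hX
    refine ⟨⟨x, hx⟩, ⟨y, hy⟩, Additive.ofMul ⟨n, hn⟩, ?_⟩
    intro h
    apply hne
    have h2 := congrArg (fun m : Additive ↥Nn => ((Additive.toMul m : ↥Nn) : G)) h
    simp only [hφ_smul, hφ_sub] at h2
    exact h2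

end Transfer

end Cfsg.Agent.Lib.Helper86
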