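import Cfsg.Agent.Lib.Helper86.Spec
import Cfsg.Prelude.Def_CaseTheorems

/-!
# Quasisimplicity criteria and normal subgroups of groups generated by root subgroups
-/

set_option autoImplicit false

namespace Cfsg.Agent.Lib.Helper86

open Cfsg

/-- A perfect group in which every normal subgroup is central or everything is quasisimple. -/
theorem quasisimple_of_dichotomy {H : Type*} [Group H] (hperf : Group.IsPerfect H)
    (hnc : Subgroup.center H ≠ ⊤)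
    (hN : ∀ N : Subgroup H, N.Normal → N ≤ Subgroup.center H ∨ N = ⊤) : IsQuasisimple H := by
  refine ⟨hperf, ?_⟩
  have hnt : Nontrivial (H ⧸ Subgroup.center H) := by
    rw [QuotientGroup.nontrivial_iff]
    exact hnc
  refine { exists_pair_ne := hnt.exists_pair_ne, eq_bot_or_eq_top_of_normal := ?_ }
  intro K hK
  have hNn : (K.comap (QuotientGroup.mk' (Subgroup.center H))).Normal := hK.comap _
  rcases hN _ hNn with hNZ | hNT
  · left
    rw [Subgroup.eq_bot_iff_forall]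
    intro x hx
    obtain ⟨y, rfl⟩ := QuotientGroup.mk_surjective x
    have : y ∈ K.comap (QuotientGroup.mk' (Subgroup.center H)) := hx
    exact (QuotientGroup.eq_one_iff y).mpr (hNZ this)
  · right
    rw [eq_top_iff]
    intro x _
    obtain ⟨y, rfl⟩ := QuotientGroup.mk_surjective x
    have : y ∈ K.comap (QuotientGroup.mk' (Subgroup.center H)) := by rw [hNT]; trivial
    exact this

variable {G : Type*} [Group G]

/-- The same criterion for a subgroup equal to the whole group. -/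
theorem quasisimple_subgroup_of_dichotomy {K : Subgroup G} (hK : K = ⊤)
    (hperf : commutator G = ⊤) (hnc : Subgroup.center G ≠ ⊤)
    (hN : ∀ N : Subgroup G, N.Normal → N ≤ Subgroup.center G ∨ N = ⊤) : IsQuasisimple ↥K := by
  subst hK
  apply quasisimple_of_dichotomy
  · rw [Subgroup.isPerfect_iff, ← commutator_def, hperf]
  · intro hc
    apply hnc
    rw [eq_top_iff]
    intro x _
    rw [Subgroup.mem_center_iff]
    intro g
    have h1 : (⟨x, Subgroup.mem_top x⟩ : ↥(⊤ : Subgroup G)) ∈ Subgroup.center ↥(⊤ : Subgroup G) := by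
      rw [hc]; trivial
    have h2 := (Subgroup.mem_center_iff.mp h1) ⟨g, Subgroup.mem_top g⟩
    exact congrArg Subtype.val h2
  · intro N' hN'
    have hnorm : (N'.map (⊤ : Subgroup G).subtype).Normal := by
      refine ⟨fun n hn g => ?_⟩
      obtain ⟨n', hn', rfl⟩ := hn
      refine ⟨⟨g, Subgroup.mem_top g⟩ * n' * ⟨g, Subgroup.mem_top g⟩⁻¹, hN'.conj_mem n' hn' _, rfl⟩
    rcases hN _ hnorm with h1 | h1
    · left
      intro n' hn'
      rw [Subgroup.mem_center_iff]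
      intro g
      have h2 : ((⊤ : Subgroup G).subtype n') ∈ Subgroup.center G := h1 ⟨n', hn', rfl⟩
      have h3 := (Subgroup.mem_center_iff.mp h2) (g : G)
      exact Subtype.ext h3
    · right
      rw [eq_top_iff]
      intro k _
      have h2 : (k : G) ∈ N'.map (⊤ : Subgroup G).subtype := by rw [h1]; trivial
      obtain ⟨n', hn', hne⟩ := h2
      have : n' = k := Subtype.ext hne
      rw [← this]
      exact hn'

/-- If two abelian subgroups commute modulo a normal subgroup `N`, the commutator subgroup of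
their join lies in `N`. -/
theorem comm_sup_le_of_comm_mem {N : Subgroup G} (hN : N.Normal) {U V : Subgroup G}
    (hU : ∀ x ∈ U, ∀ y ∈ U, x * y = y * x) (hV : ∀ x ∈ V, ∀ y ∈ V, x * y = y * x)
    (hUV : ∀ u ∈ U, ∀ v ∈ V, u * v * u⁻¹ * v⁻¹ ∈ N) : ⁅U ⊔ V, U ⊔ V⁆ ≤ N := by
  have hNn : ∀ r ∈ (⊤ : Subgroup G), ∀ n ∈ N, r * n * r⁻¹ ∈ N := fun r _ n hn => hN.conj_mem n hn r
  have h1 : ∀ k ∈ U, ∀ l ∈ U ⊔ V, k * l * k⁻¹ * l⁻¹ ∈ N :=
    comm_mem_of_sup_right hNn le_top le_top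
      (fun k hk l hl => comm_mem_of_commute N (hU k hk l hl)) hUV
  have h2 : ∀ k ∈ V, ∀ l ∈ U ⊔ V, k * l * k⁻¹ * l⁻¹ ∈ N :=
    comm_mem_of_sup_right hNn le_top le_top
      (fun k hk l hl => comm_mem_swap (hUV l hl k hk))
      (fun k hk l hl => comm_mem_of_commute N (hV k hk l hl))
  have h3 := comm_mem_of_sup_left hNn le_top le_top h1 h2
  rw [Subgroup.commutator_le]
  intro x hx y hy
  exact h3 x hx y hy

/-- Commutators of a conjugate `m E m⁻¹` (with `m ∈ N`) with a subgroup `A` centralized by `E`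
lie in the normal subgroup `N`. -/
theorem conj_comm_mem {N : Subgroup G} (hN : N.Normal) {E A : Subgroup G}
    (hEA : ∀ e ∈ E, ∀ a ∈ A, e * a = a * e) {m : G} (hm : m ∈ N) :
    ∀ u ∈ conjBy E m, ∀ a ∈ A, u * a * u⁻¹ * a⁻¹ ∈ N := by
  intro u hu a ha
  rw [mem_conjBy] at hu
  have hz : (m⁻¹ * u * m)⁻¹ * u ∈ N := by
    have e1 : (m⁻¹ * u * m)⁻¹ * u = m⁻¹ * (u⁻¹ * m * u⁻¹⁻¹) := by group
    rw [e1]
    exact N.mul_mem (N.inv_mem hm) (hN.conj_mem m hm u⁻¹)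
  have hza : ((m⁻¹ * u * m)⁻¹ * u) * a * ((m⁻¹ * u * m)⁻¹ * u)⁻¹ * a⁻¹ ∈ N := by
    have e2 : ((m⁻¹ * u * m)⁻¹ * u) * a * ((m⁻¹ * u * m)⁻¹ * u)⁻¹ * a⁻¹ =
        ((m⁻¹ * u * m)⁻¹ * u) * (a * ((m⁻¹ * u * m)⁻¹ * u)⁻¹ * a⁻¹) := by group
    rw [e2]
    exact N.mul_mem hz (hN.conj_mem _ (N.inv_mem hz) a)
  have hc : (m⁻¹ * u * m) * a⁻¹ = a⁻¹ * (m⁻¹ * u * m) :=
    (Commute.inv_right (show Commute (m⁻¹ * u * m) a from hEA _ hu a ha)).eq
  have e3 : u * a * u⁻¹ * a⁻¹ = (m⁻¹ * u * m) *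
      (((m⁻¹ * u * m)⁻¹ * u) * a * ((m⁻¹ * u * m)⁻¹ * u)⁻¹ * a⁻¹) * (m⁻¹ * u * m)⁻¹ := by
    calc u * a * u⁻¹ * a⁻¹ = u * a * u⁻¹ * (a⁻¹ * (m⁻¹ * u * m)) * (m⁻¹ * u * m)⁻¹ := by group
      _ = u * a * u⁻¹ * ((m⁻¹ * u * m) * a⁻¹) * (m⁻¹ * u * m)⁻¹ := by rw [hc]
      _ = (m⁻¹ * u * m) *
          (((m⁻¹ * u * m)⁻¹ * u) * a * ((m⁻¹ * u * m)⁻¹ * u)⁻¹ * a⁻¹) * (m⁻¹ * u * m)⁻¹ := by
          group
  rw [e3]
  exact hN.conj_mem _ hza _

variable {S : Set (Subgroup G)}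

/-- A normal subgroup normalizing every member of `S` is central. -/
theorem central_of_normalizes (hS : IsRootSubgroupSet S)
    (hpart : ∀ A ∈ S, ∃ E ∈ S, IsRankOnePair A E) {N : Subgroup G} (hN : N.Normal)
    (hfix : ∀ A ∈ S, ∀ n ∈ N, conjBy A n = A) : N ≤ Subgroup.center G := by
  intro n hn
  rw [Subgroup.mem_center_iff]
  intro g
  have hle : (⨆ A ∈ S, A) ≤ Subgroup.centralizer ({n} : Set G) := by
    refine iSup₂_le ?_
    intro A hA a ha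
    rw [Subgroup.mem_centralizer_iff]
    intro h hh
    rw [Set.mem_singleton_iff] at hh
    subst hh
    by_contra hne
    obtain ⟨B, hB, hAB⟩ := hpart A hA
    have hwN : h * a * h⁻¹ * a⁻¹ ∈ N := by
      have e : h * a * h⁻¹ * a⁻¹ = h * (a * h⁻¹ * a⁻¹) := by group
      rw [e]
      exact N.mul_mem hn (hN.conj_mem _ (N.inv_mem hn) a)
    have hwA : h * a * h⁻¹ * a⁻¹ ∈ A := by
      have h1 := conj_mem_conjBy ha h
      rw [hfix A hA h hn] at h1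
      exact A.mul_mem h1 (A.inv_mem ha)
    have hw1 := rk1_normA hAB hwA (hfix B hB _ hwN)
    apply hne
    calc h * a = (h * a * h⁻¹ * a⁻¹) * a * h := by group
      _ = a * h := by rw [hw1, one_mul]
  have hg : g ∈ Subgroup.centralizer ({n} : Set G) := by
    apply hle
    rw [hS.generates]
    trivial
  exact (Subgroup.mem_centralizer_iff.mp hg n rfl).symm

/-- A normal subgroup containing a member of a conjugacy class `S` generating `G` is `G`. -/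
theorem top_of_member_le (hS : IsRootSubgroupSet S) (hclass : IsConjClassOfSubgroups S)
    {N : Subgroup G} (hN : N.Normal) {M : Subgroup G} (hM : M ∈ S) (hMN : M ≤ N) : N = ⊤ := by
  rw [eq_top_iff, ← hS.generates]
  refine iSup₂_le ?_
  intro A hA x hx
  obtain ⟨g, rfl⟩ := hclass.2 M hM A hA
  rw [mem_conjBy] at hx
  have := hN.conj_mem _ (hMN hx) g
  have e : g * (g⁻¹ * x * g) * g⁻¹ = x := by group
  rwa [e] at this

/-- The natural module of a rank one pair `(A, B)` when `A` has a commutator partner. -/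
theorem nat_module (hS : IsRootSubgroupSet S) (hpart : ∀ A ∈ S, ∃ E ∈ S, IsRankOnePair A E)
    {A B B' : Subgroup G} (hA : A ∈ S) (hB : B ∈ S) (hAB : IsRankOnePair A B)
    (hcc : RootCommutatorCase S A B') :
    ∃ D ∈ S, RootCommutatorCase S B D ∧ RootCommutatorCase S A ⁅B, D⁆ ∧ ⁅A, ⁅B, D⁆⁆ = D ∧
      (∀ d ∈ D, ∀ a ∈ A, d * a = a * d) ∧
      (∀ x ∈ A ⊔ B, conjBy (D ⊔ ⁅B, D⁆) x = D ⊔ ⁅B, D⁆) ∧
      IsSubgroupPartition (D ⊔ ⁅B, D⁆) (membersIn S (D ⊔ ⁅B, D⁆)) := by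
  have hpartn := cc_partition_line hS hA hB hAB hcc
  have hab : ∀ x ∈ A ⊔ ⁅A, B'⁆, ∀ y ∈ A ⊔ ⁅A, B'⁆, x * y = y * x :=
    sup_commute_of_commute (fun x hx y hy => root_comm hS hA hx hy)
      (fun x hx y hy => root_comm hS hcc.1 hx hy)
      (fun a ha c hc => (hcc.2.1 c hc a (Subgroup.mem_sup_left ha)).symm)
  have hinf : A ⊓ ⁅A, B'⁆ = ⊥ := cc_inf_eq_bot hS hB hAB hcc
  have hneq : A ≠ ⁅A, B'⁆ := by
    intro h
    rw [← h, inf_idem] at hinf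
    exact hS.ne_bot A hA hinf
  obtain ⟨D, hD, hDA, hADsup, ccBD, ccAE, hAE⟩ :=
    line_aux hS hpart hpartn hab ⟨hA, le_sup_left⟩ ⟨hcc.1, le_sup_right⟩ hneq rfl hB hAB
  obtain ⟨-, -, hNX, -⟩ :=
    cc_chain_main hS hD.1 hB ccBD.1 hA (Subgroup.commutator_comm D B) hAE
  obtain ⟨ED, hED, hDED⟩ := hpart D hD.1
  have hp2 := cc_partition_line hS hD.1 hED hDED (cc_symm ccBD)
  rw [Subgroup.commutator_comm D B] at hp2
  refine ⟨D, hD.1, ccBD, ccAE, hAE, ?_, ?_, hp2⟩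
  · intro d hd a ha
    exact hab d (hD.2 hd) a (Subgroup.mem_sup_left ha)
  · intro x hx
    exact hNX x (by rwa [sup_comm])

/-- In the non-degenerate situation, a normal subgroup containing the commutator subgroup of a
rank one group meets some member of `S` non-trivially. -/
theorem normal_meets_member (hS : IsRootSubgroupSet S)
    (hpart : ∀ A ∈ S, ∃ E ∈ S, IsRankOnePair A E) {N : Subgroup G} (hN : N.Normal)
    {A B B' : Subgroup G} (hA : A ∈ S) (hB : B ∈ S) (hAB : IsRankOnePair A B)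
    (hcc : RootCommutatorCase S A B') (hXN : ⁅A ⊔ B, A ⊔ B⁆ ≤ N) :
    ∃ F ∈ S, ∃ w ∈ F, w ∈ N ∧ w ≠ 1 := by
  obtain ⟨D, hD, ccBD, ccAE, hAE, hDA, hNX, hp⟩ := nat_module hS hpart hA hB hAB hcc
  obtain ⟨a, ha, ha1⟩ := root_exists_ne_one hS hA
  obtain ⟨b, hb, hb1⟩ := root_exists_ne_one hS hB
  obtain ⟨d, hd, hd1⟩ := root_exists_ne_one hS hD
  have hxX : a * b * a⁻¹ * b⁻¹ ∈ ⁅A ⊔ B, A ⊔ B⁆ :=
    comm_elt_mem (A := A ⊔ B) (B := A ⊔ B) (Subgroup.mem_sup_left ha) (Subgroup.mem_sup_right hb)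
  have hxN : a * b * a⁻¹ * b⁻¹ ∈ N := hXN hxX
  have hxAB : a * b * a⁻¹ * b⁻¹ ∈ A ⊔ B := Subgroup.commutator_le_self (A ⊔ B) hxX
  have hm : b * d * b⁻¹ ∈ D ⊔ ⁅B, D⁆ := by
    have := conj_mem_conjBy (A := D ⊔ ⁅B, D⁆) (Subgroup.mem_sup_left hd) b
    rwa [hNX b (Subgroup.mem_sup_right hb)] at this
  have hwN : (a * b * a⁻¹ * b⁻¹) * (b * d * b⁻¹) * (a * b * a⁻¹ * b⁻¹)⁻¹ * (b * d * b⁻¹)⁻¹ ∈ N := by
    have e : (a * b * a⁻¹ * b⁻¹) * (b * d * b⁻¹) * (a * b * a⁻¹ * b⁻¹)⁻¹ * (b * d * b⁻¹)⁻¹ =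
        (a * b * a⁻¹ * b⁻¹) * ((b * d * b⁻¹) * (a * b * a⁻¹ * b⁻¹)⁻¹ * (b * d * b⁻¹)⁻¹) := by
      group
    rw [e]
    exact N.mul_mem hxN (hN.conj_mem _ (N.inv_mem hxN) _)
  have hwM : (a * b * a⁻¹ * b⁻¹) * (b * d * b⁻¹) * (a * b * a⁻¹ * b⁻¹)⁻¹ * (b * d * b⁻¹)⁻¹ ∈
      D ⊔ ⁅B, D⁆ := by
    have h1 := conj_mem_conjBy (A := D ⊔ ⁅B, D⁆) hm (a * b * a⁻¹ * b⁻¹)
    rw [hNX _ hxAB] at h1
    exact Subgroup.mul_mem _ h1 (Subgroup.inv_mem _ hm)
  have hw1 : (a * b * a⁻¹ * b⁻¹) * (b * d * b⁻¹) * (a * b * a⁻¹ * b⁻¹)⁻¹ * (b * d * b⁻¹)⁻¹ ≠ 1 := by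
    intro hw
    have hxm : (a * b * a⁻¹ * b⁻¹) * (b * d * b⁻¹) = (b * d * b⁻¹) * (a * b * a⁻¹ * b⁻¹) := by
      calc (a * b * a⁻¹ * b⁻¹) * (b * d * b⁻¹)
          = ((a * b * a⁻¹ * b⁻¹) * (b * d * b⁻¹) * (a * b * a⁻¹ * b⁻¹)⁻¹ * (b * d * b⁻¹)⁻¹) *
            ((b * d * b⁻¹) * (a * b * a⁻¹ * b⁻¹)) := by group
        _ = (b * d * b⁻¹) * (a * b * a⁻¹ * b⁻¹) := by rw [hw, one_mul]
    have hda : d * a⁻¹ = a⁻¹ * d :=
      (Commute.inv_right (show Commute d a from hDA d hd a ha)).eq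
    have ham : a * (b * d * b⁻¹) * a⁻¹ = b * d * b⁻¹ := by
      calc a * (b * d * b⁻¹) * a⁻¹ = a * b * (d * a⁻¹) * b⁻¹ * (b * a * b⁻¹ * a⁻¹) := by group
        _ = a * b * (a⁻¹ * d) * b⁻¹ * (b * a * b⁻¹ * a⁻¹) := by rw [hda]
        _ = ((a * b * a⁻¹ * b⁻¹) * (b * d * b⁻¹)) * (b * a * b⁻¹ * a⁻¹) := by group
        _ = ((b * d * b⁻¹) * (a * b * a⁻¹ * b⁻¹)) * (b * a * b⁻¹ * a⁻¹) := by rw [hxm]
        _ = b * d * b⁻¹ := by group
    have he : b * d * b⁻¹ * d⁻¹ ∈ ⁅B, D⁆ := comm_elt_mem hb hd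
    have he1 : b * d * b⁻¹ * d⁻¹ ≠ 1 := by
      intro e
      apply cc_not_commute_elts hS hB hA (RankOnePair_symm hAB) ccBD hb hb1 hd hd1
      calc b * d = (b * d * b⁻¹ * d⁻¹) * (d * b) := by group
        _ = d * b := by rw [e, one_mul]
    apply cc_not_commute_elts hS hA hB hAB ccAE ha ha1 he he1
    have c1 : Commute a (b * d * b⁻¹) := by
      show a * (b * d * b⁻¹) = (b * d * b⁻¹) * a
      calc a * (b * d * b⁻¹) = (a * (b * d * b⁻¹) * a⁻¹) * a := by group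
        _ = (b * d * b⁻¹) * a := by rw [ham]
    have c2 : Commute a d⁻¹ := ((show Commute d a from hDA d hd a ha).symm).inv_right
    exact (c1.mul_right c2).eq
  obtain ⟨F, hF, hwF⟩ := hp.2.1 _ hwM hw1
  exact ⟨F, hF.1, _, hwF, hwN, hw1⟩

/-- A member meeting a normal subgroup non-trivially and having a commutator partner produces a
member inside the normal subgroup. -/
theorem member_le_of_meets {N : Subgroup G} (hN : N.Normal) {F F₂ : Subgroup G}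
    (hcc : RootCommutatorCase S F F₂) {w : G} (hw : w ∈ F) (hwN : w ∈ N) (hw1 : w ≠ 1) :
    ⁅F, F₂⁆ ≤ N := by
  rw [← hcc.2.2.1 w hw hw1, Subgroup.closure_le]
  rintro _ ⟨b, hb, rfl⟩
  show w * b * w⁻¹ * b⁻¹ ∈ N
  have e : w * b * w⁻¹ * b⁻¹ = w * (b * w⁻¹ * b⁻¹) := by group
  rw [e]
  exact N.mul_mem hwN (hN.conj_mem _ (N.inv_mem hwN) b)

end Cfsg.Agent.Lib.Helper86
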