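import Mathlib
import Cfsg.Agent.Lib.Helper91.SpU

set_option autoImplicit false

/-! Piece A3 of the S5171 project (helper91): the normalizer of the standard Sylow subgroup `U`
of `Sp_{2m}(K)` is block upper triangular (flag argument). -/

namespace Cfsg.Agent.Lib.Helper86.SpA3

open Matrix Cfsg.Agent.Lib.Helper91.SpU

variable (m : ℕ) (K : Type*) [Field K]

/-- the flag `V_k = ⟨e_0, …, e_{k-1}⟩` -/
def VV (k : ℕ) (v : Fin m ⊕ Fin m → K) : Prop :=
  (∀ j, v (Sum.inr j) = 0) ∧ ∀ j : Fin m, k ≤ (j : ℕ) → v (Sum.inl j) = 0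

theorem mulVec_sum (M : Matrix (Fin m ⊕ Fin m) (Fin m ⊕ Fin m) K) (v : Fin m ⊕ Fin m → K)
    (x : Fin m ⊕ Fin m) :
    (M *ᵥ v) x = ∑ i, M x (Sum.inl i) * v (Sum.inl i) + ∑ i, M x (Sum.inr i) * v (Sum.inr i) := by
  simp [Matrix.mulVec, dotProduct, Fintype.sum_sum_type]

theorem step_inU (k : ℕ) (u : Matrix.symplecticGroup (Fin m) K) (hu : InU m K u)
    (v : Fin m ⊕ Fin m → K) (hv : VV m K (k + 1) v) : VV m K k (u.1 *ᵥ v - v) := by
  obtain ⟨hC, hA0, hA1⟩ := hu
  refine ⟨fun j => ?_, fun j hj => ?_⟩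
  · rw [Pi.sub_apply, mulVec_sum, hv.1 j, sub_zero]
    have h1 : ∀ i, u.1 (Sum.inr j) (Sum.inl i) = 0 := fun i => congrFun (congrFun hC j) i
    simp [h1, hv.1]
  · rw [Pi.sub_apply, mulVec_sum]
    have h2 : ∑ i, u.1 (Sum.inl j) (Sum.inr i) * v (Sum.inr i) = 0 := by
      simp [hv.1]
    have h3 : ∑ i, u.1 (Sum.inl j) (Sum.inl i) * v (Sum.inl i) = v (Sum.inl j) := by
      rw [Finset.sum_eq_single j]
      · have : u.1 (Sum.inl j) (Sum.inl j) = 1 := hA1 j
        rw [this, one_mul]
      · intro i _ hij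
        rcases lt_or_gt_of_ne hij with h | h
        · have : u.1 (Sum.inl j) (Sum.inl i) = 0 := hA0 j i h
          rw [this, zero_mul]
        · have hi : k + 1 ≤ (i : ℕ) := by
            have : (j : ℕ) < (i : ℕ) := h
            omega
          rw [hv.2 i hi, mul_zero]
      · intro h
        exact absurd (Finset.mem_univ j) h
    rw [h2, h3, add_zero, sub_self]

theorem sq_sub_inl (B : Matrix (Fin m) (Fin m) K) (hB : Bᵀ = B) (w : Fin m ⊕ Fin m → K)
    (x : Fin m) :
    ((sq m K B hB).1 *ᵥ w - w) (Sum.inl x) = ∑ i, B x i * w (Sum.inr i) := by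
  rw [Pi.sub_apply, mulVec_sum, sq_coe]
  simp [Matrix.one_apply]

theorem sphi_sub_inl (A : GL (Fin m) K) (w : Fin m ⊕ Fin m → K) (x : Fin m) :
    ((sphi m K A).1 *ᵥ w - w) (Sum.inl x) = ∑ i, A.1 x i * w (Sum.inl i) - w (Sum.inl x) := by
  rw [Pi.sub_apply, mulVec_sum, sphi_coe]
  simp

theorem claim (U : Subgroup (Matrix.symplecticGroup (Fin m) K)) (hU : ∀ g, g ∈ U ↔ InU m K g)
    (g : Matrix.symplecticGroup (Fin m) K)
    (hg : g ∈ Subgroup.normalizer (U : Set (Matrix.symplecticGroup (Fin m) K))) :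
    ∀ k, k ≤ m → ∀ v, VV m K k v → VV m K k (g.1 *ᵥ v) := by
  intro k
  induction k with
  | zero =>
    intro _ v hv
    have hv0 : v = 0 := by
      funext x
      rcases x with j | j
      · exact hv.2 j (Nat.zero_le _)
      · exact hv.1 j
    subst hv0
    rw [Matrix.mulVec_zero]
    exact ⟨fun _ => rfl, fun _ _ => rfl⟩
  | succ k ih =>
    intro hk v hv
    have ih' := ih (by omega)
    obtain ⟨w, hw⟩ : ∃ w, w = g.1 *ᵥ v := ⟨_, rfl⟩
    rw [← hw]
    have star : ∀ u ∈ U, VV m K k (u.1 *ᵥ w - w) := by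
      intro u hu
      have hu' : g⁻¹ * u * g ∈ U := by
        have h := (Subgroup.mem_normalizer_iff.mp hg) (g⁻¹ * u * g)
        have e : g * (g⁻¹ * u * g) * g⁻¹ = u := by group
        rw [e] at h
        exact h.mpr hu
      have h1 := step_inU m K k (g⁻¹ * u * g) ((hU _).mp hu') v hv
      have h2 := ih' _ h1
      have e : g.1 *ᵥ ((g⁻¹ * u * g).1 *ᵥ v - v) = u.1 *ᵥ w - w := by
        rw [Matrix.mulVec_sub, Matrix.mulVec_mulVec, hw]
        have e1 : g.1 * (g⁻¹ * u * g).1 = u.1 * g.1 := by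
          have e2 : g * (g⁻¹ * u * g) = u * g := by group
          exact congrArg Subtype.val e2
        rw [e1, ← Matrix.mulVec_mulVec]
      rw [e] at h2
      exact h2
    have ha : ∀ j, w (Sum.inr j) = 0 := by
      intro j
      by_contra hne
      by_cases hkj : k ≤ (j : ℕ)
      · have hu : yy m K j 1 ∈ U := (hU _).mpr (yy_inU m K j 1)
        have h := (star _ hu).2 j hkj
        unfold yy at h
        rw [sq_sub_inl] at h
        simp [Matrix.single_apply] at h
        exact hne h
      · have hkm : k < m := by omega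
        have hjl : j ≠ (⟨k, hkm⟩ : Fin m) := by
          intro h
          have := congrArg Fin.val h
          simp at this
          omega
        have hB : (Matrix.single j (⟨k, hkm⟩ : Fin m) (1 : K) +
            Matrix.single (⟨k, hkm⟩ : Fin m) j (1 : K))ᵀ =
            Matrix.single j (⟨k, hkm⟩ : Fin m) (1 : K) +
            Matrix.single (⟨k, hkm⟩ : Fin m) j (1 : K) := by
          rw [Matrix.transpose_add, Matrix.transpose_single, Matrix.transpose_single, add_comm]
        have hu : sq m K _ hB ∈ U := (hU _).mpr (sq_inU m K _ hB)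
        have h := (star _ hu).2 (⟨k, hkm⟩ : Fin m) (le_refl k)
        rw [sq_sub_inl] at h
        simp [Matrix.single_apply, Matrix.add_apply, hjl] at h
        exact hne h
    have hb : ∀ j : Fin m, k + 1 ≤ (j : ℕ) → w (Sum.inl j) = 0 := by
      intro j hj
      by_contra hne
      have hkm : k < m := by omega
      have hij : (⟨k, hkm⟩ : Fin m) ≠ j := by
        intro h
        have := congrArg Fin.val h
        simp at this
        omega
      have hlt : (⟨k, hkm⟩ : Fin m) < j := by
        rw [Fin.lt_def]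
        simp
        omega
      have e1 : Matrix.transvection (⟨k, hkm⟩ : Fin m) j (1 : K) *
          Matrix.transvection (⟨k, hkm⟩ : Fin m) j (-1) = 1 := by
        rw [Matrix.transvection_mul_transvection_same _ _ hij, add_neg_cancel,
          Matrix.transvection_zero]
      have e2 : Matrix.transvection (⟨k, hkm⟩ : Fin m) j (-1 : K) *
          Matrix.transvection (⟨k, hkm⟩ : Fin m) j 1 = 1 := by
        rw [Matrix.transvection_mul_transvection_same _ _ hij, neg_add_cancel,
          Matrix.transvection_zero]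
      obtain ⟨A, hA⟩ : ∃ A : GL (Fin m) K, A.1 = Matrix.transvection (⟨k, hkm⟩ : Fin m) j 1 :=
        ⟨⟨Matrix.transvection (⟨k, hkm⟩ : Fin m) j 1,
          Matrix.transvection (⟨k, hkm⟩ : Fin m) j (-1), e1, e2⟩, rfl⟩
      have hAUT : IsUT m K A.1 := by
        rw [hA]
        refine ⟨fun a b hba => ?_, fun a => ?_⟩
        · have hab : a ≠ b := ne_of_gt hba
          have h2 : ¬ ((⟨k, hkm⟩ : Fin m) = a ∧ j = b) := by
            rintro ⟨rfl, rfl⟩
            exact absurd hba (not_lt.mpr hlt.le)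
          simp [Matrix.transvection, hab, h2]
        · have h2 : ¬ ((⟨k, hkm⟩ : Fin m) = a ∧ j = a) := by
            rintro ⟨h1, h2⟩
            exact hij (h1.trans h2.symm)
          simp [Matrix.transvection, h2]
      have hu : sphi m K A ∈ U := (hU _).mpr (sphi_inU m K A hAUT)
      have h := (star _ hu).2 (⟨k, hkm⟩ : Fin m) (le_refl k)
      rw [sphi_sub_inl, hA] at h
      simp [Matrix.transvection, Matrix.one_apply, Matrix.single_apply, Matrix.add_apply, add_mul,
        Finset.sum_add_distrib] at h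
      exact hne h
    exact ⟨ha, hb⟩

end Cfsg.Agent.Lib.Helper86.SpA3

namespace Cfsg.Agent.Lib.Helper86.SpA3

open Matrix Cfsg.Agent.Lib.Helper91.SpU

/-- PIECE A3: the normalizer of `U` is block upper triangular. -/
theorem normalizer_U_tri (m : ℕ) (K : Type*) [Field K]
    (U : Subgroup (Matrix.symplecticGroup (Fin m) K)) (hU : ∀ g, g ∈ U ↔ InU m K g)
    (g : Matrix.symplecticGroup (Fin m) K)
    (hg : g ∈ Subgroup.normalizer (U : Set (Matrix.symplecticGroup (Fin m) K))) :
    g.1.toBlocks₂₁ = 0 ∧ ∀ i j : Fin m, j < i → g.1.toBlocks₁₁ i j = 0 := by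
  have cl := claim m K U hU g hg
  have key : ∀ j : Fin m, VV m K ((j : ℕ) + 1) (g.1 *ᵥ Pi.single (Sum.inl j) 1) := by
    intro j
    apply cl ((j : ℕ) + 1) (by have := j.2; omega)
    refine ⟨fun x => by simp, fun x hx => ?_⟩
    have hxj : x ≠ j := by
      intro h
      subst h
      omega
    simp [hxj]
  have col : ∀ (j : Fin m) (x : Fin m ⊕ Fin m),
      (g.1 *ᵥ Pi.single (Sum.inl j) 1) x = g.1 x (Sum.inl j) := by
    intro j x
    rw [Matrix.mulVec_single_one]
    rfl
  refine ⟨?_, ?_⟩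
  · ext i j
    have h := (key j).1 i
    rw [col] at h
    exact h
  · intro i j hji
    have hji' : (j : ℕ) + 1 ≤ (i : ℕ) := by
      have : (j : ℕ) < (i : ℕ) := hji
      omega
    have h := (key j).2 i hji'
    rw [col] at h
    exact h

end Cfsg.Agent.Lib.Helper86.SpA3
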