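import Cfsg.Agent.Lib.Helper96.SpKap
import Cfsg.Agent.Lib.Helper51.JForm

/-!
S5956 piece UN-SUB: an invariant nondegenerate subspace of a unipotent isometry of Jordan type `μ`
has a type `ν ≤ μ` whose odd parts have even multiplicity.
-/

set_option autoImplicit false

namespace Cfsg.Agent.Lib.Helper86.SpUnSub

open Module Cfsg.Agent.Lib.Helper96.Sp Cfsg.Agent.Lib.Helper51.Jordan

theorem h86_kapM_add (μ ν : Multiset ℕ) (j : ℕ) : kapM (μ + ν) j = kapM μ j + kapM ν j := by
  unfold kapM
  rw [Multiset.map_add, Multiset.sum_add]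

theorem h86_kap_restrict {F : Type*} [Field F] {V : Type*} [AddCommGroup V] [Module F V]
    [FiniteDimensional F V] (N : Module.End F V) (Z : Submodule F V)
    (hZ' : ∀ x ∈ Z, N x ∈ Z) (j : ℕ) :
    kap (N.restrict hZ') j = kapOn N Z j := by
  unfold kapOn kap
  have h4 : (LinearMap.ker ((N.restrict hZ') ^ j)).map Z.subtype = Z ⊓ LinearMap.ker (N ^ j) := by
    ext x
    constructor
    · rintro ⟨w, hw, rfl⟩
      rw [SetLike.mem_coe, LinearMap.mem_ker] at hw
      refine ⟨w.2, ?_⟩
      rw [SetLike.mem_coe, LinearMap.mem_ker]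
      have h5 := restrict_pow N Z hZ' j w
      rw [hw] at h5
      exact h5.symm
    · rintro ⟨hx1, hx2⟩
      refine ⟨⟨x, hx1⟩, ?_, rfl⟩
      rw [SetLike.mem_coe, LinearMap.mem_ker]
      apply Subtype.ext
      rw [restrict_pow N Z hZ' j ⟨x, hx1⟩]
      exact LinearMap.mem_ker.mp hx2
  rw [← h4]
  exact (LinearEquiv.finrank_eq (Submodule.equivMapOfInjective Z.subtype
    (Submodule.injective_subtype Z) _))

theorem exists_subtype_of_nd_inv {F : Type*} [Field F] {V : Type*} [AddCommGroup V] [Module F V]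
    [FiniteDimensional F V] {B : LinearMap.BilinForm F V} (hA : B.IsAlt) (hN : ND B ⊤)
    (u : Module.End F V) (hu : Isom B u) (hnil : IsNilpotent (u - 1))
    (μ : Multiset ℕ) (hμpos : ∀ c ∈ μ, 0 < c) (hμ : ∀ j, kap (u - 1) j = kapM μ j)
    (W : Submodule F V) (hW : W.map u ≤ W) (hWnd : ND B W) :
    ∃ ν : Multiset ℕ, ν ≤ μ ∧ ν.sum = finrank F W ∧ ∀ a, Odd a → Even (ν.count a) := by
  have hWu : ∀ x ∈ W, u x ∈ W := fun x hx => hW ⟨x, hx, rfl⟩
  have hWN' : ∀ x ∈ W, (u - 1) x ∈ W := fun x hx => by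
    rw [LinearMap.sub_apply, Module.End.one_apply]
    exact W.sub_mem (hWu x hx) hx
  have hWN : W.map (u - 1) ≤ W := by
    rintro _ ⟨x, hx, rfl⟩
    exact hWN' x hx
  have hPu : (B.orthogonal W).map u ≤ B.orthogonal W := perp_invariant hN hu hW
  have hPN : (B.orthogonal W).map (u - 1) ≤ B.orthogonal W := by
    rintro _ ⟨x, hx, rfl⟩
    rw [LinearMap.sub_apply, Module.End.one_apply]
    exact (B.orthogonal W).sub_mem (hPu ⟨x, hx, rfl⟩) hx
  obtain ⟨ν, hν1, hν2, hν3⟩ := exists_type_on (u - 1) hnil W hWN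
  obtain ⟨ν', hν'1, hν'2, hν'3⟩ := exists_type_on (u - 1) hnil (B.orthogonal W) hPN
  have hsum : ∀ j, kapM μ j = kapM (ν + ν') j := by
    intro j
    have h1 := kapOn_sup (u - 1) W (B.orthogonal W) hWN hPN (nd_inf_perp hA hWnd) j
    rw [(nd_isCompl hA hWnd).sup_eq_top, kapOn_top, hμ j, hν3 j, hν'3 j] at h1
    rw [h86_kapM_add]
    exact h1
  have hμeq : μ = ν + ν' := by
    apply kapM_inj μ (ν + ν') hμpos _ hsum
    intro c hc
    rcases Multiset.mem_add.mp hc with h | h
    · exact hν1 c h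
    · exact hν'1 c h
  refine ⟨ν, ?_, hν2, ?_⟩
  · rw [hμeq]
    exact Multiset.le_add_right ν ν'
  · -- parity
    have hAW : (B.restrict W).IsAlt := fun x => hA (x : V)
    have hndW : ∀ y : W, (∀ x : W, (B.restrict W) x y = 0) → y = 0 := by
      intro y hy
      apply Subtype.ext
      apply hWnd (y : V) y.2
      intro v hv
      have h1 := hy ⟨v, hv⟩
      rw [LinearMap.BilinForm.restrict_apply] at h1
      rw [alt_swap hA]
      simpa using h1
    have hrest : u.restrict hWu - 1 = (u - 1).restrict hWN' := by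
      apply LinearMap.ext
      intro w
      apply Subtype.ext
      simp [LinearMap.restrict_apply]
    have hnilW : IsNilpotent (u.restrict hWu - 1) := by
      rw [hrest]
      exact restrict_nil (u - 1) hnil W hWN'
    have hunit : IsUnit (u.restrict hWu) := by
      have h1 := hnilW.isUnit_add_one
      rwa [sub_add_cancel] at h1
    obtain ⟨U, hU⟩ := hunit
    have hiso : ∀ x y : W, (B.restrict W) ((u.restrict hWu) x) ((u.restrict hWu) y)
        = (B.restrict W) x y := by
      intro x y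
      rw [LinearMap.BilinForm.restrict_apply, LinearMap.BilinForm.restrict_apply]
      simp only [LinearMap.domRestrict_apply, LinearMap.restrict_apply]
      exact hu x y
    have hpar := fun i => Cfsg.Agent.Lib.Helper51.JForm.even_of_isometry (B.restrict W) hAW hndW
      (u.restrict hWu) ((U⁻¹ : (Module.End F W)ˣ) : Module.End F W)
      (by rw [← hU]; exact U.mul_inv) (by rw [← hU]; exact U.inv_mul) hiso i
    intro a ha
    apply Cfsg.Agent.Lib.Helper51.JForm.even_count_of_kap ν (finrank F W) _ a ha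
    intro i
    obtain ⟨k, hk⟩ := hpar i
    refine ⟨k, ?_⟩
    rw [hk, hrest, h86_kap_restrict, hν3]

end Cfsg.Agent.Lib.Helper86.SpUnSub
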