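import Cfsg.Agent.Lib.Helper86.RootSub8

/-!
# Special rank one pairs with abelian unipotent subgroups

For a special rank one pair `(A, B)` we write `SPart A B a β` when `a ∈ A`, `β ∈ B` are non-identity
elements with `β A β⁻¹ = a⁻¹ B a` (so `β = b(a)⁻¹` in the usual notation).  Then
`a β a = β a β =: n(a)` interchanges `A` and `B`.
-/

set_option autoImplicit false

namespace Cfsg.Agent.Lib.Helper86

open Cfsg

variable {G : Type*} [Group G] {A B : Subgroup G}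

/-- `a ∈ A` and `β ∈ B` are partners: `β A β⁻¹ = a⁻¹ B a`. -/
def SPart (A B : Subgroup G) (a β : G) : Prop :=
  a ∈ A ∧ a ≠ 1 ∧ β ∈ B ∧ β ≠ 1 ∧ conjBy A β = conjBy B a⁻¹

theorem spart_exists (h : IsRankOnePair A B) {a : G} (ha : a ∈ A) (ha1 : a ≠ 1) :
    ∃ β, SPart A B a β := by
  obtain ⟨b, hb, hb1, hab⟩ := h.cond_left a ha ha1
  exact ⟨b⁻¹, ha, ha1, B.inv_mem hb, inv_ne_one.mpr hb1, hab⟩

theorem spart_surj (h : IsRankOnePair A B) {β : G} (hβ : β ∈ B) (hβ1 : β ≠ 1) :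
    ∃ a, SPart A B a β := by
  obtain ⟨a, ha, ha1, hab⟩ := h.cond_right β⁻¹ (B.inv_mem hβ) (inv_ne_one.mpr hβ1)
  rw [inv_inv] at hab
  exact ⟨a, ha, ha1, hβ, hβ1, hab.symm⟩

theorem spart_unique (h : IsRankOnePair A B) {a β β' : G} (h1 : SPart A B a β)
    (h2 : SPart A B a β') : β = β' := by
  have := rk1_partner_unique_left h (B.inv_mem h1.2.2.1) (B.inv_mem h2.2.2.1)
    (by rw [inv_inv, inv_inv, h1.2.2.2.2, h2.2.2.2.2])
  exact inv_injective this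

theorem spart_inj (h : IsRankOnePair A B) {a a' β : G} (h1 : SPart A B a β)
    (h2 : SPart A B a' β) : a = a' :=
  rk1_partner_unique_right h h1.1 h2.1 (by rw [← h1.2.2.2.2, ← h2.2.2.2.2])

/-- Elements of `A` are determined by the conjugate of `B` they produce. -/
theorem conjB_inj (h : IsRankOnePair A B) {x y : G} (hx : x ∈ A) (hy : y ∈ A)
    (hxy : conjBy B x = conjBy B y) : x = y := by
  have := rk1_partner_unique_right h (A.inv_mem hx) (A.inv_mem hy)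
    (by rw [inv_inv, inv_inv, hxy])
  exact inv_injective this

theorem spart_braid (hs : IsSpecialRankOnePair A B) {a β : G} (h1 : SPart A B a β) :
    a * β * a = β * a * β := by
  obtain ⟨ha, ha1, hβ, hβ1, hc⟩ := h1
  have h2 := hs.2 a ha ha1 β⁻¹ (B.inv_mem hβ) (inv_ne_one.mpr hβ1) (by rw [inv_inv]; exact hc)
  rw [inv_inv] at h2
  -- h2 : β * a * β⁻¹ = a⁻¹ * β * a
  calc a * β * a = (a * (β * a * β⁻¹)) * β := by group
    _ = (a * (a⁻¹ * β * a)) * β := by rw [h2]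
    _ = β * a * β := by group

theorem braid_conj_left {a β : G} (hb : a * β * a = β * a * β) :
    (a * β * a) * a * (a * β * a)⁻¹ = β := by
  calc (a * β * a) * a * (a * β * a)⁻¹ = (β * a * β) * a * (a * β * a)⁻¹ := by rw [hb]
    _ = β * (a * β * a) * (a * β * a)⁻¹ := by group
    _ = β := by group

theorem braid_conj_right {a β : G} (hb : a * β * a = β * a * β) :
    (a * β * a) * β * (a * β * a)⁻¹ = a := by
  calc (a * β * a) * β * (a * β * a)⁻¹ = a * (β * a * β) * (a * β * a)⁻¹ := by group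
    _ = a * (a * β * a) * (a * β * a)⁻¹ := by rw [hb]
    _ = a := by group

theorem spart_n_mem {a β : G} (h1 : SPart A B a β) : a * β * a ∈ A ⊔ B :=
  Subgroup.mul_mem _ (Subgroup.mul_mem _ (Subgroup.mem_sup_left h1.1)
    (Subgroup.mem_sup_right h1.2.2.1)) (Subgroup.mem_sup_left h1.1)

/-- `n(a) = a β a` conjugates `A` onto `B`. -/
theorem spart_conjA {a β : G} (h1 : SPart A B a β) : conjBy A (a * β * a) = B := by
  obtain ⟨ha, ha1, hβ, hβ1, hc⟩ := h1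
  rw [← conjBy_conjBy, conjBy_of_mem ha, ← conjBy_conjBy, hc, conjBy_cancel_inv]

/-- `n(a) = a β a` conjugates `B` onto `A`. -/
theorem spart_conjB (hs : IsSpecialRankOnePair A B) {a β : G} (h1 : SPart A B a β) :
    conjBy B (a * β * a) = A := by
  have hb := spart_braid hs h1
  have hn := spart_n_mem h1
  by_contra hne
  have hC : conjBy B (a * β * a) ∈ unipotentSubgroups A B :=
    unip_conj_mem (rk1_B_mem_unip hs.1) hn
  have hpair := rk1_pair_of_unip hs.1 hC (unip_self_mem A B) hne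
  have hmem : a ∈ conjBy B (a * β * a) ⊓ A := by
    refine Subgroup.mem_inf.mpr ⟨?_, h1.1⟩
    have := conj_mem_conjBy h1.2.2.1 (a * β * a)
    rwa [braid_conj_right hb] at this
  rw [rk1_inf_eq_bot hpair, Subgroup.mem_bot] at hmem
  exact h1.2.1 hmem

/-- The partner of `a⁻¹` is `β⁻¹`. -/
theorem spart_inv (hs : IsSpecialRankOnePair A B) {a β : G} (h1 : SPart A B a β) :
    SPart A B a⁻¹ β⁻¹ := by
  have h2 := spart_conjB hs h1
  obtain ⟨ha, ha1, hβ, hβ1, hc⟩ := h1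
  refine ⟨A.inv_mem ha, inv_ne_one.mpr ha1, B.inv_mem hβ, inv_ne_one.mpr hβ1, ?_⟩
  rw [inv_inv]
  -- conjBy B (a * β * a) = A
  rw [← conjBy_conjBy, ← conjBy_conjBy, conjBy_eq_iff, conjBy_of_mem (A.inv_mem ha),
    conjBy_eq_iff] at h2
  exact h2.symm

/-- `n(a) n(c)⁻¹` lies in the diagonal subgroup. -/
theorem spart_diag (hs : IsSpecialRankOnePair A B) {a β c γ : G} (h1 : SPart A B a β)
    (h2 : SPart A B c γ) : (a * β * a) * (c * γ * c)⁻¹ ∈ rankOneDiagonal A B := by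
  unfold rankOneDiagonal
  have eA : conjBy A (c * γ * c)⁻¹ = B := (conjBy_eq_iff.mp (spart_conjB hs h2)).symm
  have eB : conjBy B (c * γ * c)⁻¹ = A := (conjBy_eq_iff.mp (spart_conjA h2)).symm
  refine Subgroup.mem_inf.mpr ⟨Subgroup.mem_inf.mpr ⟨?_, ?_⟩, ?_⟩
  · exact Subgroup.mul_mem _ (spart_n_mem h1) (Subgroup.inv_mem _ (spart_n_mem h2))
  · rw [← conjBy_eq_self_iff, ← conjBy_conjBy, eA, spart_conjB hs h1]
  · rw [← conjBy_eq_self_iff, ← conjBy_conjBy, eB, spart_conjA h1]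

theorem diag_comm_le : ⁅A, rankOneDiagonal A B⁆ ≤ A := by
  rw [Subgroup.commutator_le]
  intro a ha h hh
  show a * h * a⁻¹ * h⁻¹ ∈ A
  have hn : h ∈ Subgroup.normalizer (A : Set G) := (Subgroup.mem_inf.mp (Subgroup.mem_inf.mp hh).1).2
  have h3 : h * a⁻¹ * h⁻¹ ∈ A := (Subgroup.mem_normalizer_iff.mp hn a⁻¹).mp (A.inv_mem ha)
  have e : a * h * a⁻¹ * h⁻¹ = a * (h * a⁻¹ * h⁻¹) := by group
  rw [e]
  exact A.mul_mem ha h3

/-- Conjugation by `n(e)` maps `B` into `A`. -/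
theorem spart_conj_mem (hs : IsSpecialRankOnePair A B) {e ε l : G} (h1 : SPart A B e ε)
    (hl : l ∈ B) : (e * ε * e) * l * (e * ε * e)⁻¹ ∈ A := by
  have := conj_mem_conjBy hl (e * ε * e)
  rwa [spart_conjB hs h1] at this

/-- The maps `l ↦ n(e) l n(e)⁻¹` agree modulo `⁅A, H⁆`. -/
theorem spart_conj_indep (hs : IsSpecialRankOnePair A B) {e ε e' ε' l : G} (h1 : SPart A B e ε)
    (h2 : SPart A B e' ε') (hl : l ∈ B) :
    ((e' * ε' * e') * l * (e' * ε' * e')⁻¹) * ((e * ε * e) * l * (e * ε * e)⁻¹)⁻¹ ∈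
      ⁅A, rankOneDiagonal A B⁆ := by
  have hx := spart_conj_mem hs h1 hl
  have hh := spart_diag hs h2 h1
  have := comm_elt_mem' (A := A) (B := rankOneDiagonal A B) hx hh
  have e1 : (e' * ε' * e') * (e * ε * e)⁻¹ * ((e * ε * e) * l * (e * ε * e)⁻¹) *
      ((e' * ε' * e') * (e * ε * e)⁻¹)⁻¹ * ((e * ε * e) * l * (e * ε * e)⁻¹)⁻¹ =
      ((e' * ε' * e') * l * (e' * ε' * e')⁻¹) * ((e * ε * e) * l * (e * ε * e)⁻¹)⁻¹ := by group
  rwa [e1] at this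

theorem spart_conj_self (hs : IsSpecialRankOnePair A B) {e ε d δ : G} (h1 : SPart A B e ε)
    (h2 : SPart A B d δ) :
    ((e * ε * e) * δ * (e * ε * e)⁻¹) * d⁻¹ ∈ ⁅A, rankOneDiagonal A B⁆ := by
  have h3 := spart_conj_indep hs h2 h1 h2.2.2.1
  rw [braid_conj_right (spart_braid hs h2)] at h3
  -- h3 : ((eεe) δ (eεe)⁻¹) * d⁻¹ ∈ K
  exact h3

/-! ### Congruences modulo a subgroup of the abelian group `A` -/

section ModK

variable {K : Subgroup G}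

theorem modK_symm {x y : G} (h : x * y⁻¹ ∈ K) : y * x⁻¹ ∈ K := by
  have := K.inv_mem h
  have e : (x * y⁻¹)⁻¹ = y * x⁻¹ := by group
  rwa [e] at this

theorem modK_trans {x y z : G} (h1 : x * y⁻¹ ∈ K) (h2 : y * z⁻¹ ∈ K) : x * z⁻¹ ∈ K := by
  have := K.mul_mem h1 h2
  have e : x * y⁻¹ * (y * z⁻¹) = x * z⁻¹ := by group
  rwa [e] at this

theorem modK_mul (hKA : K ≤ A) (hA : ∀ x ∈ A, ∀ y ∈ A, x * y = y * x) {x y x' y' : G}
    (hy : y ∈ A) (h1 : x * y⁻¹ ∈ K) (h2 : x' * y'⁻¹ ∈ K) : (x * x') * (y * y')⁻¹ ∈ K := by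
  have h3 : y * (x' * y'⁻¹) = (x' * y'⁻¹) * y := hA y hy _ (hKA h2)
  have e : (x * x') * (y * y')⁻¹ = (x * y⁻¹) * (x' * y'⁻¹) := by
    calc (x * x') * (y * y')⁻¹ = x * ((x' * y'⁻¹) * y) * y⁻¹ * y⁻¹ := by group
      _ = x * (y * (x' * y'⁻¹)) * y⁻¹ * y⁻¹ := by rw [h3]
      _ = x * ((x' * y'⁻¹) * y) * y⁻¹ * y⁻¹ := by rw [h3]
      _ = x * (x' * y'⁻¹) * y⁻¹ := by group
      _ = x * (y⁻¹ * (y * (x' * y'⁻¹))) * y⁻¹ := by group
      _ = x * (y⁻¹ * ((x' * y'⁻¹) * y)) * y⁻¹ := by rw [h3]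
      _ = (x * y⁻¹) * (x' * y'⁻¹) := by group
  rw [e]
  exact K.mul_mem h1 h2

theorem modK_inv (hKA : K ≤ A) (hA : ∀ x ∈ A, ∀ y ∈ A, x * y = y * x) {x y : G}
    (hx : x ∈ A) (h1 : x * y⁻¹ ∈ K) : x⁻¹ * y⁻¹⁻¹ ∈ K := by
  have h3 : x * (x * y⁻¹) = (x * y⁻¹) * x := hA x hx _ (hKA h1)
  have e : x⁻¹ * y⁻¹⁻¹ = (x * y⁻¹)⁻¹ := by
    calc x⁻¹ * y⁻¹⁻¹ = ((x * y⁻¹) * x)⁻¹ * x := by group
      _ = (x * (x * y⁻¹))⁻¹ * x := by rw [h3]
      _ = (x * y⁻¹)⁻¹ := by group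
  rw [e]
  exact K.inv_mem h1

end ModK

/-- Additivity of the partner map modulo `⁅A, H⁆`. -/
theorem spart_mul_mod (hs : IsSpecialRankOnePair A B) (hA : ∀ x ∈ A, ∀ y ∈ A, x * y = y * x)
    {a β d δ d' : G} (h1 : SPart A B a β) (h2 : SPart A B d δ) (h3 : SPart A B d' (β * δ)) :
    d' * (a * d)⁻¹ ∈ ⁅A, rankOneDiagonal A B⁆ := by
  have k1 := spart_conj_self hs h1 h2
  have k2 := spart_conj_self hs h1 h3
  have e : (a * β * a) * (β * δ) * (a * β * a)⁻¹ = a * ((a * β * a) * δ * (a * β * a)⁻¹) := by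
    calc (a * β * a) * (β * δ) * (a * β * a)⁻¹
        = ((a * β * a) * β * (a * β * a)⁻¹) * ((a * β * a) * δ * (a * β * a)⁻¹) := by group
      _ = a * ((a * β * a) * δ * (a * β * a)⁻¹) := by rw [braid_conj_right (spart_braid hs h1)]
  rw [e] at k2
  have k3 : a * a⁻¹ ∈ ⁅A, rankOneDiagonal A B⁆ := by
    rw [mul_inv_cancel]; exact Subgroup.one_mem _
  have k4 := modK_mul diag_comm_le hA h1.1 k3 k1
  exact modK_trans (modK_symm k2) k4

/-- The key congruence: `a ≡ c²` modulo `⁅A, H⁆` for `a ≠ 1`, `c ∉ {1, a}`. -/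
theorem spart_key (hs : IsSpecialRankOnePair A B) (hA : ∀ x ∈ A, ∀ y ∈ A, x * y = y * x)
    {a c : G} (ha : a ∈ A) (ha1 : a ≠ 1) (hc : c ∈ A) (hc1 : c ≠ 1) (hca : c ≠ a) :
    a * (c * c)⁻¹ ∈ ⁅A, rankOneDiagonal A B⁆ := by
  obtain ⟨β, h1⟩ := spart_exists hs.1 ha ha1
  obtain ⟨γ, h2⟩ := spart_exists hs.1 hc hc1
  have hd : c * a⁻¹ ∈ A := A.mul_mem hc (A.inv_mem ha)
  have hd1 : c * a⁻¹ ≠ 1 := by
    intro e
    apply hca
    calc c = (c * a⁻¹) * a := by group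
      _ = a := by rw [e, one_mul]
  obtain ⟨δ, h3⟩ := spart_exists hs.1 hd hd1
  have hβδ : β * δ ≠ 1 := by
    intro e
    have e2 : δ = β⁻¹ := by
      calc δ = β⁻¹ * (β * δ) := by group
        _ = β⁻¹ := by rw [e, mul_one]
    rw [e2] at h3
    have e3 := spart_inj hs.1 h3 (spart_inv hs h1)
    apply hc1
    calc c = (c * a⁻¹) * a := by group
      _ = a⁻¹ * a := by rw [e3]
      _ = 1 := by group
  obtain ⟨d', h4⟩ := spart_surj hs.1 (B.mul_mem h1.2.2.1 h3.2.2.1) hβδ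
  have hh := spart_diag hs h1 h2
  have hhB : conjBy B ((a * β * a) * (c * γ * c)⁻¹) = B := by
    rw [conjBy_eq_self_iff]
    exact (Subgroup.mem_inf.mp hh).2
  have hhA : (a * β * a) * (c * γ * c)⁻¹ ∈ Subgroup.normalizer (A : Set G) :=
    (Subgroup.mem_inf.mp (Subgroup.mem_inf.mp hh).1).2
  have hx1 : ((a * β * a) * (c * γ * c)⁻¹) * c * ((a * β * a) * (c * γ * c)⁻¹)⁻¹ ∈ A :=
    (Subgroup.mem_normalizer_iff.mp hhA c).mp hc
  -- first computation of `n(a)` applied to the point `c⁻¹ B c`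
  have hi : conjBy (conjBy B c⁻¹) (a * β * a) =
      conjBy B (((a * β * a) * (c * γ * c)⁻¹) * c * ((a * β * a) * (c * γ * c)⁻¹)⁻¹) := by
    have e1 : a * β * a = ((a * β * a) * (c * γ * c)⁻¹) * (c * γ * c) := by group
    have e2 : conjBy (conjBy B c⁻¹) (c * γ * c) = conjBy B c := by
      rw [conjBy_conjBy]
      have : c * γ * c * c⁻¹ = c * γ := by group
      rw [this, ← conjBy_conjBy, conjBy_of_mem h2.2.2.1]
    have e3 : ((a * β * a) * (c * γ * c)⁻¹) * c =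
        (((a * β * a) * (c * γ * c)⁻¹) * c * ((a * β * a) * (c * γ * c)⁻¹)⁻¹) *
          ((a * β * a) * (c * γ * c)⁻¹) := by group
    calc conjBy (conjBy B c⁻¹) (a * β * a)
        = conjBy (conjBy B c⁻¹) (((a * β * a) * (c * γ * c)⁻¹) * (c * γ * c)) := by rw [← e1]
      _ = conjBy (conjBy B c) ((a * β * a) * (c * γ * c)⁻¹) := by rw [← conjBy_conjBy, e2]
      _ = conjBy B (((a * β * a) * (c * γ * c)⁻¹) * c) := by rw [conjBy_conjBy]
      _ = conjBy B ((((a * β * a) * (c * γ * c)⁻¹) * c * ((a * β * a) * (c * γ * c)⁻¹)⁻¹) *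
          ((a * β * a) * (c * γ * c)⁻¹)) := by rw [← e3]
      _ = conjBy B (((a * β * a) * (c * γ * c)⁻¹) * c * ((a * β * a) * (c * γ * c)⁻¹)⁻¹) := by
          rw [← conjBy_conjBy, hhB]
  -- second computation
  have hii : conjBy (conjBy B c⁻¹) (a * β * a) = conjBy B (a * d'⁻¹) := by
    have e1 : a * β * a * c⁻¹ = (a * β) * (c * a⁻¹)⁻¹ := by group
    have e2 : a * β * δ = a * (β * δ) := by group
    calc conjBy (conjBy B c⁻¹) (a * β * a) = conjBy B ((a * β) * (c * a⁻¹)⁻¹) := by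
          rw [conjBy_conjBy, e1]
      _ = conjBy (conjBy B (c * a⁻¹)⁻¹) (a * β) := by rw [conjBy_conjBy]
      _ = conjBy (conjBy A δ) (a * β) := by rw [h3.2.2.2.2]
      _ = conjBy A (a * (β * δ)) := by rw [conjBy_conjBy, e2]
      _ = conjBy (conjBy A (β * δ)) a := by rw [conjBy_conjBy]
      _ = conjBy (conjBy B d'⁻¹) a := by rw [h4.2.2.2.2]
      _ = conjBy B (a * d'⁻¹) := by rw [conjBy_conjBy]
  have hx : ((a * β * a) * (c * γ * c)⁻¹) * c * ((a * β * a) * (c * γ * c)⁻¹)⁻¹ = a * d'⁻¹ :=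
    conjB_inj hs.1 hx1 (A.mul_mem ha (A.inv_mem h4.1)) (hi.symm.trans hii)
  -- congruences
  have r1 : (a * d'⁻¹) * c⁻¹ ∈ ⁅A, rankOneDiagonal A B⁆ := by
    rw [← hx]
    exact comm_elt_mem' (A := A) (B := rankOneDiagonal A B) hc hh
  have r2 : d' * c⁻¹ ∈ ⁅A, rankOneDiagonal A B⁆ := by
    have := spart_mul_mod hs hA h1 h3 h4
    have e : a * (c * a⁻¹) = c := by
      calc a * (c * a⁻¹) = (a * c) * a⁻¹ := by group
        _ = (c * a) * a⁻¹ := by rw [hA a ha c hc]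
        _ = c := by group
    rwa [e] at this
  have r3 : d'⁻¹ * c⁻¹⁻¹ ∈ ⁅A, rankOneDiagonal A B⁆ := modK_inv diag_comm_le hA h4.1 r2
  have r4 : a * a⁻¹ ∈ ⁅A, rankOneDiagonal A B⁆ := by
    rw [mul_inv_cancel]; exact Subgroup.one_mem _
  have r5 : (a * d'⁻¹) * (a * c⁻¹)⁻¹ ∈ ⁅A, rankOneDiagonal A B⁆ :=
    modK_mul diag_comm_le hA ha r4 r3
  have r6 : (a * c⁻¹) * c⁻¹ ∈ ⁅A, rankOneDiagonal A B⁆ := modK_trans (modK_symm r5) r1
  have e : a * (c * c)⁻¹ = (a * c⁻¹) * c⁻¹ := by group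
  rw [e]
  exact r6

/-- In a special rank one pair with abelian unipotent subgroups and more than three elements in
`A`, the diagonal subgroup `H` satisfies `⁅A, H⁆ = A`. -/
theorem spart_comm_diag_eq (hs : IsSpecialRankOnePair A B)
    (hA : ∀ x ∈ A, ∀ y ∈ A, x * y = y * x)
    (h4 : ∀ x ∈ A, ∃ y ∈ A, ∃ z ∈ A, y ≠ 1 ∧ y ≠ x ∧ z ≠ 1 ∧ z ≠ x ∧ z ≠ y) :
    ⁅A, rankOneDiagonal A B⁆ = A := by
  apply le_antisymm diag_comm_le
  intro x hx
  by_cases hx1 : x = 1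
  · rw [hx1]; exact Subgroup.one_mem _
  obtain ⟨y, hy, z, hz, hy1, hyx, hz1, hzx, hzy⟩ := h4 x hx
  have r1 := spart_key hs hA hx hx1 hz hz1 hzx
  have r2 := spart_key hs hA hy hy1 hz hz1 hzy
  have r3 := spart_key hs hA hy hy1 hx hx1 (Ne.symm hyx)
  have r4 : x * y⁻¹ ∈ ⁅A, rankOneDiagonal A B⁆ := modK_trans r1 (modK_symm r2)
  have r5 : x * (x * x)⁻¹ ∈ ⁅A, rankOneDiagonal A B⁆ := modK_trans r4 r3
  have e : x * (x * x)⁻¹ = x⁻¹ := by group
  rw [e] at r5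
  have := Subgroup.inv_mem _ r5
  rwa [inv_inv] at this

/-- Such a pair generates a perfect group. -/
theorem spart_perfect (hs : IsSpecialRankOnePair A B)
    (hA : ∀ x ∈ A, ∀ y ∈ A, x * y = y * x)
    (h4 : ∀ x ∈ A, ∃ y ∈ A, ∃ z ∈ A, y ≠ 1 ∧ y ≠ x ∧ z ≠ 1 ∧ z ≠ x ∧ z ≠ y) :
    ⁅A ⊔ B, A ⊔ B⁆ = A ⊔ B := by
  apply le_antisymm (Subgroup.commutator_le_self (A ⊔ B))
  have hAle : A ≤ ⁅A ⊔ B, A ⊔ B⁆ := by
    have h1 : ⁅A, rankOneDiagonal A B⁆ ≤ ⁅A ⊔ B, A ⊔ B⁆ :=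
      Subgroup.commutator_mono le_sup_left (fun h hh => (Subgroup.mem_inf.mp (Subgroup.mem_inf.mp hh).1).1)
    rw [spart_comm_diag_eq hs hA h4] at h1
    exact h1
  refine sup_le hAle ?_
  obtain ⟨x, hx, hxe⟩ := rk1_B_mem_unip hs.1
  intro y hy0
  have hy : y ∈ conjBy A x := by rw [← hxe]; exact hy0
  rw [mem_conjBy] at hy
  have h2 := hAle hy
  have h3 : x * (x⁻¹ * y * x) * x⁻¹ * (x⁻¹ * y * x)⁻¹ ∈ ⁅A ⊔ B, A ⊔ B⁆ :=
    comm_elt_mem (A := A ⊔ B) (B := A ⊔ B) hx (Subgroup.commutator_le_self (A ⊔ B) h2)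
  have h5 := Subgroup.mul_mem _ h3 h2
  have e : x * (x⁻¹ * y * x) * x⁻¹ * (x⁻¹ * y * x)⁻¹ * (x⁻¹ * y * x) = y := by group
  rwa [e] at h5

theorem exists_not_mem_finset_of_card {α : Type*} (s : Finset α)
    (h : (s.card : ℕ∞) < ENat.card α) : ∃ w, w ∉ s := by
  by_contra hcon
  push Not at hcon
  letI : Fintype α := ⟨s, hcon⟩
  have e : ENat.card α = s.card := by
    rw [ENat.card_eq_coe_fintype_card]
    rfl
  rw [e] at h
  exact lt_irrefl _ h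

theorem four_of_card (h : 3 < ENat.card ↥A) :
    ∀ x ∈ A, ∃ y ∈ A, ∃ z ∈ A, y ≠ 1 ∧ y ≠ x ∧ z ≠ 1 ∧ z ≠ x ∧ z ≠ y := by
  classical
  intro x hx
  obtain ⟨y, hy⟩ := exists_not_mem_finset_of_card ({1, ⟨x, hx⟩} : Finset ↥A) (by
    refine lt_of_le_of_lt ?_ h
    have : (({1, ⟨x, hx⟩} : Finset ↥A).card : ℕ∞) ≤ ((2 : ℕ) : ℕ∞) := by
      exact_mod_cast Finset.card_le_two
    exact this.trans (by norm_num))
  obtain ⟨z, hz⟩ := exists_not_mem_finset_of_card ({1, ⟨x, hx⟩, y} : Finset ↥A) (by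
    refine lt_of_le_of_lt ?_ h
    have : (({1, ⟨x, hx⟩, y} : Finset ↥A).card : ℕ∞) ≤ ((3 : ℕ) : ℕ∞) := by
      exact_mod_cast Finset.card_le_three
    exact this)
  simp only [Finset.mem_insert, Finset.mem_singleton, not_or] at hy hz
  refine ⟨y, y.2, z, z.2, ?_, ?_, ?_, ?_, ?_⟩
  · intro e; exact hy.1 (Subtype.ext e)
  · intro e; exact hy.2 (Subtype.ext e)
  · intro e; exact hz.1 (Subtype.ext e)
  · intro e; exact hz.2.1 (Subtype.ext e)
  · intro e; exact hz.2.2 (Subtype.ext e)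

end Cfsg.Agent.Lib.Helper86
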