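import Cfsg.Agent.Lib.Helper86.Line2

/-!
# The stabilizer of a family of subgroups, and weak TI-subsets
-/

set_option autoImplicit false

namespace Cfsg.Agent.Lib.Helper86

open Cfsg

variable {G : Type*} [Group G] {S : Set (Subgroup G)}

/-- The elements of `G` permuting the family `Δ` by conjugation. -/
def stabFam (Δ : Set (Subgroup G)) : Subgroup G where
  carrier := {g | (∀ E ∈ Δ, conjBy E g ∈ Δ) ∧ (∀ E ∈ Δ, conjBy E g⁻¹ ∈ Δ)}
  mul_mem' := by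
    rintro x y ⟨hx1, hx2⟩ ⟨hy1, hy2⟩
    refine ⟨fun A hA => ?_, fun A hA => ?_⟩
    · rw [← conjBy_conjBy]; exact hx1 _ (hy1 A hA)
    · rw [mul_inv_rev, ← conjBy_conjBy]; exact hy2 _ (hx2 A hA)
  one_mem' := by
    refine ⟨fun A hA => ?_, fun A hA => ?_⟩
    · rw [conjBy_one]; exact hA
    · rw [inv_one, conjBy_one]; exact hA
  inv_mem' := by
    rintro x ⟨hx1, hx2⟩
    refine ⟨hx2, fun A hA => ?_⟩
    rw [inv_inv]; exact hx1 A hA

theorem mem_stabFam {Δ : Set (Subgroup G)} {g : G} :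
    g ∈ stabFam Δ ↔ (∀ E ∈ Δ, conjBy E g ∈ Δ) ∧ (∀ E ∈ Δ, conjBy E g⁻¹ ∈ Δ) := Iff.rfl

/-- An element of a member of `S` fixing some member of a weak TI-subset `Δ` stabilizes `Δ`. -/
theorem weakTI_stab {Δ : Set (Subgroup G)} (hΔ : IsWeakTISubset S Δ) {E U : Subgroup G}
    (hE : E ∈ Δ) (hU : U ∈ S) {u : G} (hu : u ∈ U) (hfix : conjBy E u = E) : u ∈ stabFam Δ := by
  by_cases hu1 : u = 1
  · rw [hu1]; exact Subgroup.one_mem _
  rcases hΔ.2.2.2 u ⟨hu1, U, hU, hu⟩ with h | h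
  · refine ⟨fun E' hE' => ?_, fun E' hE' => ?_⟩
    · rw [← h]; exact ⟨E', hE', rfl⟩
    · rw [← h] at hE'
      obtain ⟨E'', hE'', rfl⟩ := hE'
      show conjBy (conjBy E'' u) u⁻¹ ∈ Δ
      rw [conjBy_inv_cancel]; exact hE''
  · exfalso
    exact Set.disjoint_left.mp h ⟨E, hE, rfl⟩ (by show conjBy E u ∈ Δ; rw [hfix]; exact hE)

theorem weakTI_commute_le {Δ : Set (Subgroup G)} (hΔ : IsWeakTISubset S Δ) {E U : Subgroup G}
    (hE : E ∈ Δ) (hU : U ∈ S) (hc : ∀ u ∈ U, ∀ e ∈ E, u * e = e * u) : U ≤ stabFam Δ :=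
  fun u hu => weakTI_stab hΔ hE hU hu (conjBy_of_centralizes (fun x hx => hc u hu x hx))

theorem weakTI_self_le (hS : IsRootSubgroupSet S) {Δ : Set (Subgroup G)}
    (hΔ : IsWeakTISubset S Δ) {E : Subgroup G} (hE : E ∈ Δ) : E ≤ stabFam Δ :=
  weakTI_commute_le hΔ hE (hΔ.1 hE) (fun _ hu _ he => root_comm hS (hΔ.1 hE) hu he)

end Cfsg.Agent.Lib.Helper86
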